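import Mathlib

/-!
# S1632 team project (helper34): theta series of an even unimodular lattice of rank 24

Definitions and the piece statements (`St…` Props).  Namespace `Cfsg.Agent.H34.Th`.

Plan.  `Q x = x ⬝ᵥ (B *ᵥ x)`; the theta series `thetaC Q z = ∑' x, exp (π i z Q x)` is a modular
form of weight 12 for `SL(2, ℤ)`; Mathlib's Sturm bound (`ModularForm.sturm_bound_levelOne`) and
the `q`-expansions of `E₄`, `E₆` then give the coefficients.  The inversion formula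
`θ(-1/z) = z ^ 12 θ(z)` is proved on the imaginary axis by an induction on the dimension
(iterated one-dimensional Poisson summation along an `LDLᵀ` decomposition) and extended by the
identity theorem.
-/

set_option autoImplicit false

namespace Cfsg.Agent.H34.Th

open Real Matrix

noncomputable section

/-- cast an integer vector to `ℝ`. -/
def cst {n : ℕ} (x : Fin n → ℤ) : Fin n → ℝ := fun i => (x i : ℝ)

/-- primal step: `a (x₀ + l · x')² + q x'`. -/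
def qS {n : ℕ} (a : ℝ) (l : Fin n → ℝ) (q : (Fin n → ℝ) → ℝ) : (Fin (n + 1) → ℝ) → ℝ :=
  fun x => a * (x 0 + ∑ j : Fin n, l j * x j.succ) ^ 2 + q (fun j => x j.succ)

/-- dual step: `y₀² / a + q' (y' - y₀ l)`. -/
def qD {n : ℕ} (a : ℝ) (l : Fin n → ℝ) (q' : (Fin n → ℝ) → ℝ) : (Fin (n + 1) → ℝ) → ℝ :=
  fun y => (y 0) ^ 2 / a + q' (fun j => y j.succ - y 0 * l j)

/-- primal summability. -/
def SP (n : ℕ) (q : (Fin n → ℝ) → ℝ) : Prop :=
  ∀ t : ℝ, 0 < t → Summable (fun x : Fin n → ℤ => Real.exp (-π * t * q (cst x)))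

/-- dual summability, with a bound uniform in the real shift `p`. -/
def SD (n : ℕ) (q' : (Fin n → ℝ) → ℝ) : Prop :=
  ∀ t : ℝ, 0 < t → ∃ M : ℝ, ∀ p : Fin n → ℝ,
    Summable (fun y : Fin n → ℤ => Real.exp (-π * q' (cst y - p) / t)) ∧
    ∑' y : Fin n → ℤ, Real.exp (-π * q' (cst y - p) / t) ≤ M

/-- the Poisson formula with real phases `p`:
`∑ₓ exp (-π t q x + 2π i x·p) = c t^(-n/2) ∑_y exp (-π q' (y - p) / t)`. -/
def PF (n : ℕ) (q q' : (Fin n → ℝ) → ℝ) (c : ℝ) : Prop :=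
  ∀ t : ℝ, 0 < t → ∀ p : Fin n → ℝ,
    ∑' x : Fin n → ℤ, Complex.exp (((-π * t * q (cst x) : ℝ) : ℂ) +
        2 * π * Complex.I * ((∑ j : Fin n, (x j : ℝ) * p j : ℝ) : ℂ)) =
      ((c * (1 / Real.sqrt t) ^ n *
        ∑' y : Fin n → ℤ, Real.exp (-π * q' (cst y - p) / t) : ℝ) : ℂ)

/-- the induction predicate. -/
def Good (n : ℕ) (q q' : (Fin n → ℝ) → ℝ) (c : ℝ) : Prop :=
  SP n q ∧ SD n q' ∧ PF n q q' c

/-! ### one-dimensional pieces -/

/-- TH-1D (a): one-dimensional Poisson summation for a Gaussian with a shift `s` and a phase `p`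
(from `Complex.tsum_exp_neg_quadratic`), with the summability of the shifted Gaussian. -/
def St1F : Prop :=
  ∀ a : ℝ, 0 < a → ∀ s p : ℝ,
    Summable (fun k : ℤ => Real.exp (-π * a * ((k : ℝ) + s) ^ 2)) ∧
    ∑' k : ℤ, Complex.exp (((-π * a * ((k : ℝ) + s) ^ 2 : ℝ) : ℂ) +
        2 * π * Complex.I * (((k : ℝ) * p : ℝ) : ℂ)) =
      ((1 / Real.sqrt a : ℝ) : ℂ) *
        ∑' m : ℤ, Complex.exp (((-π * ((m : ℝ) - p) ^ 2 / a : ℝ) : ℂ) +
          2 * π * Complex.I * ((((m : ℝ) - p) * s : ℝ) : ℂ))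

/-- TH-1D (b): the shifted Gaussian sums are bounded uniformly in the shift. -/
def St1UB : Prop :=
  ∀ a : ℝ, 0 < a → ∃ M : ℝ, ∀ s : ℝ,
    Summable (fun k : ℤ => Real.exp (-π * a * ((k : ℝ) + s) ^ 2)) ∧
    ∑' k : ℤ, Real.exp (-π * a * ((k : ℝ) + s) ^ 2) ≤ M

/-! ### the induction step -/

/-- TH-STEPSP. -/
def StStepSP : Prop :=
  ∀ (n : ℕ) (q : (Fin n → ℝ) → ℝ), SP n q → ∀ a : ℝ, 0 < a → ∀ l : Fin n → ℝ,
    SP (n + 1) (qS a l q)

/-- TH-STEPSD. -/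
def StStepSD : Prop :=
  ∀ (n : ℕ) (q' : (Fin n → ℝ) → ℝ), SD n q' → ∀ a : ℝ, 0 < a → ∀ l : Fin n → ℝ,
    SD (n + 1) (qD a l q')

/-- TH-STEPPF. -/
def StStepPF : Prop :=
  ∀ (n : ℕ) (q q' : (Fin n → ℝ) → ℝ) (c : ℝ), SP n q → SD n q' → PF n q q' c →
    ∀ a : ℝ, 0 < a → ∀ l : Fin n → ℝ, SP (n + 1) (qS a l q) → SD (n + 1) (qD a l q') →
      PF (n + 1) (qS a l q) (qD a l q') (c / Real.sqrt a)

/-- base case and step of the induction, for `Good`. -/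
def StGoodAll : Prop :=
  Good 0 (fun _ => 0) (fun _ => 0) 1 ∧
  ∀ (n : ℕ) (q q' : (Fin n → ℝ) → ℝ) (c : ℝ), Good n q q' c →
    ∀ a : ℝ, 0 < a → ∀ l : Fin n → ℝ, Good (n + 1) (qS a l q) (qD a l q') (c / Real.sqrt a)

/-! ### linear algebra -/

/-- TH-DECOMP: the `LDLᵀ` (Schur complement) induction: a positive definite real symmetric
matrix is reached by the steps `qS`, `qD`; the dual form satisfies `q' (B x) = q x`. -/
def StDecomp : Prop :=
  ∀ (P : (n : ℕ) → ((Fin n → ℝ) → ℝ) → ((Fin n → ℝ) → ℝ) → ℝ → Prop),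
    P 0 (fun _ => 0) (fun _ => 0) 1 →
    (∀ (n : ℕ) (q q' : (Fin n → ℝ) → ℝ) (c : ℝ), P n q q' c →
      ∀ a : ℝ, 0 < a → ∀ l : Fin n → ℝ, P (n + 1) (qS a l q) (qD a l q') (c / Real.sqrt a)) →
    ∀ (n : ℕ) (B : Matrix (Fin n) (Fin n) ℝ), B.IsSymm →
      (∀ x : Fin n → ℝ, x ≠ 0 → 0 < x ⬝ᵥ (B *ᵥ x)) →
      ∃ (q q' : (Fin n → ℝ) → ℝ) (c : ℝ), P n q q' c ∧
        (∀ x : Fin n → ℝ, q x = x ⬝ᵥ (B *ᵥ x)) ∧ ∀ x : Fin n → ℝ, q' (B *ᵥ x) = q x

/-- TH-REALPD: an integral symmetric matrix of determinant 1, positive on nonzero integer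
vectors, is positive definite over `ℝ`. -/
def StRealPD : Prop :=
  ∀ (n : ℕ) (B : Matrix (Fin n) (Fin n) ℤ), B.IsSymm →
    (∀ x : Fin n → ℤ, x ≠ 0 → 0 < x ⬝ᵥ (B *ᵥ x)) → B.det = 1 →
    ∀ x : Fin n → ℝ, x ≠ 0 → 0 < x ⬝ᵥ (B.map (Int.cast : ℤ → ℝ) *ᵥ x)

/-! ### the theta series of an integer-valued function -/

/-- summability of the real Gaussian series of `Q`. -/
def StSum {ι : Type} (Q : ι → ℤ) : Prop :=
  ∀ t : ℝ, 0 < t → Summable (fun x : ι => Real.exp (-π * t * (Q x : ℝ)))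

/-- the inversion formula of weight 12 on the imaginary axis. -/
def StRInv {ι : Type} (Q : ι → ℤ) : Prop :=
  ∀ t : ℝ, 0 < t →
    ∑' x : ι, Real.exp (-π * (Q x : ℝ) / t) = t ^ 12 * ∑' x : ι, Real.exp (-π * t * (Q x : ℝ))

/-- the quadratic form of an integer matrix. -/
def Qf (B : Matrix (Fin 24) (Fin 24) ℤ) : (Fin 24 → ℤ) → ℤ := fun x => x ⬝ᵥ (B *ᵥ x)

/-- TH-FIN: summability and the inversion formula for a unimodular positive definite `B`. -/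
def StFin : Prop :=
  ∀ B : Matrix (Fin 24) (Fin 24) ℤ, B.IsSymm →
    (∀ x : Fin 24 → ℤ, x ≠ 0 → 0 < x ⬝ᵥ (B *ᵥ x)) → B.det = 1 →
    StSum (Qf B) ∧ StRInv (Qf B)

/-- the theta series as a function of a complex variable. -/
def thetaC {ι : Type} (Q : ι → ℤ) (z : ℂ) : ℂ :=
  ∑' x : ι, Complex.exp (π * Complex.I * z * (Q x : ℂ))

/-- the number of representations of `2 m`. -/
def rep {ι : Type} (Q : ι → ℤ) (m : ℕ) : ℕ := {x : ι | Q x = 2 * (m : ℤ)}.ncard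

/-- TH-HOLO. -/
def StHolo : Prop :=
  ∀ (ι : Type) (Q : ι → ℤ), (∀ x, 0 ≤ Q x) → StSum Q →
    DifferentiableOn ℂ (thetaC Q) {z : ℂ | 0 < z.im}

/-- TH-SINV: the inversion formula on the upper half plane (identity theorem). -/
def StSInv : Prop :=
  ∀ (ι : Type) (Q : ι → ℤ), (∀ x, 0 ≤ Q x) → StSum Q → StRInv Q →
    DifferentiableOn ℂ (thetaC Q) {z : ℂ | 0 < z.im} →
    ∀ z : ℂ, 0 < z.im → thetaC Q (-1 / z) = z ^ 12 * thetaC Q z

/-- the `q`-series of the theta series. -/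
def QSer {ι : Type} (Q : ι → ℤ) : Prop :=
  ∀ z : ℂ, 0 < z.im →
    HasSum (fun m : ℕ => (rep Q m : ℂ) * Complex.exp (2 * π * Complex.I * z) ^ m) (thetaC Q z)

/-- TH-QSER: the level sets are finite and the theta series is the `q`-series of the
representation numbers. -/
def StQSer : Prop :=
  ∀ (ι : Type) (Q : ι → ℤ), (∀ x, 0 ≤ Q x) → (∀ x, (2 : ℤ) ∣ Q x) → StSum Q →
    (∀ m : ℕ, {x : ι | Q x = 2 * (m : ℤ)}.Finite) ∧ QSer Q

open UpperHalfPlane ModularForm MatrixGroups in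
/-- TH-MF: the theta series is a modular form of weight 12 and level 1 with `q`-expansion
coefficients `rep Q m`. -/
def StMF : Prop :=
  ∀ (ι : Type) (Q : ι → ℤ),
    DifferentiableOn ℂ (thetaC Q) {z : ℂ | 0 < z.im} →
    (∀ z : ℂ, 0 < z.im → thetaC Q (-1 / z) = z ^ 12 * thetaC Q z) →
    QSer Q →
    ∃ f : ModularForm 𝒮ℒ 12, ∀ m : ℕ, (qExpansion 1 f).coeff m = (rep Q m : ℂ)

open UpperHalfPlane ModularForm MatrixGroups in
/-- TH-COEFF: a modular form of weight 12 and level 1 with `q`-expansion `1 + 0 q + …` has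
coefficients `196560`, `16773120`, `398034000` at `q²`, `q³`, `q⁴`
(it is `(7 E₄³ + 5 E₆²) / 12`, by the Sturm bound). -/
def StCoeff : Prop :=
  ∀ f : ModularForm 𝒮ℒ 12, (qExpansion 1 f).coeff 0 = 1 → (qExpansion 1 f).coeff 1 = 0 →
    (qExpansion 1 f).coeff 2 = 196560 ∧ (qExpansion 1 f).coeff 3 = 16773120 ∧
      (qExpansion 1 f).coeff 4 = 398034000

end

end Cfsg.Agent.H34.Th
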