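import Cfsg.Agent.H34.BlkData

/-!
# The class of an element of `M22`, by a normal form (helper34 library)

`cls x` conjugates the packed permutation `x` by elements of the tables so that it maps
`1 ↦ 2 ↦ 3` (or exchanges `1` and `2`, for an involution) and looks the result up in the tables
of `BlkData`. `cls_sound`: the element is conjugate in `M22` to the representative found.
The functions `chunkN`, `chunkT` run over a part of the elements of `M22`.
-/

set_option autoImplicit false

namespace Cfsg.Agent.H34

open Cfsg Cfsg.Agent.H9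

noncomputable section

/-- The 22 points. -/
def P22 : List ℕ :=
  [1, 2, 3, 4, 5, 6, 7, 8, 9, 10, 11, 12, 13, 14, 15, 16, 17, 18, 19, 20, 21, 22]

theorem P22_lt : ∀ i ∈ P22, i < 23 := by decide

/-- The first point not fixed by the square of `x`, or `0`. -/
def firstNI (x : ℕ) : ℕ := firstP (fun i => Nat.beq (sv x (sv x i)) i) P22

/-- The first point not fixed by `x`, or `0`. -/
def firstMv (x : ℕ) : ℕ := firstP (fun i => Nat.beq (sv x i) i) P22

theorem firstNI_lt (x : ℕ) : firstNI x < 23 := by
  unfold firstNI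
  rcases firstP_mem (fun i => Nat.beq (sv x (sv x i)) i) P22 with h | h
  · rw [h]; norm_num
  · exact P22_lt _ h

theorem firstMv_lt (x : ℕ) : firstMv x < 23 := by
  unfold firstMv
  rcases firstP_mem (fun i => Nat.beq (sv x i) i) P22 with h | h
  · rw [h]; norm_num
  · exact P22_lt _ h

/-- The conjugate, with the intermediate product evaluated first. -/
def cnjF (ra : ℕ × ℕ) (x : ℕ) : ℕ := nlt (prodP ra.1 x) (fun m => prodP m ra.2)

theorem cnjF_eq (ra : ℕ × ℕ) (x : ℕ) : cnjF ra x = cnj ra x := by
  unfold cnjF cnj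
  rw [nlt_eq]

/-- Conjugation moving the point `p` to `1` and its image to `2`. -/
def stage12 (x p : ℕ) : ℕ :=
  nlt (Nat.add (Nat.mul 24 p) (sv x p)) (fun k => cnjF (tl bkT12 k, tl bkT12i k) x)

theorem stage12_spec {x p : ℕ} (hx : svalid x = true) (hp : p < 23) : CjTo x (stage12 x p) := by
  unfold stage12
  rw [nlt_eq, cnjF_eq]
  have hk : Nat.add (Nat.mul 24 p) (sv x p) < 576 := by
    have h1 := sv_lt hx (show p < 24 by omega)
    show 24 * p + sv x p < 576
    omega
  exact CjTo_cnj ((allB_iff _ _).mp bk_T12_ok _ hk) hx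

/-- Conjugation fixing `1`, `2` and moving the image of `2` to `3`. -/
def stage3 (x : ℕ) : ℕ := nlt (sv x 2) (fun r => cnjF (tl bkA3 r, tl bkA3i r) x)

theorem stage3_spec {x : ℕ} (hx : svalid x = true) : CjTo x (stage3 x) := by
  unfold stage3
  rw [nlt_eq, cnjF_eq]
  exact CjTo_cnj ((allB_iff _ _).mp bk_A3_ok _ (sv_lt hx (by norm_num))) hx

/-- The class of a normal form `1 ↦ 2 ↦ 3`, or `12`. -/
def lookE (x : ℕ) : ℕ :=
  nlt (Nat.add (Nat.mul 24 (sv x 3)) (sv x 4)) (fun k =>
    condR (Nat.beq (tl bkE k) x) (tl4 bkJ k)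
      (condR (Nat.beq (tl bkE (Nat.add k 576)) x) (tl4 bkJ (Nat.add k 576))
        (condR (Nat.beq (tl bkE (Nat.add k 1152)) x) (tl4 bkJ (Nat.add k 1152)) 12)))

/-- The class `1` of an involution exchanging `1` and `2`, or `12`. -/
def lookI (x : ℕ) : ℕ :=
  nlt (Nat.add (Nat.mul 24 (sv x 3)) (sv x 4)) (fun k =>
    condR (Nat.beq (tl bkI k) x) 1
      (condR (Nat.beq (tl bkI (Nat.add k 576)) x) 1
        (condR (Nat.beq (tl bkI (Nat.add k 1152)) x) 1 12)))

theorem key_lt {x : ℕ} (hx : svalid x = true) :
    Nat.add (Nat.mul 24 (sv x 3)) (sv x 4) < 576 := by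
  have h1 := sv_lt hx (show 3 < 24 by norm_num)
  have h2 := sv_lt hx (show 4 < 24 by norm_num)
  show 24 * sv x 3 + sv x 4 < 576
  omega

theorem lookE_spec {x j : ℕ} (hx : svalid x = true) (h : lookE x = j) (hj : j < 12) :
    CjTo x (rep j) := by
  unfold lookE at h
  rw [nlt_eq] at h
  have hk := key_lt hx
  generalize Nat.add (Nat.mul 24 (sv x 3)) (sv x 4) = k at h hk
  have key : ∀ k', k' < 1728 → Nat.beq (tl bkE k') x = true → CjTo x (rep (tl4 bkJ k')) := by
    intro k' hk' hb
    have h1 := (allB_iff _ _).mp bk_E_ok k' hk'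
    have e := Nat.eq_of_beq_eq_true hb
    rw [e] at h1
    exact entOK_spec h1 hx
  have e1 : Nat.add k 576 = k + 576 := rfl
  have e2 : Nat.add k 1152 = k + 1152 := rfl
  cases h1 : Nat.beq (tl bkE k) x with
  | true =>
    rw [h1, condR_true] at h
    rw [← h]
    exact key k (by omega) h1
  | false =>
    rw [h1, condR_false] at h
    cases h2 : Nat.beq (tl bkE (Nat.add k 576)) x with
    | true =>
      rw [h2, condR_true] at h
      rw [← h]
      exact key _ (by rw [e1]; omega) h2
    | false =>
      rw [h2, condR_false] at h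
      cases h3 : Nat.beq (tl bkE (Nat.add k 1152)) x with
      | true =>
        rw [h3, condR_true] at h
        rw [← h]
        exact key _ (by rw [e2]; omega) h3
      | false =>
        rw [h3, condR_false] at h
        omega

theorem lookI_spec {x j : ℕ} (hx : svalid x = true) (h : lookI x = j) (hj : j < 12) :
    CjTo x (rep j) := by
  unfold lookI at h
  rw [nlt_eq] at h
  have hk := key_lt hx
  generalize Nat.add (Nat.mul 24 (sv x 3)) (sv x 4) = k at h hk
  have key : ∀ k', k' < 1728 → Nat.beq (tl bkI k') x = true → CjTo x (rep 1) := by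
    intro k' hk' hb
    have h1 := (allB_iff _ _).mp bk_I_ok k' hk'
    have e := Nat.eq_of_beq_eq_true hb
    rw [e] at h1
    exact entOK_spec h1 hx
  have e1 : Nat.add k 576 = k + 576 := rfl
  have e2 : Nat.add k 1152 = k + 1152 := rfl
  cases h1 : Nat.beq (tl bkI k) x with
  | true =>
    rw [h1, condR_true] at h
    rw [← h]
    exact key k (by omega) h1
  | false =>
    rw [h1, condR_false] at h
    cases h2 : Nat.beq (tl bkI (Nat.add k 576)) x with
    | true =>
      rw [h2, condR_true] at h
      rw [← h]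
      exact key _ (by rw [e1]; omega) h2
    | false =>
      rw [h2, condR_false] at h
      cases h3 : Nat.beq (tl bkI (Nat.add k 1152)) x with
      | true =>
        rw [h3, condR_true] at h
        rw [← h]
        exact key _ (by rw [e2]; omega) h3
      | false =>
        rw [h3, condR_false] at h
        omega

theorem condR_le {c : Bool} {t e n : ℕ} (ht : t ≤ n) (he : e ≤ n) : condR c t e ≤ n := by
  cases c
  · exact he
  · exact ht

theorem lookE_le (x : ℕ) : lookE x ≤ 15 := by
  unfold lookE
  rw [nlt_eq]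
  exact condR_le (tl4_le _ _) (condR_le (tl4_le _ _) (condR_le (tl4_le _ _) (by norm_num)))

theorem lookI_le (x : ℕ) : lookI x ≤ 15 := by
  unfold lookI
  rw [nlt_eq]
  exact condR_le (by norm_num) (condR_le (by norm_num) (condR_le (by norm_num) (by norm_num)))

/-- The index of the class of the packed permutation `x` of `M22`, or `12`. -/
def cls (x : ℕ) : ℕ :=
  condR (Nat.beq x idP) 0
    (nlt (firstNI x) (fun p =>
      condR (Nat.beq p 0)
        (nlt (stage12 x (firstMv x)) lookI)
        (nlt (stage12 x p) (fun x2 => nlt (stage3 x2) lookE))))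

theorem cls_le (x : ℕ) : cls x ≤ 15 := by
  unfold cls
  apply condR_le (by norm_num)
  rw [nlt_eq]
  apply condR_le
  · rw [nlt_eq]; exact lookI_le _
  · rw [nlt_eq, nlt_eq]; exact lookE_le _

/-- The element is conjugate to the representative of its class. -/
theorem cls_sound {x j : ℕ} (hx : svalid x = true) (h : cls x = j) (hj : j < 12) :
    CjTo x (rep j) := by
  unfold cls at h
  cases hb : Nat.beq x idP with
  | true =>
    rw [hb, condR_true] at h
    have hx0 : x = idP := Nat.eq_of_beq_eq_true hb
    rw [← h, bk_rep0, hx0]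
    exact ⟨idP_valid, 1, Subgroup.one_mem _, by simp⟩
  | false =>
    rw [hb, condR_false, nlt_eq] at h
    cases hp : Nat.beq (firstNI x) 0 with
    | true =>
      rw [hp, condR_true, nlt_eq] at h
      have c1 := stage12_spec hx (firstMv_lt x)
      exact CjTo_trans c1 (lookI_spec c1.1 h hj)
    | false =>
      rw [hp, condR_false, nlt_eq, nlt_eq] at h
      have c1 := stage12_spec hx (firstNI_lt x)
      have c2 := stage3_spec c1.1
      exact CjTo_trans (CjTo_trans c1 c2) (lookE_spec c2.1 h hj)

/-! ### The passes over the elements -/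

/-- The twelve indices. -/
def D12 : List ℕ := [0, 1, 2, 3, 4, 5, 6, 7, 8, 9, 10, 11]

/-- The bits `16 * d + j` for the indices `d` with `y * y = u_d` and `a_d⁻¹ * y` in the
class `j`. -/
def contrib (y : ℕ) : ℕ :=
  nlt (prodP y y) (fun sq => condR (preM bkMU sq)
    (xorR (fun d => condR (Nat.beq sq (tl bkUT d))
      (nlt (cls (prodP (tl bkAIT d) y)) (fun j => Nat.shiftLeft 1 (Nat.add (Nat.mul 16 d) j))) 0)
      D12 0) 0)

/-- The xor of the contributions of the elements `s * m`. -/
def blockN (m : ℕ) : ℕ := xorR (fun s => nlt (prodP s m) contrib) bkH4L 0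

/-- `y` does not conjugate a representative to its twin. -/
def sepB (y : ℕ) : Bool :=
  sep1 3 y (rep 3) (rep 4) && (sep1 2 y (rep 7) (rep 8) && sep1 1 y (rep 10) (rep 11))

/-- `y` has a class and separates the twins. -/
def totB (y : ℕ) : Bool := Nat.blt (cls y) 12 && sepB y

/-- All the elements `s * m` pass `totB`. -/
def blockT (m : ℕ) : Bool := allR (fun s => nlt (prodP s m) totB) bkH4L

/-- The element `r2 * r1` of the transversals. -/
def mid (i k : ℕ) : ℕ := prodP (nthL idP bkR2S k) (nthL idP bkR1S i)

/-- The value of the part `i`, `k`. -/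
def cN (i k : ℕ) : ℕ := nthL 0 (nthL [] bkCLK i) k

end

end Cfsg.Agent.H34
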