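import Cfsg.Agent.H34.BlkEnum
import Cfsg.Agent.H34.BlkPar

/-!
# The parities of the squares of the class sums of `M22` (helper34 library)

Given the results `TotAll`, `NAll` of the passes over the elements, the number of `x` in the
class `j` with `x⁻¹ * g_d` in the class `j` has the parity `SM j d` (`nsq_parity`).
-/

set_option autoImplicit false

namespace Cfsg.Agent.H34

open Cfsg Cfsg.Agent.H9

noncomputable section

/-- The result of the second pass. -/
def NAll : Prop := ∀ i, i < 22 → ∀ k, k < 21 → blockN (mid i k) = cN i k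

open scoped Classical in
/-- The element of `M22` of a packed permutation (or `1`). -/
def gOf (s : ℕ) : ↥Spor.M22 := if h : lperm s ∈ Spor.M22 then ⟨lperm s, h⟩ else 1

open scoped Classical in
theorem gOf_val {s : ℕ} (h : lperm s ∈ Spor.M22) : (gOf s : Equiv.Perm GolayPt) = lperm s := by
  unfold gOf
  rw [dif_pos h]

theorem isConj_gOf {x y : ℕ} (hx : lperm x ∈ Spor.M22) (hy : lperm y ∈ Spor.M22) :
    IsConj (gOf x) (gOf y) ↔ Cj x y := by
  rw [isConj_iff]
  constructor
  · rintro ⟨c, hc⟩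
    refine ⟨c.1, c.2, ?_⟩
    have h := congrArg Subtype.val hc
    simpa [gOf_val hx, gOf_val hy] using h
  · rintro ⟨u, hu, e⟩
    refine ⟨⟨u, hu⟩, ?_⟩
    apply Subtype.ext
    simpa [gOf_val hx, gOf_val hy] using e

/-- The data of the power `a = g ^ k` of the representative `d`. -/
theorem au_ok {d : ℕ} (hd : d < 12) :
    svalid (tl bkAT d) = true ∧ svalid (tl bkAIT d) = true ∧ lperm (tl bkAT d) ∈ Spor.M22 ∧
    lperm (tl bkAIT d) = (lperm (tl bkAT d))⁻¹ ∧
    prodP (tl bkAT d) (rep d) = prodP (rep d) (tl bkAT d) ∧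
    tl bkUT d = prodP (prodP (tl bkAT d) (tl bkAT d)) (rep d) ∧
    powP (tl bkUT d) 8 = idP := by
  have h := (allB_iff _ _).mp bk_AU_ok d hd
  simp only [Bool.and_eq_true] at h
  obtain ⟨h1, h2, h3, h4⟩ := h
  obtain ⟨p1, p2, p3, p4⟩ := pairOK_spec h1
  exact ⟨p1, p2, p3, p4, Nat.eq_of_beq_eq_true h2, Nat.eq_of_beq_eq_true h3,
    Nat.eq_of_beq_eq_true h4⟩

/-- The test of the second pass: `y * y = u_d` and `a_d⁻¹ * y` is in the class `j`. -/
def qB (d j y : ℕ) : Bool :=
  Nat.beq (prodP y y) (tl bkUT d) && Nat.beq (cls (prodP (tl bkAIT d) y)) j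

theorem beq_iff (a b : ℕ) : Nat.beq a b = true ↔ a = b :=
  ⟨Nat.eq_of_beq_eq_true, fun h => by rw [h]; exact Nat.beq_refl b⟩

theorem q_iff (hT : TotAll) {j d : ℕ} (hj : j < 12) (hd : d < 12) {i k l : ℕ} (hi : i < 22)
    (hk : k < 21) (hl : l < 960) (w : ↥Spor.M22) (hw : w.1 = lperm (phi i k l)) :
    (w * w = gOf (tl bkAT d) * gOf (tl bkAT d) * gOf (rep d) ∧
      IsConj (gOf (rep j)) ((gOf (tl bkAT d))⁻¹ * w)) ↔ qB d j (phi i k l) = true := by
  obtain ⟨vy, cy, -, my⟩ := phi_ok hi hk hl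
  obtain ⟨vA, vAI, mA, eAI, -, eU, -⟩ := au_ok hd
  obtain ⟨vg, mg, -⟩ := rep_ok hd
  obtain ⟨vj, mj, -⟩ := rep_ok hj
  have vAA := prodP_valid vA vA
  have vU : svalid (prodP (prodP (tl bkAT d) (tl bkAT d)) (rep d)) = true := prodP_valid vAA vg
  have lU : lperm (prodP (prodP (tl bkAT d) (tl bkAT d)) (rep d)) =
      lperm (tl bkAT d) * lperm (tl bkAT d) * lperm (rep d) := by
    rw [lperm_prodP vAA vg, lperm_prodP vA vA]
  have vb := prodP_valid vAI vy
  have lb : lperm (prodP (tl bkAIT d) (phi i k l)) = (lperm (tl bkAT d))⁻¹ * lperm (phi i k l) := by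
    rw [lperm_prodP vAI vy, eAI]
  have mb : lperm (prodP (tl bkAIT d) (phi i k l)) ∈ Spor.M22 := by
    rw [lb]
    exact Subgroup.mul_mem _ (Subgroup.inv_mem _ mA) my
  have e1 : w * w = gOf (tl bkAT d) * gOf (tl bkAT d) * gOf (rep d) ↔
      prodP (phi i k l) (phi i k l) = tl bkUT d := by
    rw [Subtype.ext_iff, eU]
    simp only [Subgroup.coe_mul, gOf_val mA, gOf_val mg, hw]
    rw [← lU, ← lperm_prodP vy vy]
    constructor
    · intro h
      exact canon_inj (prodP_valid vy vy) vU (canon_prodP _ _) (canon_prodP _ _) h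
    · intro h
      rw [h]
  have e2 : (gOf (tl bkAT d))⁻¹ * w = gOf (prodP (tl bkAIT d) (phi i k l)) := by
    apply Subtype.ext
    simp only [Subgroup.coe_mul, Subgroup.coe_inv, gOf_val mA, gOf_val mb, hw, lb]
  rw [e1, e2, isConj_gOf mj mb, cls_iff hT vb (canon_prodP _ _) mb hj]
  unfold qB
  rw [Bool.and_eq_true, beq_iff, beq_iff]

/-! ### Counting -/

theorem card_bz {ι : Type*} [Fintype ι] (q : ι → Bool) :
    (Nat.card {t : ι // q t = true} : ZMod 2) = ∑ t : ι, bz (q t) := by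
  classical
  rw [Nat.card_eq_fintype_card, Fintype.card_subtype, Finset.card_filter, Nat.cast_sum]
  apply Finset.sum_congr rfl
  intro t _
  cases h : q t <;> simp [bz]

theorem list_range_sum {M : Type*} [AddCommMonoid M] (F : ℕ → M) : ∀ n : ℕ,
    ((List.range n).map F).sum = ∑ i ∈ Finset.range n, F i := by
  intro n
  induction n with
  | zero => simp
  | succ n ih =>
    rw [List.range_succ, List.map_append, List.sum_append, ih, Finset.sum_range_succ]
    simp

theorem D12_eq : D12 = List.range 12 := by decide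

theorem term_bit (y sq d' d j : ℕ) (hj : j < 16) :
    bz ((condR (Nat.beq sq (tl bkUT d'))
      (nlt (cls (prodP (tl bkAIT d') y)) (fun j' => Nat.shiftLeft 1 (Nat.add (Nat.mul 16 d') j')))
      0).testBit (16 * d + j)) =
    if d' = d then bz (Nat.beq sq (tl bkUT d) && Nat.beq (cls (prodP (tl bkAIT d) y)) j)
    else 0 := by
  cases hb : Nat.beq sq (tl bkUT d') with
  | false =>
    rw [condR_false, Nat.zero_testBit]
    split_ifs with h
    · subst h
      rw [hb]
      rfl
    · rfl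
  | true =>
    rw [condR_true, nlt_eq]
    have e0 : Nat.shiftLeft 1 (Nat.add (Nat.mul 16 d') (cls (prodP (tl bkAIT d') y))) =
        2 ^ (16 * d' + cls (prodP (tl bkAIT d') y)) := Nat.one_shiftLeft _
    rw [e0, Nat.testBit_two_pow]
    have hc := cls_le (prodP (tl bkAIT d') y)
    split_ifs with h
    · subst h
      rw [hb, Bool.true_and]
      congr 1
      rw [Bool.eq_iff_iff, decide_eq_true_iff, beq_iff]
      omega
    · have : ¬ (16 * d' + cls (prodP (tl bkAIT d') y) = 16 * d + j) := by omega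
      rw [decide_eq_false this]
      rfl

/-- The bit `16 * d + j` of the contribution of `y`. -/
theorem contrib_bit (y : ℕ) {d j : ℕ} (hd : d < 12) (hj : j < 12) :
    bz ((contrib y).testBit (16 * d + j)) = bz (qB d j y) := by
  unfold contrib qB
  rw [nlt_eq]
  cases hp : preM bkMU (prodP y y) with
  | false =>
    rw [condR_false, Nat.zero_testBit]
    have hne : Nat.beq (prodP y y) (tl bkUT d) = false := by
      by_contra hc
      rw [Bool.not_eq_false] at hc
      have h1 := (allB_iff _ _).mp bk_MU_ok d hd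
      rw [← Nat.eq_of_beq_eq_true hc, hp] at h1
      exact absurd h1 (by decide)
    rw [hne]
    rfl
  | true =>
    rw [condR_true, xorR_bit, Nat.zero_testBit, D12_eq, list_range_sum]
    have e1 : ∀ d' ∈ Finset.range 12,
        bz ((condR (Nat.beq (prodP y y) (tl bkUT d'))
          (nlt (cls (prodP (tl bkAIT d') y))
            (fun j' => Nat.shiftLeft 1 (Nat.add (Nat.mul 16 d') j'))) 0).testBit (16 * d + j)) =
        if d' = d then bz (Nat.beq (prodP y y) (tl bkUT d) &&
          Nat.beq (cls (prodP (tl bkAIT d) y)) j) else 0 :=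
      fun d' _ => term_bit y (prodP y y) d' d j (by omega)
    rw [Finset.sum_congr rfl e1, Finset.sum_ite_eq' (Finset.range 12) d, if_pos (Finset.mem_range.mpr hd)]
    show (0 : ZMod 2) + _ = _
    rw [zero_add]

/-- The bit of the value of a block. -/
theorem blockN_bit (m : ℕ) {d j : ℕ} (hd : d < 12) (hj : j < 12) :
    bz ((blockN m).testBit (16 * d + j)) =
      ∑ l ∈ Finset.range 960, bz (qB d j (prodP (nthL idP bkH4L l) m)) := by
  unfold blockN
  rw [xorR_bit, Nat.zero_testBit, ← bk_H4_len, sum_range_nthL idP (fun s => bz (qB d j (prodP s m)))]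
  show (0 : ZMod 2) + _ = _
  rw [zero_add]
  congr 1
  apply List.map_congr_left
  intro s _
  rw [nlt_eq, contrib_bit _ hd hj]

/-- The xor of the values of the blocks. -/
def xorAll : ℕ := xorR (fun i => xorR (fun k => cN i k) (List.range 21) 0) (List.range 22) 0

theorem xorAll_eq : xorAll = bkTOT := by decide +kernel

theorem tot_bit (b : ℕ) : bz (bkTOT.testBit b) =
    ∑ i ∈ Finset.range 22, ∑ k ∈ Finset.range 21, bz ((cN i k).testBit b) := by
  rw [← xorAll_eq]
  unfold xorAll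
  rw [xorR_bit, Nat.zero_testBit, list_range_sum]
  show (0 : ZMod 2) + _ = _
  rw [zero_add]
  apply Finset.sum_congr rfl
  intro i _
  rw [xorR_bit, Nat.zero_testBit, list_range_sum]
  show (0 : ZMod 2) + _ = _
  rw [zero_add]

/-- The parities of the squares of the class sums. -/
def SM (j d : ℕ) : Bool :=
  (Nat.beq j 0 && Nat.beq d 0) || ((Nat.beq j 1 && (Nat.beq d 0 || Nat.beq d 5)) ||
  ((Nat.beq j 2 && (Nat.beq d 10 || Nat.beq d 11)) || ((Nat.beq j 4 && Nat.beq d 5) ||
  (Nat.beq j 6 && (Nat.beq d 10 || Nat.beq d 11)))))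

theorem bk_TOT_bits : ∀ d, d < 12 → ∀ j, j < 12 → bkTOT.testBit (16 * d + j) = SM j d := by
  decide +kernel

/-- The enumeration as an equivalence. -/
def bkEquiv : BkI ≃ ↥Spor.M22 := Equiv.ofBijective bkPhi bkPhi_bijective

theorem sum_BkI (F : ℕ → ℕ → ℕ → ZMod 2) :
    ∑ t : BkI, F t.1.1 t.2.1.1 t.2.2.1 =
      ∑ i ∈ Finset.range 22, ∑ k ∈ Finset.range 21, ∑ l ∈ Finset.range 960, F i k l := by
  rw [Fintype.sum_prod_type, ← Fin.sum_univ_eq_sum_range (fun i => ∑ k ∈ Finset.range 21,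
    ∑ l ∈ Finset.range 960, F i k l) 22]
  apply Finset.sum_congr rfl
  intro i _
  rw [Fintype.sum_prod_type, ← Fin.sum_univ_eq_sum_range (fun k =>
    ∑ l ∈ Finset.range 960, F i k l) 21]
  apply Finset.sum_congr rfl
  intro k _
  rw [← Fin.sum_univ_eq_sum_range (fun l => F i k l) 960]

/-- The number of the square roots `w` of `u_d` with `a_d⁻¹ * w` in the class `j`. -/
theorem root_parity (hT : TotAll) (hN : NAll) {j d : ℕ} (hj : j < 12) (hd : d < 12) :
    (Nat.card {w : ↥Spor.M22 // w * w = gOf (tl bkAT d) * gOf (tl bkAT d) * gOf (rep d) ∧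
      IsConj (gOf (rep j)) ((gOf (tl bkAT d))⁻¹ * w)} : ZMod 2) = bz (SM j d) := by
  have e1 : Nat.card {w : ↥Spor.M22 // w * w = gOf (tl bkAT d) * gOf (tl bkAT d) * gOf (rep d) ∧
      IsConj (gOf (rep j)) ((gOf (tl bkAT d))⁻¹ * w)} =
      Nat.card {t : BkI // qB d j (phi t.1.1 t.2.1.1 t.2.2.1) = true} := by
    apply Nat.card_congr
    symm
    apply Equiv.subtypeEquiv bkEquiv
    intro t
    exact (q_iff hT hj hd t.1.2 t.2.1.2 t.2.2.2 (bkEquiv t) rfl).symm
  rw [e1, card_bz, sum_BkI (fun i k l => bz (qB d j (phi i k l))), ← bk_TOT_bits d hd j hj,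
    tot_bit]
  apply Finset.sum_congr rfl
  intro i hi
  apply Finset.sum_congr rfl
  intro k hk
  rw [← hN i (Finset.mem_range.mp hi) k (Finset.mem_range.mp hk), blockN_bit _ hd hj]
  rfl

theorem conj_pow8 {d : ℕ} (hd : d < 12) :
    (gOf (tl bkAT d) * gOf (tl bkAT d) * gOf (rep d)) ^ 2 ^ 3 = 1 := by
  obtain ⟨vA, vAI, mA, eAI, -, eU, pw⟩ := au_ok hd
  obtain ⟨vg, mg, -⟩ := rep_ok hd
  have vAA := prodP_valid vA vA
  have vU : svalid (tl bkUT d) = true := by rw [eU]; exact prodP_valid vAA vg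
  obtain ⟨-, p2, -⟩ := powP_spec vU 8
  apply Subtype.ext
  simp only [Subgroup.coe_pow, Subgroup.coe_mul, Subgroup.coe_one, gOf_val mA, gOf_val mg]
  have e : lperm (tl bkUT d) = lperm (tl bkAT d) * lperm (tl bkAT d) * lperm (rep d) := by
    rw [eU, lperm_prodP vAA vg, lperm_prodP vA vA]
  rw [← e]
  have h8 : (2 : ℕ) ^ 3 = 8 := by norm_num
  rw [h8, ← p2, pw, lperm_idP]

theorem comm_au {d : ℕ} (hd : d < 12) :
    gOf (tl bkAT d) * gOf (rep d) = gOf (rep d) * gOf (tl bkAT d) := by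
  obtain ⟨vA, vAI, mA, eAI, cm, -, -⟩ := au_ok hd
  obtain ⟨vg, mg, -⟩ := rep_ok hd
  apply Subtype.ext
  simp only [Subgroup.coe_mul, gOf_val mA, gOf_val mg]
  rw [← lperm_prodP vA vg, ← lperm_prodP vg vA, cm]

/-- The number of the `x` in the class `j` with `x⁻¹ * g_d` in the class `j` has the parity
`SM j d`. -/
theorem nsq_parity (hT : TotAll) (hN : NAll) {j d : ℕ} (hj : j < 12) (hd : d < 12) :
    (Nat.card {x : ↥Spor.M22 // IsConj (gOf (rep j)) x ∧
      IsConj (gOf (rep j)) (x⁻¹ * gOf (rep d))} : ZMod 2) = bz (SM j d) := by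
  haveI := finite_M22
  have h := sq_parity (fun x : ↥Spor.M22 => IsConj (gOf (rep j)) x)
    (fun x u hx => hx.trans (isConj_iff.mpr ⟨u, rfl⟩)) (gOf (rep d)) (gOf (tl bkAT d))
    (comm_au hd) 3 (conj_pow8 hd)
  rw [(ZMod.natCast_eq_natCast_iff _ _ 2).mpr h]
  exact root_parity hT hN hj hd

end

end Cfsg.Agent.H34
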