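import Cfsg.Agent.H34.BlkCls

/-!
# The enumeration of `M22` and its conjugacy classes (helper34 library)

`bkPhi` enumerates `M22` as the products `s * r2 * r1` of the elements of three lists. Given the
result `TotAll` of the passes over the elements, the function `cls` is a complete invariant of
the twelve conjugacy classes (`cls_iff`).
-/

set_option autoImplicit false

namespace Cfsg.Agent.H34

open Cfsg Cfsg.Agent.H9

noncomputable section

/-- The index type of the enumeration of `M22`. -/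
abbrev BkI : Type := Fin 22 × Fin 21 × Fin 960

/-- The element number `l` of the block `i`, `k`. -/
def phi (i k l : ℕ) : ℕ := prodP (nthL idP bkH4L l) (mid i k)

theorem r1_ok {i : ℕ} (hi : i < 22) :
    okG (nthL idP bkR1S i) = true ∧ sv (nthL idP bkR1S i) (i + 1) = 1 := by
  have h := (allB_iff _ _).mp bk_R1S_ok i hi
  rw [Bool.and_eq_true] at h
  exact ⟨h.1, Nat.eq_of_beq_eq_true h.2⟩

theorem r2_ok {k : ℕ} (hk : k < 21) :
    okG (nthL idP bkR2S k) = true ∧ sv (nthL idP bkR2S k) 1 = 1 ∧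
      sv (nthL idP bkR2S k) (k + 2) = 2 := by
  have h := (allB_iff _ _).mp bk_R2S_ok k hk
  simp only [Bool.and_eq_true] at h
  exact ⟨h.1, Nat.eq_of_beq_eq_true h.2.1, Nat.eq_of_beq_eq_true h.2.2⟩

theorem h4_ok {l : ℕ} (hl : l < 960) :
    okG (nthL idP bkH4L l) = true ∧ sv (nthL idP bkH4L l) 1 = 1 ∧
      sv (nthL idP bkH4L l) 2 = 2 ∧ canon (nthL idP bkH4L l) := by
  have hm := nthL_mem_of_lt idP bkH4L l (by rw [bk_H4_len]; exact hl)
  have h := List.all_eq_true.mp bk_H4_ok _ hm
  simp only [Bool.and_eq_true] at h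
  exact ⟨h.1, Nat.eq_of_beq_eq_true h.2.1, Nat.eq_of_beq_eq_true h.2.2.1, canonB_spec h.2.2.2⟩

theorem nthL_lt_of_pairwise {d : ℕ} : ∀ (L : List ℕ), L.Pairwise (· < ·) → ∀ a b, a < b →
    b < L.length → nthL d L a < nthL d L b := by
  intro L
  induction L with
  | nil => intro _ a b _ hb; simp at hb
  | cons x L ih =>
    intro hp a b hab hb
    rw [List.pairwise_cons] at hp
    cases b with
    | zero => omega
    | succ b =>
      have hb' : b < L.length := by simpa using hb
      cases a with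
      | zero =>
        show x < nthL d L b
        exact hp.1 _ (nthL_mem_of_lt d L b hb')
      | succ a =>
        show nthL d L a < nthL d L b
        exact ih hp.2 a b (by omega) hb'

theorem h4_inj {l l' : ℕ} (hl : l < 960) (hl' : l' < 960)
    (h : nthL idP bkH4L l = nthL idP bkH4L l') : l = l' := by
  have hp := sortedB_pairwise bk_H4_sorted
  rcases Nat.lt_trichotomy l l' with h1 | h1 | h1
  · have := nthL_lt_of_pairwise (d := idP) bkH4L hp l l' h1 (by rw [bk_H4_len]; exact hl')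
    omega
  · exact h1
  · have := nthL_lt_of_pairwise (d := idP) bkH4L hp l' l h1 (by rw [bk_H4_len]; exact hl)
    omega

theorem lperm_at {s : ℕ} (hs : svalid s = true) {n m : ℕ} (hn : n < 24) (h : sv s n = m) :
    lperm s (gPt n) = gPt m := by
  rw [lperm_apply hs, gIdx_gPt hn, h]

theorem mid_ok {i k : ℕ} (hi : i < 22) (hk : k < 21) :
    svalid (mid i k) = true ∧
      lperm (mid i k) = lperm (nthL idP bkR2S k) * lperm (nthL idP bkR1S i) := by
  have h1 := okG_spec (r1_ok hi).1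
  have h2 := okG_spec (r2_ok hk).1
  exact ⟨prodP_valid h2.1 h1.1, lperm_prodP h2.1 h1.1⟩

theorem phi_ok {i k l : ℕ} (hi : i < 22) (hk : k < 21) (hl : l < 960) :
    svalid (phi i k l) = true ∧ canon (phi i k l) ∧
    lperm (phi i k l) = lperm (nthL idP bkH4L l) *
      (lperm (nthL idP bkR2S k) * lperm (nthL idP bkR1S i)) ∧
    lperm (phi i k l) ∈ Spor.M22 := by
  have h1 := okG_spec (r1_ok hi).1
  have h2 := okG_spec (r2_ok hk).1
  have h3 := okG_spec (h4_ok hl).1
  have hm := mid_ok hi hk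
  have e : lperm (phi i k l) = lperm (nthL idP bkH4L l) *
      (lperm (nthL idP bkR2S k) * lperm (nthL idP bkR1S i)) := by
    unfold phi
    rw [lperm_prodP h3.1 hm.1, hm.2]
  refine ⟨prodP_valid h3.1 hm.1, canon_prodP _ _, e, ?_⟩
  rw [e]
  exact Subgroup.mul_mem _ h3.2 (Subgroup.mul_mem _ h2.2 h1.2)

/-- The enumeration of `M22`. -/
def bkPhi (t : BkI) : ↥Spor.M22 :=
  ⟨lperm (phi t.1.1 t.2.1.1 t.2.2.1), (phi_ok t.1.2 t.2.1.2 t.2.2.2).2.2.2⟩

theorem gPt_inj {a b : ℕ} (ha : a < 24) (hb : b < 24) (h : gPt a = gPt b) : a = b := by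
  have h1 := congrArg gIdx h
  rwa [gIdx_gPt ha, gIdx_gPt hb] at h1

theorem bkPhi_injective : Function.Injective bkPhi := by
  rintro ⟨⟨i, hi⟩, ⟨k, hk⟩, ⟨l, hl⟩⟩ ⟨⟨i', hi'⟩, ⟨k', hk'⟩, ⟨l', hl'⟩⟩ h
  have h0 : lperm (phi i k l) = lperm (phi i' k' l') := congrArg Subtype.val h
  rw [(phi_ok hi hk hl).2.2.1, (phi_ok hi' hk' hl').2.2.1] at h0
  obtain ⟨a1, a2⟩ := r1_ok hi
  obtain ⟨a1', a2'⟩ := r1_ok hi'
  obtain ⟨b1, b2, b3⟩ := r2_ok hk
  obtain ⟨b1', b2', b3'⟩ := r2_ok hk'
  obtain ⟨c1, c2, c3, c4⟩ := h4_ok hl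
  obtain ⟨c1', c2', c3', c4'⟩ := h4_ok hl'
  have va := (okG_spec a1).1
  have va' := (okG_spec a1').1
  have vb := (okG_spec b1).1
  have vb' := (okG_spec b1').1
  have vc := (okG_spec c1).1
  have vc' := (okG_spec c1').1
  -- the first index
  have e1 := congrArg (fun f : Equiv.Perm GolayPt => f (gPt (i + 1))) h0
  simp only [Equiv.Perm.mul_apply] at e1
  rw [lperm_at va (by omega) a2, lperm_at vb (by norm_num) b2, lperm_at vc (by norm_num) c2] at e1
  have e2 : lperm (nthL idP bkR1S i') (gPt (i + 1)) = gPt 1 := by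
    apply (lperm (nthL idP bkR2S k')).injective
    apply (lperm (nthL idP bkH4L l')).injective
    rw [lperm_at vb' (by norm_num) b2', lperm_at vc' (by norm_num) c2']
    exact e1.symm
  have e3 : i + 1 = i' + 1 := gPt_inj (by omega) (by omega)
    ((lperm (nthL idP bkR1S i')).injective (e2.trans (lperm_at va' (by omega) a2').symm))
  have ei : i = i' := by omega
  subst ei
  -- the second index
  have h1 : lperm (nthL idP bkH4L l) * lperm (nthL idP bkR2S k) =
      lperm (nthL idP bkH4L l') * lperm (nthL idP bkR2S k') := by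
    have := congrArg (fun f => f * (lperm (nthL idP bkR1S i))⁻¹) h0
    simpa [mul_assoc] using this
  have e4 := congrArg (fun f : Equiv.Perm GolayPt => f (gPt (k + 2))) h1
  simp only [Equiv.Perm.mul_apply] at e4
  rw [lperm_at vb (by omega) b3, lperm_at vc (by norm_num) c3] at e4
  have e5 : lperm (nthL idP bkR2S k') (gPt (k + 2)) = gPt 2 := by
    apply (lperm (nthL idP bkH4L l')).injective
    rw [lperm_at vc' (by norm_num) c3']
    exact e4.symm
  have e6 : k + 2 = k' + 2 := gPt_inj (by omega) (by omega)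
    ((lperm (nthL idP bkR2S k')).injective (e5.trans (lperm_at vb' (by omega) b3').symm))
  have ek : k = k' := by omega
  subst ek
  -- the third index
  have h2 : lperm (nthL idP bkH4L l) = lperm (nthL idP bkH4L l') := mul_right_cancel h1
  have el : l = l' := h4_inj hl hl' (canon_inj vc vc' c4 c4' h2)
  subst el
  rfl

theorem bkPhi_bijective : Function.Bijective bkPhi := by
  haveI := finite_M22
  apply bkPhi_injective.bijective_of_nat_card_le
  rw [card_M22, Nat.card_eq_fintype_card]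
  simp [BkI]

/-- Every element of `M22` is the permutation of an element of the enumeration. -/
theorem exists_phi (g : ↥Spor.M22) :
    ∃ i k l, i < 22 ∧ k < 21 ∧ l < 960 ∧ lperm (phi i k l) = g.1 := by
  obtain ⟨⟨⟨i, hi⟩, ⟨k, hk⟩, ⟨l, hl⟩⟩, h⟩ := bkPhi_bijective.2 g
  exact ⟨i, k, l, hi, hk, hl, congrArg Subtype.val h⟩

/-- A valid canonical packed permutation of `M22` is an element of the enumeration. -/
theorem eq_phi {b : ℕ} (hb : svalid b = true) (cb : canon b) (hm : lperm b ∈ Spor.M22) :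
    ∃ i k l, i < 22 ∧ k < 21 ∧ l < 960 ∧ b = phi i k l := by
  obtain ⟨i, k, l, hi, hk, hl, h⟩ := exists_phi ⟨lperm b, hm⟩
  obtain ⟨h1, h2, -, -⟩ := phi_ok hi hk hl
  exact ⟨i, k, l, hi, hk, hl, canon_inj hb h1 cb h2 h.symm⟩

/-- The result of the first pass. -/
def TotAll : Prop := ∀ i, i < 22 → ∀ k, k < 21 → blockT (mid i k) = true

theorem totB_phi (hT : TotAll) {i k l : ℕ} (hi : i < 22) (hk : k < 21) (hl : l < 960) :
    totB (phi i k l) = true := by
  have h := hT i hi k hk
  unfold blockT at h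
  rw [allR_eq] at h
  have h1 := List.all_eq_true.mp h _ (nthL_mem_of_lt idP bkH4L l (by rw [bk_H4_len]; exact hl))
  rwa [nlt_eq] at h1

theorem totB_of (hT : TotAll) {b : ℕ} (hb : svalid b = true) (cb : canon b)
    (hm : lperm b ∈ Spor.M22) : totB b = true := by
  obtain ⟨i, k, l, hi, hk, hl, e⟩ := eq_phi hb cb hm
  rw [e]
  exact totB_phi hT hi hk hl

/-! ### Conjugacy -/

/-- The packed permutations are conjugate in `M22`. -/
def Cj (x y : ℕ) : Prop := ∃ u ∈ Spor.M22, u * lperm x * u⁻¹ = lperm y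

theorem Cj_symm {x y : ℕ} (h : Cj x y) : Cj y x := by
  obtain ⟨u, hu, e⟩ := h
  refine ⟨u⁻¹, Subgroup.inv_mem _ hu, ?_⟩
  rw [← e]
  group

theorem Cj_trans {x y z : ℕ} (h1 : Cj x y) (h2 : Cj y z) : Cj x z := by
  obtain ⟨u, hu, e1⟩ := h1
  obtain ⟨v, hv, e2⟩ := h2
  refine ⟨v * u, Subgroup.mul_mem _ hv hu, ?_⟩
  rw [← e2, ← e1]
  group

theorem rep_ok {j : ℕ} (hj : j < 12) :
    svalid (rep j) = true ∧ lperm (rep j) ∈ Spor.M22 ∧ canon (rep j) := by
  have h := (allB_iff _ _).mp bk_rep_ok j hj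
  rw [Bool.and_eq_true] at h
  exact ⟨(okG_spec h.1).1, (okG_spec h.1).2, canonB_spec h.2⟩

/-- The orders of the representatives. -/
def bkORD : List ℕ := [1, 2, 3, 4, 4, 5, 6, 7, 7, 8, 11, 11]

/-- The order of the representative `a` does not kill the representative `b`. -/
def ncB (a b : ℕ) : Bool :=
  Nat.beq (powP (rep a) (nthL 0 bkORD a)) idP && !(Nat.beq (powP (rep b) (nthL 0 bkORD a)) idP)

/-- The twin classes. -/
def twinB (a b : ℕ) : Bool :=
  (Nat.beq a 3 && Nat.beq b 4) || ((Nat.beq a 7 && Nat.beq b 8) ||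
    (Nat.beq a 10 && Nat.beq b 11))

theorem bk_ord_ok : allB (fun a => allB (fun b =>
    Nat.beq a b || (twinB a b || (twinB b a || (ncB a b || ncB b a)))) 12) 12 = true := by
  decide +kernel

theorem ncB_spec {a b : ℕ} (ha : a < 12) (hb : b < 12) (h : ncB a b = true) :
    ¬ Cj (rep a) (rep b) := by
  rintro ⟨u, -, e⟩
  unfold ncB at h
  simp only [Bool.and_eq_true, Bool.not_eq_true'] at h
  obtain ⟨h1, h2⟩ := h
  obtain ⟨va, -, -⟩ := rep_ok ha
  obtain ⟨vb, -, -⟩ := rep_ok hb
  obtain ⟨p1, p2, -⟩ := powP_spec va (nthL 0 bkORD a)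
  obtain ⟨q1, q2, q3⟩ := powP_spec vb (nthL 0 bkORD a)
  have e1 : lperm (rep a) ^ (nthL 0 bkORD a) = 1 := by
    rw [← p2, Nat.eq_of_beq_eq_true h1, lperm_idP]
  have e2 : lperm (rep b) ^ (nthL 0 bkORD a) = 1 := by
    rw [← e, conj_pow, e1]
    group
  have e3 : powP (rep b) (nthL 0 bkORD a) = idP := by
    apply canon_inj q1 idP_valid q3 canon_idP
    rw [q2, e2, lperm_idP]
  rw [e3, Nat.beq_refl] at h2
  exact absurd h2 (by decide)

theorem sep_of (hT : TotAll) {pt y ga gb : ℕ} (hpt : pt < 24) (hy : svalid y = true)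
    (cy : canon y) (hm : lperm y ∈ Spor.M22) (hga : svalid ga = true) (hgb : svalid gb = true)
    (h : totB y = true → sep1 pt y ga gb = true) :
    lperm y * lperm ga * (lperm y)⁻¹ ≠ lperm gb := by
  intro e
  have h1 := sep1_spec hpt (h (totB_of hT hy cy hm))
  apply h1
  apply canon_inj (prodP_valid hy hga) (prodP_valid hgb hy) (canon_prodP _ _) (canon_prodP _ _)
  rw [lperm_prodP hy hga, lperm_prodP hgb hy, ← e]
  group

theorem twin_sep (hT : TotAll) {pt a b : ℕ} (hpt : pt < 24) (ha : a < 12) (hb : b < 12)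
    (h : ∀ y, totB y = true → sep1 pt y (rep a) (rep b) = true) : ¬ Cj (rep a) (rep b) := by
  rintro ⟨u, hu, e⟩
  obtain ⟨i, k, l, hi, hk, hl, e1⟩ := exists_phi ⟨u, hu⟩
  obtain ⟨p1, p2, -, p4⟩ := phi_ok hi hk hl
  have e2 : lperm (phi i k l) = u := e1
  exact sep_of hT hpt p1 p2 p4 (rep_ok ha).1 (rep_ok hb).1 (h _) (by rw [e2]; exact e)

theorem totB_sep {y : ℕ} (h : totB y = true) :
    sep1 3 y (rep 3) (rep 4) = true ∧ sep1 2 y (rep 7) (rep 8) = true ∧
      sep1 1 y (rep 10) (rep 11) = true := by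
  unfold totB sepB at h
  simp only [Bool.and_eq_true] at h
  exact h.2

/-- Distinct representatives are not conjugate. -/
theorem rep_not_conj (hT : TotAll) {a b : ℕ} (ha : a < 12) (hb : b < 12) (hab : a ≠ b) :
    ¬ Cj (rep a) (rep b) := by
  have h := (allB_iff _ _).mp ((allB_iff _ _).mp bk_ord_ok a ha) b hb
  simp only [Bool.or_eq_true] at h
  have t34 := twin_sep hT (pt := 3) (by norm_num) (show 3 < 12 by norm_num)
    (show 4 < 12 by norm_num) (fun y hy => (totB_sep hy).1)
  have t78 := twin_sep hT (pt := 2) (by norm_num) (show 7 < 12 by norm_num)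
    (show 8 < 12 by norm_num) (fun y hy => (totB_sep hy).2.1)
  have t1011 := twin_sep hT (pt := 1) (by norm_num) (show 10 < 12 by norm_num)
    (show 11 < 12 by norm_num) (fun y hy => (totB_sep hy).2.2)
  have tw : ∀ a b, twinB a b = true → ¬ Cj (rep a) (rep b) := by
    intro a b hw
    unfold twinB at hw
    simp only [Bool.or_eq_true, Bool.and_eq_true] at hw
    rcases hw with ⟨h1, h2⟩ | ⟨h1, h2⟩ | ⟨h1, h2⟩
    · rw [Nat.eq_of_beq_eq_true h1, Nat.eq_of_beq_eq_true h2]; exact t34
    · rw [Nat.eq_of_beq_eq_true h1, Nat.eq_of_beq_eq_true h2]; exact t78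
    · rw [Nat.eq_of_beq_eq_true h1, Nat.eq_of_beq_eq_true h2]; exact t1011
  rcases h with h | h | h | h | h
  · exact absurd (Nat.eq_of_beq_eq_true h) hab
  · exact tw a b h
  · exact fun c => tw b a h (Cj_symm c)
  · exact ncB_spec ha hb h
  · exact fun c => ncB_spec hb ha h (Cj_symm c)

/-- The function `cls` is a complete invariant of the classes. -/
theorem cls_iff (hT : TotAll) {b j : ℕ} (hb : svalid b = true) (cb : canon b)
    (hm : lperm b ∈ Spor.M22) (hj : j < 12) : Cj (rep j) b ↔ cls b = j := by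
  have ht := totB_of hT hb cb hm
  unfold totB at ht
  rw [Bool.and_eq_true] at ht
  have hlt : cls b < 12 := by
    have h1 := ht.1
    rwa [Nat.blt_eq] at h1
  have hs : Cj b (rep (cls b)) := (cls_sound hb rfl hlt).2
  constructor
  · intro h
    by_contra hne
    exact rep_not_conj hT hj hlt (fun e => hne e.symm) (Cj_trans h hs)
  · intro h
    rw [← h]
    exact Cj_symm hs

theorem cls_lt (hT : TotAll) {b : ℕ} (hb : svalid b = true) (cb : canon b)
    (hm : lperm b ∈ Spor.M22) : cls b < 12 := by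
  have ht := totB_of hT hb cb hm
  unfold totB at ht
  rw [Bool.and_eq_true] at ht
  have h1 := ht.1
  rwa [Nat.blt_eq] at h1

end

end Cfsg.Agent.H34
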