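import Cfsg.Agent.H34.BlkPass0
import Cfsg.Agent.H34.BlkPass1
import Cfsg.Agent.H34.BlkPass2
import Cfsg.Agent.H34.BlkPass3
import Cfsg.Agent.H34.BlkPass4
import Cfsg.Agent.H34.BlkPass5
import Cfsg.Agent.H34.BlkPass6
import Cfsg.Agent.H34.BlkPass7
import Cfsg.Agent.H34.BlkPass8
import Cfsg.Agent.H34.BlkPass9
import Cfsg.Agent.H34.BlkPass10
import Cfsg.Agent.H34.BlkPass11
import Cfsg.Agent.H34.BlkPass12
import Cfsg.Agent.H34.BlkPass13
import Cfsg.Agent.H34.BlkPass14
import Cfsg.Agent.H34.BlkPass15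
import Cfsg.Agent.H34.BlkPass16
import Cfsg.Agent.H34.BlkPass17
import Cfsg.Agent.H34.BlkPass18
import Cfsg.Agent.H34.BlkPass19
import Cfsg.Agent.H34.BlkPass20
import Cfsg.Agent.H34.BlkPass21

/-!
# The passes over the elements of `M22`, collected (helper34 library)
-/

set_option autoImplicit false

namespace Cfsg.Agent.H34

open Cfsg Cfsg.Agent.H9

theorem bk_T_all : ∀ i, i < 22 → ∀ k, k < 21 → blockT (mid i k) = true := by
  intro i hi
  interval_cases i
  · exact bk_T_0
  · exact bk_T_1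
  · exact bk_T_2
  · exact bk_T_3
  · exact bk_T_4
  · exact bk_T_5
  · exact bk_T_6
  · exact bk_T_7
  · exact bk_T_8
  · exact bk_T_9
  · exact bk_T_10
  · exact bk_T_11
  · exact bk_T_12
  · exact bk_T_13
  · exact bk_T_14
  · exact bk_T_15
  · exact bk_T_16
  · exact bk_T_17
  · exact bk_T_18
  · exact bk_T_19
  · exact bk_T_20
  · exact bk_T_21

theorem bk_N_all : ∀ i, i < 22 → ∀ k, k < 21 → blockN (mid i k) = cN i k := by
  intro i hi
  interval_cases i
  · exact bk_N_0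
  · exact bk_N_1
  · exact bk_N_2
  · exact bk_N_3
  · exact bk_N_4
  · exact bk_N_5
  · exact bk_N_6
  · exact bk_N_7
  · exact bk_N_8
  · exact bk_N_9
  · exact bk_N_10
  · exact bk_N_11
  · exact bk_N_12
  · exact bk_N_13
  · exact bk_N_14
  · exact bk_N_15
  · exact bk_N_16
  · exact bk_N_17
  · exact bk_N_18
  · exact bk_N_19
  · exact bk_N_20
  · exact bk_N_21

end Cfsg.Agent.H34
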