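import Cfsg.Agent.H34.BlkCount
import Cfsg.Agent.H20.CentralChar
import Cfsg.Agent.H80.Block

/-!
# The Mathieu group `M22` has one `2`-block (helper34 library)

Given the results `TotAll`, `NAll` of the passes over the elements: the squares of the class
sums in terms of the class sums, with coefficients of known parity; hence the central characters
of all irreducible characters agree modulo a maximal ideal over `2` (`m22_single_block`).
-/

set_option autoImplicit false

namespace Cfsg.Agent.H34

open Cfsg Cfsg.Agent.H9 Cfsg.Agent.H20 Cfsg.Agent.H4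

noncomputable section

/-- A `Fintype` structure on `M22`. -/
@[instance_reducible]
def m22Fin : Fintype ↥Spor.M22 := @Fintype.ofFinite _ finite_M22

attribute [local instance] m22Fin

/-- The class sum of the representative `j`. -/
def bkK (j : ℕ) : MonoidAlgebra ℂ ↥Spor.M22 := classSum (gOf (rep j))

/-- The number of `x` in the class `j` with `x⁻¹ * g` in the class `j`. -/
def bkNs (j : ℕ) (g : ↥Spor.M22) : ℕ :=
  Nat.card {x : ↥Spor.M22 // IsConj (gOf (rep j)) x ∧ IsConj (gOf (rep j)) (x⁻¹ * g)}

/-- Every element is conjugate to exactly one representative. -/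
theorem class_of (hT : TotAll) (g : ↥Spor.M22) :
    ∃ d₀, d₀ < 12 ∧ ∀ d, d < 12 → (IsConj (gOf (rep d)) g ↔ d = d₀) := by
  obtain ⟨i, k, l, hi, hk, hl, e⟩ := exists_phi g
  obtain ⟨vy, cy, -, my⟩ := phi_ok hi hk hl
  have eg : g = gOf (phi i k l) := Subtype.ext (by rw [gOf_val my, e])
  refine ⟨cls (phi i k l), cls_lt hT vy cy my, fun d hd => ?_⟩
  rw [eg, isConj_gOf (rep_ok hd).2.1 my, cls_iff hT vy cy my hd]
  exact eq_comm

theorem coeff_sq (j : ℕ) (g : ↥Spor.M22) : (bkK j * bkK j).coeff g = (bkNs j g : ℂ) := by
  classical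
  rw [coeff_mul_fintype]
  unfold bkK bkNs
  simp only [coeff_classSum]
  rw [Nat.card_eq_fintype_card, Fintype.card_subtype, Finset.card_filter, Nat.cast_sum]
  apply Finset.sum_congr rfl
  intro x _
  by_cases h1 : IsConj (gOf (rep j)) x
  · by_cases h2 : IsConj (gOf (rep j)) (x⁻¹ * g)
    · rw [if_pos h1, if_pos h2, if_pos ⟨h1, h2⟩]
      norm_num
    · rw [if_pos h1, if_neg h2, if_neg (fun h => h2 h.2)]
      norm_num
  · rw [if_neg h1, if_neg (show ¬ (IsConj (gOf (rep j)) x ∧ IsConj (gOf (rep j)) (x⁻¹ * g)) from
      fun h => h1 h.1), zero_mul, Nat.cast_zero]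

/-- The square of a class sum. -/
theorem sq_eq (hT : TotAll) (j : ℕ) :
    bkK j * bkK j = ∑ d ∈ Finset.range 12, (bkNs j (gOf (rep d)) : ℂ) • bkK d := by
  classical
  apply MonoidAlgebra.coeff_injective
  ext g
  obtain ⟨d₀, hd₀, hu⟩ := class_of hT g
  have hcf : IsCF (bkK j * bkK j) := isCF_mul (classSum_mem ⊤ _).1 (classSum_mem ⊤ _).1
  obtain ⟨c, hc⟩ := isConj_iff.mp ((hu d₀ hd₀).mpr rfl)
  have e1 : (bkK j * bkK j).coeff g = (bkNs j (gOf (rep d₀)) : ℂ) := by
    rw [← hc, hcf, coeff_sq]
  rw [e1, MonoidAlgebra.coeff_sum, Finsupp.finsetSum_apply]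
  simp only [MonoidAlgebra.coeff_smul, Finsupp.smul_apply, smul_eq_mul, bkK, coeff_classSum]
  rw [Finset.sum_eq_single d₀]
  · rw [if_pos ((hu d₀ hd₀).mpr rfl), mul_one]
  · intro d hd hne
    rw [if_neg (fun hc => hne ((hu d (Finset.mem_range.mp hd)).mp hc)), mul_zero]
  · intro h
    exact absurd (Finset.mem_range.mpr hd₀) h

theorem omega_sq (hT : TotAll) (χ : IrrCharacter ↥Spor.M22) (j : ℕ) :
    centralChar (χ : ↥Spor.M22 → ℂ) (gOf (rep j)) ^ 2 =
      ∑ d ∈ Finset.range 12, (bkNs j (gOf (rep d)) : ℂ) *
        centralChar (χ : ↥Spor.M22 → ℂ) (gOf (rep d)) := by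
  have h1 := omega_mul χ (z := bkK j) (classSum_mem ⊤ _).1 (bkK j)
  rw [sq_eq hT j, omega_sum] at h1
  simp only [omega_smul, bkK, omega_classSum _ (irr_isClassFunction χ)] at h1
  rw [pow_two, ← h1]

variable {M : Ideal AlgInt}

theorem par_term (hM : IsPModular 2 M) {N : ℕ} {b : Bool} (h : (N : ZMod 2) = bz b) {v : ℂ}
    (hv : MemLocalRing M v) :
    MemLocalIdeal M ((N : ℂ) * v - (if b = true then v else 0)) := by
  have hMp := isPrime_of_isPModular hM
  cases b with
  | false =>
    have h0 : (N : ZMod 2) = 0 := h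
    have hd : 2 ∣ N := (ZMod.natCast_eq_zero_iff N 2).mp h0
    have hi : MemLocalIdeal M (N : ℂ) := (memLocalIdeal_natCast_iff hM N).mpr hd
    simp only [Bool.false_eq_true, if_false, sub_zero]
    exact memLocalIdeal_mul_right hMp hi hv
  | true =>
    have h1 : (N : ZMod 2) = 1 := h
    cases N with
    | zero =>
      simp at h1
    | succ m =>
      have h0 : (m : ZMod 2) = 0 := by
        push_cast at h1
        simpa using h1
      have hd : 2 ∣ m := (ZMod.natCast_eq_zero_iff m 2).mp h0
      have hi : MemLocalIdeal M (m : ℂ) := (memLocalIdeal_natCast_iff hM m).mpr hd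
      have e : ((m + 1 : ℕ) : ℂ) * v - (if true = true then v else 0) = (m : ℂ) * v := by
        push_cast
        simp only [if_true]
        ring
      rw [e]
      exact memLocalIdeal_mul_right hMp hi hv

theorem sq_mod (hT : TotAll) (hN : NAll) (hM : IsPModular 2 M) (χ : IrrCharacter ↥Spor.M22)
    {j : ℕ} (hj : j < 12) :
    MemLocalIdeal M (centralChar (χ : ↥Spor.M22 → ℂ) (gOf (rep j)) ^ 2 -
      ∑ d ∈ Finset.range 12, (if SM j d = true then
        centralChar (χ : ↥Spor.M22 → ℂ) (gOf (rep d)) else 0)) := by
  have hMp := isPrime_of_isPModular hM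
  rw [omega_sq hT χ j, ← Finset.sum_sub_distrib]
  apply memLocalIdeal_sum hMp
  intro d hd
  exact par_term hM (nsq_parity hT hN hj (Finset.mem_range.mp hd))
    (centralChar_memLocalRing hMp χ _)

theorem sm_row_0 (v : ℕ → ℂ) :
    ∑ d ∈ Finset.range 12, (if SM 0 d = true then v d else 0) = v 0 := by
  simp only [Finset.sum_range_succ, Finset.sum_range_zero, (by decide : SM 0 0 = true), (by decide : SM 0 1 = false), (by decide : SM 0 2 = false), (by decide : SM 0 3 = false), (by decide : SM 0 4 = false), (by decide : SM 0 5 = false), (by decide : SM 0 6 = false), (by decide : SM 0 7 = false), (by decide : SM 0 8 = false), (by decide : SM 0 9 = false), (by decide : SM 0 10 = false), (by decide : SM 0 11 = false),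
    if_true, Bool.false_eq_true, if_false, zero_add, add_zero]

theorem sm_row_1 (v : ℕ → ℂ) :
    ∑ d ∈ Finset.range 12, (if SM 1 d = true then v d else 0) = v 0 + v 5 := by
  simp only [Finset.sum_range_succ, Finset.sum_range_zero, (by decide : SM 1 0 = true), (by decide : SM 1 1 = false), (by decide : SM 1 2 = false), (by decide : SM 1 3 = false), (by decide : SM 1 4 = false), (by decide : SM 1 5 = true), (by decide : SM 1 6 = false), (by decide : SM 1 7 = false), (by decide : SM 1 8 = false), (by decide : SM 1 9 = false), (by decide : SM 1 10 = false), (by decide : SM 1 11 = false),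
    if_true, Bool.false_eq_true, if_false, zero_add, add_zero]

theorem sm_row_2 (v : ℕ → ℂ) :
    ∑ d ∈ Finset.range 12, (if SM 2 d = true then v d else 0) = v 10 + v 11 := by
  simp only [Finset.sum_range_succ, Finset.sum_range_zero, (by decide : SM 2 0 = false), (by decide : SM 2 1 = false), (by decide : SM 2 2 = false), (by decide : SM 2 3 = false), (by decide : SM 2 4 = false), (by decide : SM 2 5 = false), (by decide : SM 2 6 = false), (by decide : SM 2 7 = false), (by decide : SM 2 8 = false), (by decide : SM 2 9 = false), (by decide : SM 2 10 = true), (by decide : SM 2 11 = true),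
    if_true, Bool.false_eq_true, if_false, zero_add, add_zero]

theorem sm_row_3 (v : ℕ → ℂ) :
    ∑ d ∈ Finset.range 12, (if SM 3 d = true then v d else 0) = 0 := by
  simp only [Finset.sum_range_succ, Finset.sum_range_zero, (by decide : SM 3 0 = false), (by decide : SM 3 1 = false), (by decide : SM 3 2 = false), (by decide : SM 3 3 = false), (by decide : SM 3 4 = false), (by decide : SM 3 5 = false), (by decide : SM 3 6 = false), (by decide : SM 3 7 = false), (by decide : SM 3 8 = false), (by decide : SM 3 9 = false), (by decide : SM 3 10 = false), (by decide : SM 3 11 = false),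
    Bool.false_eq_true, if_false, add_zero]

theorem sm_row_4 (v : ℕ → ℂ) :
    ∑ d ∈ Finset.range 12, (if SM 4 d = true then v d else 0) = v 5 := by
  simp only [Finset.sum_range_succ, Finset.sum_range_zero, (by decide : SM 4 0 = false), (by decide : SM 4 1 = false), (by decide : SM 4 2 = false), (by decide : SM 4 3 = false), (by decide : SM 4 4 = false), (by decide : SM 4 5 = true), (by decide : SM 4 6 = false), (by decide : SM 4 7 = false), (by decide : SM 4 8 = false), (by decide : SM 4 9 = false), (by decide : SM 4 10 = false), (by decide : SM 4 11 = false),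
    if_true, Bool.false_eq_true, if_false, zero_add, add_zero]

theorem sm_row_5 (v : ℕ → ℂ) :
    ∑ d ∈ Finset.range 12, (if SM 5 d = true then v d else 0) = 0 := by
  simp only [Finset.sum_range_succ, Finset.sum_range_zero, (by decide : SM 5 0 = false), (by decide : SM 5 1 = false), (by decide : SM 5 2 = false), (by decide : SM 5 3 = false), (by decide : SM 5 4 = false), (by decide : SM 5 5 = false), (by decide : SM 5 6 = false), (by decide : SM 5 7 = false), (by decide : SM 5 8 = false), (by decide : SM 5 9 = false), (by decide : SM 5 10 = false), (by decide : SM 5 11 = false),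
    Bool.false_eq_true, if_false, add_zero]

theorem sm_row_6 (v : ℕ → ℂ) :
    ∑ d ∈ Finset.range 12, (if SM 6 d = true then v d else 0) = v 10 + v 11 := by
  simp only [Finset.sum_range_succ, Finset.sum_range_zero, (by decide : SM 6 0 = false), (by decide : SM 6 1 = false), (by decide : SM 6 2 = false), (by decide : SM 6 3 = false), (by decide : SM 6 4 = false), (by decide : SM 6 5 = false), (by decide : SM 6 6 = false), (by decide : SM 6 7 = false), (by decide : SM 6 8 = false), (by decide : SM 6 9 = false), (by decide : SM 6 10 = true), (by decide : SM 6 11 = true),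
    if_true, Bool.false_eq_true, if_false, zero_add, add_zero]

theorem sm_row_7 (v : ℕ → ℂ) :
    ∑ d ∈ Finset.range 12, (if SM 7 d = true then v d else 0) = 0 := by
  simp only [Finset.sum_range_succ, Finset.sum_range_zero, (by decide : SM 7 0 = false), (by decide : SM 7 1 = false), (by decide : SM 7 2 = false), (by decide : SM 7 3 = false), (by decide : SM 7 4 = false), (by decide : SM 7 5 = false), (by decide : SM 7 6 = false), (by decide : SM 7 7 = false), (by decide : SM 7 8 = false), (by decide : SM 7 9 = false), (by decide : SM 7 10 = false), (by decide : SM 7 11 = false),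
    Bool.false_eq_true, if_false, add_zero]

theorem sm_row_8 (v : ℕ → ℂ) :
    ∑ d ∈ Finset.range 12, (if SM 8 d = true then v d else 0) = 0 := by
  simp only [Finset.sum_range_succ, Finset.sum_range_zero, (by decide : SM 8 0 = false), (by decide : SM 8 1 = false), (by decide : SM 8 2 = false), (by decide : SM 8 3 = false), (by decide : SM 8 4 = false), (by decide : SM 8 5 = false), (by decide : SM 8 6 = false), (by decide : SM 8 7 = false), (by decide : SM 8 8 = false), (by decide : SM 8 9 = false), (by decide : SM 8 10 = false), (by decide : SM 8 11 = false),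
    Bool.false_eq_true, if_false, add_zero]

theorem sm_row_9 (v : ℕ → ℂ) :
    ∑ d ∈ Finset.range 12, (if SM 9 d = true then v d else 0) = 0 := by
  simp only [Finset.sum_range_succ, Finset.sum_range_zero, (by decide : SM 9 0 = false), (by decide : SM 9 1 = false), (by decide : SM 9 2 = false), (by decide : SM 9 3 = false), (by decide : SM 9 4 = false), (by decide : SM 9 5 = false), (by decide : SM 9 6 = false), (by decide : SM 9 7 = false), (by decide : SM 9 8 = false), (by decide : SM 9 9 = false), (by decide : SM 9 10 = false), (by decide : SM 9 11 = false),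
    Bool.false_eq_true, if_false, add_zero]

theorem sm_row_10 (v : ℕ → ℂ) :
    ∑ d ∈ Finset.range 12, (if SM 10 d = true then v d else 0) = 0 := by
  simp only [Finset.sum_range_succ, Finset.sum_range_zero, (by decide : SM 10 0 = false), (by decide : SM 10 1 = false), (by decide : SM 10 2 = false), (by decide : SM 10 3 = false), (by decide : SM 10 4 = false), (by decide : SM 10 5 = false), (by decide : SM 10 6 = false), (by decide : SM 10 7 = false), (by decide : SM 10 8 = false), (by decide : SM 10 9 = false), (by decide : SM 10 10 = false), (by decide : SM 10 11 = false),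
    Bool.false_eq_true, if_false, add_zero]

theorem sm_row_11 (v : ℕ → ℂ) :
    ∑ d ∈ Finset.range 12, (if SM 11 d = true then v d else 0) = 0 := by
  simp only [Finset.sum_range_succ, Finset.sum_range_zero, (by decide : SM 11 0 = false), (by decide : SM 11 1 = false), (by decide : SM 11 2 = false), (by decide : SM 11 3 = false), (by decide : SM 11 4 = false), (by decide : SM 11 5 = false), (by decide : SM 11 6 = false), (by decide : SM 11 7 = false), (by decide : SM 11 8 = false), (by decide : SM 11 9 = false), (by decide : SM 11 10 = false), (by decide : SM 11 11 = false),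
    Bool.false_eq_true, if_false, add_zero]

theorem block_vals (hM : IsPModular 2 M) (v : ℕ → ℂ) (hv : ∀ d, MemLocalRing M (v d))
    (h0 : v 0 = 1)
    (hs : ∀ j, j < 12 → MemLocalIdeal M (v j ^ 2 -
      ∑ d ∈ Finset.range 12, (if SM j d = true then v d else 0))) :
    MemLocalIdeal M (v 1 - 1) ∧ ∀ j, 2 ≤ j → j < 12 → MemLocalIdeal M (v j) := by
  have hMp := isPrime_of_isPModular hM
  have z : ∀ j, j < 12 → (∑ d ∈ Finset.range 12, (if SM j d = true then v d else 0)) = 0 →
      MemLocalIdeal M (v j) := by
    intro j hj e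
    have h := hs j hj
    rw [e, sub_zero] at h
    exact memLocalIdeal_of_pow hMp (hv j) 2 h
  have h3 := z 3 (by norm_num) (sm_row_3 v)
  have h5 := z 5 (by norm_num) (sm_row_5 v)
  have h7 := z 7 (by norm_num) (sm_row_7 v)
  have h8 := z 8 (by norm_num) (sm_row_8 v)
  have h9 := z 9 (by norm_num) (sm_row_9 v)
  have h10 := z 10 (by norm_num) (sm_row_10 v)
  have h11 := z 11 (by norm_num) (sm_row_11 v)
  have h4 : MemLocalIdeal M (v 4) := by
    have h := hs 4 (by norm_num)
    rw [sm_row_4] at h
    have h' := memLocalIdeal_add hMp h h5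
    rw [sub_add_cancel] at h'
    exact memLocalIdeal_of_pow hMp (hv 4) 2 h'
  have h2 : MemLocalIdeal M (v 2) := by
    have h := hs 2 (by norm_num)
    rw [sm_row_2] at h
    have h' := memLocalIdeal_add hMp h (memLocalIdeal_add hMp h10 h11)
    rw [sub_add_cancel] at h'
    exact memLocalIdeal_of_pow hMp (hv 2) 2 h'
  have h6 : MemLocalIdeal M (v 6) := by
    have h := hs 6 (by norm_num)
    rw [sm_row_6] at h
    have h' := memLocalIdeal_add hMp h (memLocalIdeal_add hMp h10 h11)
    rw [sub_add_cancel] at h'
    exact memLocalIdeal_of_pow hMp (hv 6) 2 h'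
  have h1 : MemLocalIdeal M (v 1 - 1) := by
    have h := hs 1 (by norm_num)
    rw [sm_row_1, h0] at h
    have h2' : MemLocalIdeal M (((2 : ℕ) : ℂ) * (1 - v 1)) :=
      memLocalIdeal_mul_right hMp (memLocalIdeal_natCast_self hM)
        (memLocalRing_sub hMp (memLocalRing_one hMp) (hv 1))
    have h' := memLocalIdeal_add hMp (memLocalIdeal_add hMp h h5) h2'
    have e : v 1 ^ 2 - (1 + v 5) + v 5 + ((2 : ℕ) : ℂ) * (1 - v 1) = (v 1 - 1) ^ 2 := by
      push_cast
      ring
    rw [e] at h'
    exact memLocalIdeal_of_pow hMp (memLocalRing_sub hMp (hv 1) (memLocalRing_one hMp)) 2 h'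
  refine ⟨h1, ?_⟩
  intro j hj2 hj12
  interval_cases j
  · exact h2
  · exact h3
  · exact h4
  · exact h5
  · exact h6
  · exact h7
  · exact h8
  · exact h9
  · exact h10
  · exact h11

theorem gOf_rep0 : gOf (rep 0) = 1 := by
  have h : lperm (rep 0) ∈ Spor.M22 := by
    rw [bk_rep0, lperm_idP]
    exact Subgroup.one_mem _
  apply Subtype.ext
  rw [gOf_val h, bk_rep0, lperm_idP]
  rfl

/-- All irreducible characters of `M22` lie in one `2`-block. -/
theorem m22_single_block (hT : TotAll) (hN : NAll) (M : Ideal AlgInt) (hM : IsPModular 2 M)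
    (χ ψ : IrrCharacter ↥Spor.M22) :
    SameBlock M (χ : ↥Spor.M22 → ℂ) (ψ : ↥Spor.M22 → ℂ) := by
  have hMp := isPrime_of_isPModular hM
  have key : ∀ θ : IrrCharacter ↥Spor.M22,
      MemLocalIdeal M (centralChar (θ : ↥Spor.M22 → ℂ) (gOf (rep 1)) - 1) ∧
      ∀ j, 2 ≤ j → j < 12 → MemLocalIdeal M (centralChar (θ : ↥Spor.M22 → ℂ) (gOf (rep j))) :=
    fun θ => block_vals hM (fun d => centralChar (θ : ↥Spor.M22 → ℂ) (gOf (rep d)))
      (fun d => centralChar_memLocalRing hMp θ _)
      (by
        show centralChar (θ : ↥Spor.M22 → ℂ) (gOf (rep 0)) = 1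
        rw [gOf_rep0]
        exact centralChar_one _ (irr_one_ne_zero θ))
      (fun j hj => sq_mod hT hN hM θ hj)
  intro g
  obtain ⟨d₀, hd₀, hu⟩ := class_of hT g
  obtain ⟨c, hc⟩ := isConj_iff.mp ((hu d₀ hd₀).mpr rfl)
  rw [← hc, Cfsg.Agent.H80.centralChar_conj (irr_isClassFunction χ),
    Cfsg.Agent.H80.centralChar_conj (irr_isClassFunction ψ)]
  rcases Nat.lt_or_ge d₀ 2 with h | h
  · interval_cases d₀
    · rw [gOf_rep0, centralChar_one _ (irr_one_ne_zero χ), centralChar_one _ (irr_one_ne_zero ψ),
        sub_self]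
      exact memLocalIdeal_zero hMp
    · have h' := memLocalIdeal_sub hMp (key χ).1 (key ψ).1
      rwa [sub_sub_sub_cancel_right] at h'
  · exact memLocalIdeal_sub hMp ((key χ).2 d₀ h hd₀) ((key ψ).2 d₀ h hd₀)

end

end Cfsg.Agent.H34
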