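import Cfsg.Agent.H34.M22Aut
import Cfsg.Agent.S0378

/-!
# Subgroups of `M22` of order 7920 and 2112

Sylow counting with the normalisers of the subgroups of order 11 and 5, and a generation lemma in
subgroup form: a subgroup of `M22` of order 7920 would contain the three generators.
-/

set_option autoImplicit false

namespace Cfsg.Agent.H34

open Cfsg Cfsg.Agent.H9

/-! ### Sylow counting -/

theorem fact_one {n p : ℕ} (hp : p.Prime) (hn : n ≠ 0) (h1 : p ∣ n) (h2 : ¬ p ^ 2 ∣ n) :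
    n.factorization p = 1 := by
  have a := (hp.dvd_iff_one_le_factorization hn).mp h1
  have b : ¬ 2 ≤ n.factorization p := fun h => h2 ((hp.pow_dvd_iff_le_factorization hn).mpr h)
  omega

/-- Sylow counting for a subgroup `P ≤ K` of prime order `p` with `p ^ 2 ∤ |K|`, all of whose
normalising elements in `K` lie in the finite set `T`. -/
theorem sylow_num {G : Type*} [Group G] [Finite G] {p : ℕ} [Fact p.Prime] (K P : Subgroup G)
    (hPK : P ≤ K) (hP : Nat.card P = p) (hK : (Nat.card K).factorization p = 1)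
    (T : Finset G) (hT : ∀ g ∈ K, (∀ x ∈ P, g * x * g⁻¹ ∈ P) → g ∈ T) :
    ∃ m, m ≤ T.card ∧ p ∣ m ∧ m ∣ Nat.card K ∧ Nat.card K / m % p = 1 ∧
      (m = T.card → ∀ g ∈ T, g ∈ K) := by
  classical
  have hP' : Nat.card (P.subgroupOf K) = p ^ (Nat.card K).factorization p := by
    rw [hK, pow_one, Nat.card_congr (Subgroup.subgroupOfEquivOfLe hPK).toEquiv, hP]
  have h1 : Nat.card (Sylow p K) ≡ 1 [MOD p] := card_sylow_modEq_one p K
  have h2 := Sylow.card_eq_index_normalizer (Sylow.ofCard (P.subgroupOf K) hP')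
  rw [show ((Sylow.ofCard (P.subgroupOf K) hP' : Sylow p K) : Set K) =
      ((P.subgroupOf K : Subgroup K) : Set K) from
    congrArg (fun S : Subgroup K => (S : Set K)) (Sylow.coe_ofCard _ hP')] at h2
  have hidx := Subgroup.index_mul_card (Subgroup.normalizer ((P.subgroupOf K : Subgroup K) : Set K))
  have hcN : Nat.card ((Subgroup.normalizer ((P.subgroupOf K : Subgroup K) : Set K)).map K.subtype) =
      Nat.card (Subgroup.normalizer ((P.subgroupOf K : Subgroup K) : Set K)) :=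
    Subgroup.card_map_of_injective K.subtype_injective
  have hNK : ∀ g ∈ (Subgroup.normalizer ((P.subgroupOf K : Subgroup K) : Set K)).map K.subtype,
      g ∈ K ∧ ∀ x ∈ P, g * x * g⁻¹ ∈ P := by
    rintro g ⟨k, hk, rfl⟩
    refine ⟨k.2, fun x hx => ?_⟩
    have h3 := (Subgroup.mem_normalizer_iff.mp hk ⟨x, hPK hx⟩).mp (Subgroup.mem_subgroupOf.mpr hx)
    exact Subgroup.mem_subgroupOf.mp h3
  have hPN : P ≤ (Subgroup.normalizer ((P.subgroupOf K : Subgroup K) : Set K)).map K.subtype := by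
    intro x hx
    exact ⟨⟨x, hPK hx⟩, Subgroup.le_normalizer
      (show (⟨x, hPK hx⟩ : K) ∈ P.subgroupOf K from Subgroup.mem_subgroupOf.mpr hx), rfl⟩
  have hsub : (((Subgroup.normalizer ((P.subgroupOf K : Subgroup K) : Set K)).map K.subtype :
      Subgroup G) : Set G) ⊆ (T : Set G) :=
    fun g hg => Finset.mem_coe.mpr (hT g (hNK g hg).1 (hNK g hg).2)
  have hcard : Nat.card ((Subgroup.normalizer ((P.subgroupOf K : Subgroup K) : Set K)).map
      K.subtype) = (((Subgroup.normalizer ((P.subgroupOf K : Subgroup K) : Set K)).map K.subtype :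
      Subgroup G) : Set G).ncard := rfl
  refine ⟨Nat.card ((Subgroup.normalizer ((P.subgroupOf K : Subgroup K) : Set K)).map K.subtype),
    ?_, ?_, ?_, ?_, ?_⟩
  · have h3 := Set.ncard_le_ncard hsub (Finset.finite_toSet T)
    rw [Set.ncard_coe_finset] at h3
    rw [hcard]
    exact h3
  · rw [← hP]
    exact Subgroup.card_dvd_of_le hPN
  · rw [hcN]
    exact Dvd.intro_left _ hidx
  · rw [hcN, ← hidx, Nat.mul_div_cancel _ Nat.card_pos, ← h2]
    have h4 : 1 % p = 1 := Nat.mod_eq_of_lt (Fact.out : p.Prime).one_lt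
    rw [← h4]
    exact h1
  · intro hm g hg
    have heq := Set.eq_of_subset_of_ncard_le hsub
      (by rw [Set.ncard_coe_finset, ← hm, hcard]) (Finset.finite_toSet T)
    have h5 : g ∈ (((Subgroup.normalizer ((P.subgroupOf K : Subgroup K) : Set K)).map K.subtype :
        Subgroup G) : Set G) := by
      rw [heq]
      exact Finset.mem_coe.mpr hg
    exact (hNK g h5).1

/-! ### Generation in subgroup form -/

/-- The packed permutation `s` is a valid element of the subgroup `K`. -/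
def MemK {H : Subgroup (Equiv.Perm GolayPt)} (K : Subgroup ↥H) (s : ℕ) : Prop :=
  svalid s = true ∧ ∃ x : ↥H, (x : Equiv.Perm GolayPt) = lperm s ∧ x ∈ K

theorem MemK_mul {H : Subgroup (Equiv.Perm GolayPt)} {K : Subgroup ↥H} (r s t : ℕ)
    (hr : svalid r = true) (hs : MemK K s) (ht : MemK K t) (h : prB r s t = true) :
    MemK K r := by
  obtain ⟨hsv, x, ex, hx⟩ := hs
  obtain ⟨htv, y, ey, hy⟩ := ht
  refine ⟨hr, x * y, ?_, mul_mem hx hy⟩
  rw [prB_sound hr hsv htv h, ← ex, ← ey]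
  rfl

theorem MemK_slpL {H : Subgroup (Equiv.Perm GolayPt)} {K : Subgroup ↥H} {gens : List ℕ}
    (hg : ∀ g ∈ gens, MemK K g) {L : List (ℕ × ℕ × ℕ)} (hL : slpL gens L = true) :
    ∀ e ∈ L, MemK K e.1 :=
  slpL_sound hg (fun r s t => MemK_mul r s t) L hL

theorem desc_mem {H : Subgroup (Equiv.Perm GolayPt)} {K : Subgroup ↥H} {L : List (ℕ × ℕ × ℕ)}
    (hS : ∀ e ∈ L, MemK K e.1) (B : List ℕ) (hB : ∀ i ∈ B, i < 24) (p : ℕ) (hp : p < 24)
    (O : List ℕ)
    (hO : ∀ g : ↥H, (∀ i ∈ B, (g : Equiv.Perm GolayPt) (gPt i) = gPt i) →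
      gIdx ((g : Equiv.Perm GolayPt) (gPt p)) ∈ O)
    (hl : lvB B p O L = true)
    (hnext : ∀ g : ↥H, (∀ i ∈ p :: B, (g : Equiv.Perm GolayPt) (gPt i) = gPt i) → g ∈ K)
    (g : ↥H) (hg : ∀ i ∈ B, (g : Equiv.Perm GolayPt) (gPt i) = gPt i) : g ∈ K := by
  have h := List.all_eq_true.mp hl _ (hO g hg)
  obtain ⟨e, he, hw⟩ := List.any_eq_true.mp h
  rw [Bool.and_eq_true] at hw
  obtain ⟨hw1, hw2⟩ := hw
  obtain ⟨hv, x, ex, hx⟩ := hS e he
  have hfixx : ∀ i ∈ B, (x : Equiv.Perm GolayPt) (gPt i) = gPt i := by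
    intro i hi
    rw [ex, lperm_apply hv, gIdx_gPt (hB i hi),
      Nat.eq_of_beq_eq_true (List.all_eq_true.mp hw1 i hi)]
  have hxp : (x : Equiv.Perm GolayPt) (gPt p) = (g : Equiv.Perm GolayPt) (gPt p) := by
    rw [ex, lperm_apply hv, gIdx_gPt hp, Nat.eq_of_beq_eq_true hw2, gPt_gIdx]
  have h' : x⁻¹ * g ∈ K := by
    apply hnext
    intro i hi
    show ((x : Equiv.Perm GolayPt)⁻¹ * (g : Equiv.Perm GolayPt)) (gPt i) = gPt i
    rw [Equiv.Perm.mul_apply, Equiv.Perm.inv_eq_iff_eq]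
    rcases List.mem_cons.mp hi with rfl | hi'
    · exact hxp.symm
    · rw [hg i hi', hfixx i hi']
  have e2 : g = x * (x⁻¹ * g) := by group
  rw [e2]
  exact mul_mem hx h'

/-- A subgroup of `M22` containing the three generators is everything. -/
theorem gen22K (K : Subgroup ↥Spor.M22)
    (ha : (⟨lperm b24P, a22_H⟩ : ↥Spor.M22) ∈ K)
    (hb : (⟨lperm b22P, b22_H⟩ : ↥Spor.M22) ∈ K)
    (hc : (⟨lperm c22P, c22_H⟩ : ↥Spor.M22) ∈ K) (g : ↥Spor.M22) : g ∈ K := by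
  have hgens : ∀ s ∈ [b24P, b22P, c22P], MemK K s := by
    intro s hs
    simp only [List.mem_cons, List.not_mem_nil, or_false] at hs
    rcases hs with rfl | rfl | rfl
    · exact ⟨b24_valid, ⟨lperm b24P, a22_H⟩, rfl, ha⟩
    · exact ⟨b22_valid, ⟨lperm b22P, b22_H⟩, rfl, hb⟩
    · exact ⟨c22_valid, ⟨lperm c22P, c22_H⟩, rfl, hc⟩
  have hS := MemK_slpL hgens SLP22_ok
  have hM : ∀ g : ↥Spor.M22, (g : Equiv.Perm GolayPt) ∈ M24 := fun g => M22_le g.2
  have h6 : ∀ g : ↥Spor.M22, (∀ i ∈ [4, 5, 3, 2, 1, 23, 0],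
      (g : Equiv.Perm GolayPt) (gPt i) = gPt i) → g ∈ K := by
    intro g hg
    have h1 : (g : Equiv.Perm GolayPt) = 1 :=
      q4_bot (B' := [4, 5, 23]) (by decide) q22_bot (hM g) (fix4 (by decide) hg)
        (sub_fix (by decide) hg)
    have h2 : g = 1 := Subtype.ext h1
    rw [h2]
    exact one_mem K
  have h5 := desc_mem hS [5, 3, 2, 1, 23, 0] (by decide) 4 (by norm_num) O22_4
    (fun g hg => q4_target (B' := [5, 23]) (by norm_num) (by decide) q22_t4 (hM g)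
      (fix4 (by decide) hg) (sub_fix (by decide) hg)) SLP22_l4 h6
  have h4 := desc_mem hS [3, 2, 1, 23, 0] (by decide) 5 (by norm_num) O22_3
    (fun g hg => q4_target (B' := [23]) (by norm_num) (by decide) q22_t3 (hM g)
      (fix4 (by decide) hg) (sub_fix (by decide) hg)) SLP22_l3 h5
  have h3 := desc_mem hS [2, 1, 23, 0] (by decide) 3 (by norm_num) (freeL [2, 1, 23, 0])
    (fun g hg => inj_target hg (by norm_num) (by decide)) SLP22_l2 h4
  have h2 := desc_mem hS [1, 23, 0] (by decide) 2 (by norm_num) (freeL [1, 23, 0])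
    (fun g hg => inj_target hg (by norm_num) (by decide)) SLP22_l1 h3
  have h1 := desc_mem hS [23, 0] (by decide) 1 (by norm_num) (freeL [23, 0])
    (fun g hg => inj_target hg (by norm_num) (by decide)) SLP22_l0 h2
  refine h1 g (fun i hi => ?_)
  have hm := mem_M22_iff.mp g.2
  simp only [List.mem_cons, List.not_mem_nil, or_false] at hi
  rcases hi with rfl | rfl
  · exact hm.2.1
  · exact hm.2.2

/-! ### The normalisers of the subgroups of order 11 and 5 -/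

theorem a22_pow11 : lperm b24P ^ 11 = 1 := by
  have h := pw_order b24_valid BL11_ok BL11_last
  rw [BL11_len] at h
  exact h

theorem b22_pow5 : lperm b22P ^ 5 = 1 := by
  have h := pw_order b22_valid BL5_ok BL5_last
  rw [BL5_len] at h
  exact h

theorem a22_pow10 : lperm b24P ^ 10 = (lperm b24P)⁻¹ := by
  rw [eq_inv_iff_mul_eq_one, ← pow_succ]
  exact a22_pow11

/-- No element of `M22` inverts the element of order 11. -/
theorem a22_not_inv {h : Equiv.Perm GolayPt} (hh : h ∈ Spor.M22)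
    (he : h * lperm b24P = (lperm b24P)⁻¹ * h) : False := by
  obtain ⟨hpv, hpe⟩ := pwOf_spec b24_valid BL11_ok (k := BL11.length) (by omega)
  have h1 := conjB_sound g22_valid hpv b24_valid g22_a
  rw [hpe, BL11_len, a22_pow10] at h1
  have hc : (lperm g22P * h) * lperm b24P = lperm b24P * (lperm g22P * h) := by
    rw [mul_assoc, he, ← mul_assoc, h1, mul_assoc]
  obtain ⟨k, hk⟩ := cent_b24 (mul_mem (lperm_mem_M24 g22_ok) (M22_le hh)) hc
  have hg : lperm g22P ∈ Spor.M22 := by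
    have e : lperm g22P = lperm b24P ^ k * h⁻¹ := by
      rw [← hk]
      group
    rw [e]
    exact mul_mem (pow_mem a22_H k) (inv_mem hh)
  have h0 := (mem_M22_iff.mp hg).2.2
  have hs := g22_swap
  rw [Bool.and_eq_true] at hs
  have h4 := congrArg gIdx h0
  rw [gIdx_lperm g22_valid, gIdx_gPt (by norm_num : 0 < 24), Nat.eq_of_beq_eq_true hs.1] at h4
  exact absurd h4 (by norm_num)

/-- The normaliser in `M22` of the subgroup of order 11. -/
theorem norm_a22 {z : Equiv.Perm GolayPt} (hz : z ∈ Spor.M22)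
    (hn : z * lperm b24P * z⁻¹ ∈ Subgroup.zpowers (lperm b24P)) :
    ∃ j i : ℕ, j < 5 ∧ i < 11 ∧ z = (lperm b22P ^ j)⁻¹ * lperm b24P ^ i := by
  obtain ⟨k, hk, e⟩ := zpowers_pw (by norm_num) a22_pow11 hn
  have e' : z * lperm b24P = lperm b24P ^ k * z := by
    rw [← e]
    group
  have hk0 : k ≠ 0 := by
    rintro rfl
    rw [pow_zero, one_mul] at e'
    exact b24_ne_one (mul_left_cancel (e'.trans (mul_one z).symm))
  have ht := List.all_eq_true.mp N22_tab k (List.mem_range.mpr (by rw [BL11_len]; omega))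
  have hk0' : Nat.beq k 0 = false := by
    cases hb : Nat.beq k 0
    · rfl
    · exact absurd (Nat.eq_of_beq_eq_true hb) hk0
  rw [hk0', Bool.false_or] at ht
  obtain ⟨j, hj, hjj⟩ := List.any_eq_true.mp ht
  have hj' : j < BL5.length + 1 := List.mem_range.mp hj
  obtain ⟨hbv, hbe⟩ := pwOf_spec b22_valid BL5_ok hj'
  obtain ⟨hav, hae⟩ := pwOf_spec b24_valid BL11_ok (k := k) (by rw [BL11_len]; omega)
  rw [Bool.or_eq_true] at hjj
  rcases hjj with h | h
  · have h1 := conjB_sound hbv hav b24_valid h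
    rw [hbe, hae] at h1
    have hc : (lperm b22P ^ j * z) * lperm b24P = lperm b24P * (lperm b22P ^ j * z) := by
      rw [mul_assoc, e', ← mul_assoc, h1, mul_assoc]
    obtain ⟨i, hi⟩ := cent_b24 (mul_mem (pow_mem (M22_le b22_H) j) (M22_le hz)) hc
    refine ⟨j, i % 11, by rw [BL5_len] at hj'; exact hj', Nat.mod_lt _ (by norm_num), ?_⟩
    rw [← pow_eq_pow_mod i a22_pow11, ← hi]
    group
  · exfalso
    obtain ⟨hlv, hle⟩ := pwOf_spec b24_valid BL11_ok (k := BL11.length) (by omega)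
    have h1 := conjB_sound hbv hav hlv h
    rw [hbe, hae, hle, BL11_len, a22_pow10] at h1
    apply a22_not_inv (h := lperm b22P ^ j * z) (mul_mem (pow_mem b22_H j) hz)
    rw [mul_assoc, e', ← mul_assoc, h1, mul_assoc]

theorem conj_pow_two {G : Type*} [Group G] {c b : G} (h : c * b = b ^ 2 * c) (m : ℕ) :
    c ^ m * b = b ^ (2 ^ m) * c ^ m := by
  induction m with
  | zero => simp
  | succ m ih =>
    have h2 : ∀ n : ℕ, c ^ m * b ^ n = (b ^ (2 ^ m)) ^ n * c ^ m := by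
      intro n
      induction n with
      | zero => simp
      | succ n ihn => rw [pow_succ, ← mul_assoc, ihn, mul_assoc, ih, ← mul_assoc, ← pow_succ]
    rw [pow_succ c, mul_assoc, h, ← mul_assoc, h2 2, ← pow_mul, ← pow_succ 2, mul_assoc]

theorem b22_ne_one : lperm b22P ≠ 1 := by
  intro h
  have h1 := congrArg (fun f : Equiv.Perm GolayPt => gIdx (f (gPt 2))) h
  simp only [gIdx_lperm b22_valid, gIdx_gPt (by norm_num : 2 < 24), Equiv.Perm.one_apply,
    Nat.eq_of_beq_eq_true b22_vals] at h1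
  exact absurd h1 (by norm_num)

/-- The normaliser in `M22` of the subgroup of order 5. -/
theorem norm_b22 {z : Equiv.Perm GolayPt} (hz : z ∈ Spor.M22)
    (hn : z * lperm b22P * z⁻¹ ∈ Subgroup.zpowers (lperm b22P)) :
    ∃ m i : ℕ, m < 4 ∧ i < 5 ∧ z = lperm c22P ^ m * lperm b22P ^ i := by
  obtain ⟨k, hk, e⟩ := zpowers_pw (by norm_num) b22_pow5 hn
  have e' : z * lperm b22P = lperm b22P ^ k * z := by
    rw [← e]
    group
  have hk0 : k ≠ 0 := by
    rintro rfl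
    rw [pow_zero, one_mul] at e'
    exact b22_ne_one (mul_left_cancel (e'.trans (mul_one z).symm))
  obtain ⟨hp2v, hp2e⟩ := pwOf_spec b22_valid BL5_ok (k := 2) (by rw [BL5_len]; norm_num)
  have hcb := conjB_sound c22_valid b22_valid hp2v cb22_rel
  rw [hp2e] at hcb
  obtain ⟨m, hm4, hm⟩ : ∃ m : ℕ, m < 4 ∧ 2 ^ m % 5 = k := by
    interval_cases k
    · exact absurd rfl hk0
    · exact ⟨0, by norm_num, rfl⟩
    · exact ⟨1, by norm_num, rfl⟩
    · exact ⟨3, by norm_num, rfl⟩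
    · exact ⟨2, by norm_num, rfl⟩
  have h1 := conj_pow_two hcb m
  rw [pow_eq_pow_mod (2 ^ m) b22_pow5, hm] at h1
  have h2 : lperm b22P * (lperm c22P ^ m)⁻¹ = (lperm c22P ^ m)⁻¹ * lperm b22P ^ k := by
    rw [eq_inv_mul_iff_mul_eq, ← mul_assoc, h1, mul_assoc, mul_inv_cancel, mul_one]
  have hc : ((lperm c22P ^ m)⁻¹ * z) * lperm b22P = lperm b22P * ((lperm c22P ^ m)⁻¹ * z) := by
    rw [mul_assoc, e', ← mul_assoc, ← h2, mul_assoc]
  obtain ⟨i, hi⟩ := cent_b22 (mul_mem (inv_mem (pow_mem c22_H m)) hz) hc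
  refine ⟨m, i % 5, hm4, Nat.mod_lt _ (by norm_num), ?_⟩
  rw [← pow_eq_pow_mod i b22_pow5, ← hi]
  group

/-! ### Subgroups of order 7920 and 2112 -/

theorem ord_b22 : orderOf (⟨lperm b22P, b22_H⟩ : ↥Spor.M22) = 5 := by
  have h := ord_concrete (H := Spor.M22) b22_valid BL5_ok BL5_last (by rw [BL5_len]; norm_num)
    b22_H b22_ne_one
  rw [BL5_len] at h
  exact h

theorem zpow_coe_mem {H : Subgroup (Equiv.Perm GolayPt)} {a g : ↥H}
    (h : g * a * g⁻¹ ∈ Subgroup.zpowers a) :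
    (g : Equiv.Perm GolayPt) * (a : Equiv.Perm GolayPt) * (g : Equiv.Perm GolayPt)⁻¹ ∈
      Subgroup.zpowers (a : Equiv.Perm GolayPt) := by
  obtain ⟨k, hk⟩ := Subgroup.mem_zpowers_iff.mp h
  refine Subgroup.mem_zpowers_iff.mpr ⟨k, ?_⟩
  have h1 := congrArg Subtype.val hk
  rw [Subgroup.coe_zpow] at h1
  exact h1

/-- Sylow counting at the prime 11. -/
theorem sylStepA (K : Subgroup ↥Spor.M22) (hA : (⟨lperm b24P, a22_H⟩ : ↥Spor.M22) ∈ K)
    (hc : (Nat.card K).factorization 11 = 1) :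
    ∃ m, m ≤ 55 ∧ 11 ∣ m ∧ m ∣ Nat.card K ∧ Nat.card K / m % 11 = 1 ∧
      (m = 55 → (⟨lperm b22P, b22_H⟩ : ↥Spor.M22) ∈ K) := by
  classical
  have := finite_M22
  haveI : Fact (Nat.Prime 11) := ⟨by norm_num⟩
  have hTc : ((Finset.univ : Finset (Fin 5 × Fin 11)).image
      (fun x => ((⟨lperm b22P, b22_H⟩ : ↥Spor.M22) ^ (x.1 : ℕ))⁻¹ *
        (⟨lperm b24P, a22_H⟩ : ↥Spor.M22) ^ (x.2 : ℕ))).card ≤ 55 := by
    refine le_trans Finset.card_image_le ?_
    simp
  have hP : Nat.card (Subgroup.zpowers (⟨lperm b24P, a22_H⟩ : ↥Spor.M22)) = 11 := by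
    rw [Nat.card_zpowers, ord_a22]
  obtain ⟨m, h1, h2, h3, h4, h5⟩ := sylow_num K
    (Subgroup.zpowers (⟨lperm b24P, a22_H⟩ : ↥Spor.M22)) (Subgroup.zpowers_le.mpr hA) hP hc
    ((Finset.univ : Finset (Fin 5 × Fin 11)).image
      (fun x => ((⟨lperm b22P, b22_H⟩ : ↥Spor.M22) ^ (x.1 : ℕ))⁻¹ *
        (⟨lperm b24P, a22_H⟩ : ↥Spor.M22) ^ (x.2 : ℕ))) (by
      intro g _ hn
      obtain ⟨j, i, hj, hi, e⟩ := norm_a22 g.2 (zpow_coe_mem (hn _ (Subgroup.mem_zpowers _)))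
      exact Finset.mem_image.mpr ⟨(⟨j, hj⟩, ⟨i, hi⟩), Finset.mem_univ _, Subtype.ext e.symm⟩)
  refine ⟨m, le_trans h1 hTc, h2, h3, h4, fun hm => ?_⟩
  apply h5 (by omega)
  refine Finset.mem_image.mpr ⟨(⟨4, by norm_num⟩, ⟨0, by norm_num⟩), Finset.mem_univ _, ?_⟩
  apply Subtype.ext
  show (lperm b22P ^ 4)⁻¹ * lperm b24P ^ 0 = lperm b22P
  rw [pow_zero, mul_one]
  exact inv_eq_of_mul_eq_one_right (by rw [← pow_succ]; exact b22_pow5)

/-- Sylow counting at the prime 5. -/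
theorem sylStepB (K : Subgroup ↥Spor.M22) (hB : (⟨lperm b22P, b22_H⟩ : ↥Spor.M22) ∈ K)
    (hc : (Nat.card K).factorization 5 = 1) :
    ∃ m, m ≤ 20 ∧ 5 ∣ m ∧ m ∣ Nat.card K ∧ Nat.card K / m % 5 = 1 ∧
      (m = 20 → (⟨lperm c22P, c22_H⟩ : ↥Spor.M22) ∈ K) := by
  classical
  have := finite_M22
  haveI : Fact (Nat.Prime 5) := ⟨by norm_num⟩
  have hTc : ((Finset.univ : Finset (Fin 4 × Fin 5)).image
      (fun x => (⟨lperm c22P, c22_H⟩ : ↥Spor.M22) ^ (x.1 : ℕ) *
        (⟨lperm b22P, b22_H⟩ : ↥Spor.M22) ^ (x.2 : ℕ))).card ≤ 20 := by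
    refine le_trans Finset.card_image_le ?_
    simp
  have hP : Nat.card (Subgroup.zpowers (⟨lperm b22P, b22_H⟩ : ↥Spor.M22)) = 5 := by
    rw [Nat.card_zpowers, ord_b22]
  obtain ⟨m, h1, h2, h3, h4, h5⟩ := sylow_num K
    (Subgroup.zpowers (⟨lperm b22P, b22_H⟩ : ↥Spor.M22)) (Subgroup.zpowers_le.mpr hB) hP hc
    ((Finset.univ : Finset (Fin 4 × Fin 5)).image
      (fun x => (⟨lperm c22P, c22_H⟩ : ↥Spor.M22) ^ (x.1 : ℕ) *
        (⟨lperm b22P, b22_H⟩ : ↥Spor.M22) ^ (x.2 : ℕ))) (by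
      intro g _ hn
      obtain ⟨j, i, hj, hi, e⟩ := norm_b22 g.2 (zpow_coe_mem (hn _ (Subgroup.mem_zpowers _)))
      exact Finset.mem_image.mpr ⟨(⟨j, hj⟩, ⟨i, hi⟩), Finset.mem_univ _, Subtype.ext e.symm⟩)
  refine ⟨m, le_trans h1 hTc, h2, h3, h4, fun hm => ?_⟩
  apply h5 (by omega)
  refine Finset.mem_image.mpr ⟨(⟨1, by norm_num⟩, ⟨0, by norm_num⟩), Finset.mem_univ _, ?_⟩
  apply Subtype.ext
  show lperm c22P ^ 1 * lperm b22P ^ 0 = lperm c22P
  rw [pow_zero, mul_one, pow_one]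

/-- A two-point stabiliser in `M24` is isomorphic to `M22`. -/
theorem m22_iso {p q : GolayPt} (hpq : p ≠ q) :
    Nonempty (↥(MulAction.stabilizer M24 p ⊓ MulAction.stabilizer M24 q) ≃* ↥Spor.M22) := by
  obtain ⟨g1, hg1, h1p, h1q⟩ := two_trans hpq
  have hwv := okM24_svalid w22_ok
  have hwi := w22_img
  simp only [Bool.and_eq_true] at hwi
  obtain ⟨hw0, hw1, -, -⟩ := hwi
  have e0 : lperm w22P (gPt 0) = gPt 0 := by
    rw [lperm_apply hwv, gIdx_gPt (by norm_num), Nat.eq_of_beq_eq_true hw0]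
  have e1 : lperm w22P (gPt 1) = gPt 23 := by
    rw [lperm_apply hwv, gIdx_gPt (by norm_num), Nat.eq_of_beq_eq_true hw1]
  have hg : (lperm w22P * g1)⁻¹ ∈ M24 := inv_mem (mul_mem (lperm_mem_M24 w22_ok) hg1)
  have hp0 : (lperm w22P * g1)⁻¹ (gPt 0) = p := by
    rw [Equiv.Perm.inv_eq_iff_eq, Equiv.Perm.mul_apply, h1p, e0]
  have hq0 : (lperm w22P * g1)⁻¹ (gPt 23) = q := by
    rw [Equiv.Perm.inv_eq_iff_eq, Equiv.Perm.mul_apply, h1q, e1]
  refine ⟨conjEquiv M22_le hg (fun k => ?_)⟩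
  rw [Subgroup.mem_inf, MulAction.mem_stabilizer_iff, MulAction.mem_stabilizer_iff, mem_M22_iff]
  have a1 : ∀ t : GolayPt, (((lperm w22P * g1)⁻¹)⁻¹ * (k : Equiv.Perm GolayPt) *
      (lperm w22P * g1)⁻¹) t = t ↔
      (k : Equiv.Perm GolayPt) ((lperm w22P * g1)⁻¹ t) = (lperm w22P * g1)⁻¹ t := by
    intro t
    rw [Equiv.Perm.mul_apply, Equiv.Perm.mul_apply, Equiv.Perm.inv_eq_iff_eq]
  rw [a1, a1, hp0, hq0]
  constructor
  · rintro ⟨h1, h2⟩
    exact ⟨mul_mem (mul_mem (inv_mem hg) k.2) hg, h2, h1⟩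
  · rintro ⟨-, h2, h1⟩
    exact ⟨h1, h2⟩

theorem gPt_ne_01 : gPt 0 ≠ gPt 1 := by
  intro h
  have h1 := congrArg gIdx h
  rw [gIdx_gPt (by norm_num), gIdx_gPt (by norm_num)] at h1
  exact absurd h1 (by norm_num)

theorem card_M22 : Nat.card ↥Spor.M22 = 443520 := by
  obtain ⟨φ⟩ := m22_iso gPt_ne_01
  rw [← Nat.card_congr φ.toEquiv]
  exact Cfsg.Agent.S0378.result _ _ gPt_ne_01

/-- A subgroup of order divisible by 11 is conjugate to one containing the generator of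
order 11. -/
theorem exists_conj_a22 (K : Subgroup ↥Spor.M22) (h11 : 11 ∣ Nat.card K) :
    ∃ K' : Subgroup ↥Spor.M22, Nat.card K' = Nat.card K ∧
      (⟨lperm b24P, a22_H⟩ : ↥Spor.M22) ∈ K' := by
  have := finite_M22
  haveI : Fact (Nat.Prime 11) := ⟨by norm_num⟩
  obtain ⟨x, hx⟩ := exists_prime_orderOf_dvd_card' 11 h11
  have hx' : orderOf (x : ↥Spor.M22) = 11 := by rw [Subgroup.orderOf_coe, hx]
  obtain ⟨g, hg⟩ := sylow_conj (fact_sub M22_le (by norm_num) fact_11 ord_a22)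
    (S := Subgroup.zpowers (x : ↥Spor.M22))
    (S0 := Subgroup.zpowers (⟨lperm b24P, a22_H⟩ : ↥Spor.M22))
    (by rw [Nat.card_zpowers, hx']) (by rw [Nat.card_zpowers, ord_a22])
  refine ⟨K.map (MulAut.conj g⁻¹).toMonoidHom,
    Subgroup.card_map_of_injective (MulAut.conj g⁻¹).injective, ?_⟩
  refine ⟨g * (⟨lperm b24P, a22_H⟩ : ↥Spor.M22) * g⁻¹, ?_, ?_⟩
  · have h1 : g * (⟨lperm b24P, a22_H⟩ : ↥Spor.M22) * g⁻¹ ∈
        Subgroup.zpowers (x : ↥Spor.M22) := (hg _).mpr (by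
      have e : g⁻¹ * (g * (⟨lperm b24P, a22_H⟩ : ↥Spor.M22) * g⁻¹) * g =
          (⟨lperm b24P, a22_H⟩ : ↥Spor.M22) := by group
      rw [e]
      exact Subgroup.mem_zpowers _)
    exact (Subgroup.zpowers_le.mpr x.2) h1
  · show (MulAut.conj g⁻¹) (g * (⟨lperm b24P, a22_H⟩ : ↥Spor.M22) * g⁻¹) = _
    rw [MulAut.conj_apply]
    group

theorem no7920_aux (K : Subgroup ↥Spor.M22) (hK : Nat.card K = 7920)
    (hA : (⟨lperm b24P, a22_H⟩ : ↥Spor.M22) ∈ K) : False := by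
  obtain ⟨m, h1, h2, h3, h4, h5⟩ := sylStepA K hA (by
    rw [hK]
    exact fact_one (by norm_num) (by norm_num) (by norm_num) (by norm_num))
  rw [hK] at h3 h4
  have hm : m = 55 := by
    obtain ⟨c, rfl⟩ := h2
    have hc : c ≤ 5 := by omega
    interval_cases c <;> simp_all
  have hB := h5 hm
  obtain ⟨m', h1', h2', h3', h4', h5'⟩ := sylStepB K hB (by
    rw [hK]
    exact fact_one (by norm_num) (by norm_num) (by norm_num) (by norm_num))
  rw [hK] at h3' h4'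
  have hm' : m' = 20 := by
    obtain ⟨c, rfl⟩ := h2'
    have hc : c ≤ 4 := by omega
    interval_cases c <;> simp_all
  have hC := h5' hm'
  have htop : K = ⊤ := (Subgroup.eq_top_iff' K).mpr (gen22K K hA hB hC)
  rw [htop, Subgroup.card_top, card_M22] at hK
  norm_num at hK

theorem no2112_aux (K : Subgroup ↥Spor.M22) (hK : Nat.card K = 2112)
    (hA : (⟨lperm b24P, a22_H⟩ : ↥Spor.M22) ∈ K) : False := by
  obtain ⟨m, h1, h2, h3, h4, -⟩ := sylStepA K hA (by
    rw [hK]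
    exact fact_one (by norm_num) (by norm_num) (by norm_num) (by norm_num))
  rw [hK] at h3 h4
  obtain ⟨c, rfl⟩ := h2
  have hc : c ≤ 5 := by omega
  interval_cases c <;> simp_all

/-- `M22` has no subgroups of order 7920 or 2112. -/
theorem no_sub_M22 (K : Subgroup ↥Spor.M22) : Nat.card K ≠ 7920 ∧ Nat.card K ≠ 2112 := by
  constructor
  · intro hK
    obtain ⟨K', hK', hA⟩ := exists_conj_a22 K (by rw [hK]; norm_num)
    exact no7920_aux K' (hK'.trans hK) hA
  · intro hK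
    obtain ⟨K', hK', hA⟩ := exists_conj_a22 K (by rw [hK]; norm_num)
    exact no2112_aux K' (hK'.trans hK) hA

end Cfsg.Agent.H34
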