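import Cfsg.Agent.H34.D11Tools
import Cfsg.Agent.H34.M22Sub

/-!
# Packed permutations: products, canonical form, conjugation certificates (helper34 library)

Tools for kernel-checked computations with all the elements of `M22` (the stabiliser of the
points of index `0` and `23` in `M24`): the product `prodP` of packed permutations, pairs of
inverse elements `pairOK`, the conjugate `cnj`, a table search `findE` and an xor-fold `xorR`.
-/

set_option autoImplicit false

namespace Cfsg.Agent.H34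

open Cfsg Cfsg.Agent.H9

noncomputable section

/-- The 24 indices. -/
def L24 : List ℕ :=
  [0, 1, 2, 3, 4, 5, 6, 7, 8, 9, 10, 11, 12, 13, 14, 15, 16, 17, 18, 19, 20, 21, 22, 23]

theorem L24_nodup : L24.Nodup := by decide

theorem mem_L24 {i : ℕ} : i ∈ L24 ↔ i < 24 := by
  constructor
  · revert i
    decide
  · intro h
    interval_cases i <;> decide

/-- `if c then t else e`, by the recursor. -/
def condR {β : Type} (c : Bool) (t e : β) : β := @Bool.rec (fun _ => β) e t c

theorem condR_true {β : Type} (t e : β) : condR true t e = t := rfl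

theorem condR_false {β : Type} (t e : β) : condR false t e = e := rfl

/-- The product of two packed permutations: `(a * b) i = a (b i)`, written out for the kernel. -/
def prodP (a b : ℕ) : ℕ :=
  (Nat.lor (Nat.lor (Nat.lor (Nat.lor (Nat.lor (Nat.lor (Nat.lor (Nat.lor (Nat.lor (Nat.lor (Nat.lor (Nat.lor (Nat.lor (Nat.lor (Nat.lor (Nat.lor (Nat.lor (Nat.lor (Nat.lor (Nat.lor (Nat.lor (Nat.lor (Nat.lor (Nat.lor (nat_lit 0)
    (Nat.shiftLeft (Nat.land (Nat.shiftRight a (Nat.mul (nat_lit 5) (Nat.land (Nat.shiftRight b (nat_lit 115)) (nat_lit 31)))) (nat_lit 31)) (nat_lit 115)))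
    (Nat.shiftLeft (Nat.land (Nat.shiftRight a (Nat.mul (nat_lit 5) (Nat.land (Nat.shiftRight b (nat_lit 110)) (nat_lit 31)))) (nat_lit 31)) (nat_lit 110)))
    (Nat.shiftLeft (Nat.land (Nat.shiftRight a (Nat.mul (nat_lit 5) (Nat.land (Nat.shiftRight b (nat_lit 105)) (nat_lit 31)))) (nat_lit 31)) (nat_lit 105)))
    (Nat.shiftLeft (Nat.land (Nat.shiftRight a (Nat.mul (nat_lit 5) (Nat.land (Nat.shiftRight b (nat_lit 100)) (nat_lit 31)))) (nat_lit 31)) (nat_lit 100)))
    (Nat.shiftLeft (Nat.land (Nat.shiftRight a (Nat.mul (nat_lit 5) (Nat.land (Nat.shiftRight b (nat_lit 95)) (nat_lit 31)))) (nat_lit 31)) (nat_lit 95)))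
    (Nat.shiftLeft (Nat.land (Nat.shiftRight a (Nat.mul (nat_lit 5) (Nat.land (Nat.shiftRight b (nat_lit 90)) (nat_lit 31)))) (nat_lit 31)) (nat_lit 90)))
    (Nat.shiftLeft (Nat.land (Nat.shiftRight a (Nat.mul (nat_lit 5) (Nat.land (Nat.shiftRight b (nat_lit 85)) (nat_lit 31)))) (nat_lit 31)) (nat_lit 85)))
    (Nat.shiftLeft (Nat.land (Nat.shiftRight a (Nat.mul (nat_lit 5) (Nat.land (Nat.shiftRight b (nat_lit 80)) (nat_lit 31)))) (nat_lit 31)) (nat_lit 80)))
    (Nat.shiftLeft (Nat.land (Nat.shiftRight a (Nat.mul (nat_lit 5) (Nat.land (Nat.shiftRight b (nat_lit 75)) (nat_lit 31)))) (nat_lit 31)) (nat_lit 75)))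
    (Nat.shiftLeft (Nat.land (Nat.shiftRight a (Nat.mul (nat_lit 5) (Nat.land (Nat.shiftRight b (nat_lit 70)) (nat_lit 31)))) (nat_lit 31)) (nat_lit 70)))
    (Nat.shiftLeft (Nat.land (Nat.shiftRight a (Nat.mul (nat_lit 5) (Nat.land (Nat.shiftRight b (nat_lit 65)) (nat_lit 31)))) (nat_lit 31)) (nat_lit 65)))
    (Nat.shiftLeft (Nat.land (Nat.shiftRight a (Nat.mul (nat_lit 5) (Nat.land (Nat.shiftRight b (nat_lit 60)) (nat_lit 31)))) (nat_lit 31)) (nat_lit 60)))
    (Nat.shiftLeft (Nat.land (Nat.shiftRight a (Nat.mul (nat_lit 5) (Nat.land (Nat.shiftRight b (nat_lit 55)) (nat_lit 31)))) (nat_lit 31)) (nat_lit 55)))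
    (Nat.shiftLeft (Nat.land (Nat.shiftRight a (Nat.mul (nat_lit 5) (Nat.land (Nat.shiftRight b (nat_lit 50)) (nat_lit 31)))) (nat_lit 31)) (nat_lit 50)))
    (Nat.shiftLeft (Nat.land (Nat.shiftRight a (Nat.mul (nat_lit 5) (Nat.land (Nat.shiftRight b (nat_lit 45)) (nat_lit 31)))) (nat_lit 31)) (nat_lit 45)))
    (Nat.shiftLeft (Nat.land (Nat.shiftRight a (Nat.mul (nat_lit 5) (Nat.land (Nat.shiftRight b (nat_lit 40)) (nat_lit 31)))) (nat_lit 31)) (nat_lit 40)))
    (Nat.shiftLeft (Nat.land (Nat.shiftRight a (Nat.mul (nat_lit 5) (Nat.land (Nat.shiftRight b (nat_lit 35)) (nat_lit 31)))) (nat_lit 31)) (nat_lit 35)))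
    (Nat.shiftLeft (Nat.land (Nat.shiftRight a (Nat.mul (nat_lit 5) (Nat.land (Nat.shiftRight b (nat_lit 30)) (nat_lit 31)))) (nat_lit 31)) (nat_lit 30)))
    (Nat.shiftLeft (Nat.land (Nat.shiftRight a (Nat.mul (nat_lit 5) (Nat.land (Nat.shiftRight b (nat_lit 25)) (nat_lit 31)))) (nat_lit 31)) (nat_lit 25)))
    (Nat.shiftLeft (Nat.land (Nat.shiftRight a (Nat.mul (nat_lit 5) (Nat.land (Nat.shiftRight b (nat_lit 20)) (nat_lit 31)))) (nat_lit 31)) (nat_lit 20)))
    (Nat.shiftLeft (Nat.land (Nat.shiftRight a (Nat.mul (nat_lit 5) (Nat.land (Nat.shiftRight b (nat_lit 15)) (nat_lit 31)))) (nat_lit 31)) (nat_lit 15)))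
    (Nat.shiftLeft (Nat.land (Nat.shiftRight a (Nat.mul (nat_lit 5) (Nat.land (Nat.shiftRight b (nat_lit 10)) (nat_lit 31)))) (nat_lit 31)) (nat_lit 10)))
    (Nat.shiftLeft (Nat.land (Nat.shiftRight a (Nat.mul (nat_lit 5) (Nat.land (Nat.shiftRight b (nat_lit 5)) (nat_lit 31)))) (nat_lit 31)) (nat_lit 5)))
    (Nat.shiftLeft (Nat.land (Nat.shiftRight a (Nat.mul (nat_lit 5) (Nat.land (Nat.shiftRight b (nat_lit 0)) (nat_lit 31)))) (nat_lit 31)) (nat_lit 0)))

theorem prodP_eq (a b : ℕ) : prodP a b = packT (fun i => sv a (sv b i)) L24 := rfl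

theorem sv_packT {f : ℕ → ℕ} (hf : ∀ i ∈ L24, f i < 32) {i : ℕ} (hi : i < 24) :
    sv (packT f L24) i = f i :=
  (packT_spec L24 L24_nodup hf).1 i (mem_L24.mpr hi)

theorem sv_prodP (a b : ℕ) {i : ℕ} (hi : i < 24) : sv (prodP a b) i = sv a (sv b i) := by
  rw [prodP_eq]
  exact sv_packT (fun _ _ => Nat.lt_succ_of_le (sv_le _ _)) hi

theorem svalid_of_surj {s : ℕ} (h1 : ∀ i, i < 24 → sv s i < 24)
    (h2 : ∀ j, j < 24 → ∃ i, i < 24 ∧ sv s i = j) : svalid s = true := by
  unfold svalid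
  have h : pmN s 0xffffff = 0xffffff := by
    apply Nat.eq_of_testBit_eq
    intro j
    rw [Bool.eq_iff_iff, testBit_pmN, full_testBit]
    constructor
    · rintro ⟨i, hi, -, rfl⟩
      exact h1 i hi
    · intro hj
      obtain ⟨i, hi, e⟩ := h2 j hj
      exact ⟨i, hi, full_testBit.mpr hi, e⟩
  rw [h]
  exact Nat.beq_refl _

theorem prodP_valid {a b : ℕ} (ha : svalid a = true) (hb : svalid b = true) :
    svalid (prodP a b) = true := by
  apply svalid_of_surj
  · intro i hi
    rw [sv_prodP a b hi]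
    exact sv_lt ha (sv_lt hb hi)
  · intro j hj
    obtain ⟨k, hk, e1⟩ := sv_surj ha hj
    obtain ⟨i, hi, e2⟩ := sv_surj hb hk
    exact ⟨i, hi, by rw [sv_prodP a b hi, e2, e1]⟩

theorem lperm_prodP {a b : ℕ} (ha : svalid a = true) (hb : svalid b = true) :
    lperm (prodP a b) = lperm a * lperm b := by
  apply Equiv.ext
  intro p
  apply gIdx_injective
  rw [gIdx_lperm (prodP_valid ha hb), sv_prodP a b (gIdx_lt p), gIdx_lperm_mul ha hb]

/-- The packed number is the canonical one of its permutation. -/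
def canon (s : ℕ) : Prop := packT (sv s) L24 = s

theorem packT_congr {f g : ℕ → ℕ} : ∀ (L : List ℕ), (∀ i ∈ L, f i = g i) →
    packT f L = packT g L := by
  intro L
  induction L with
  | nil => intro _; rfl
  | cons a L ih =>
    intro h
    show Nat.lor (packT f L) (Nat.shiftLeft (f a) (Nat.mul 5 a)) =
      Nat.lor (packT g L) (Nat.shiftLeft (g a) (Nat.mul 5 a))
    rw [ih (fun i hi => h i (List.mem_cons_of_mem _ hi)), h a List.mem_cons_self]

theorem canon_packT {f : ℕ → ℕ} (hf : ∀ i ∈ L24, f i < 32) : canon (packT f L24) :=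
  packT_congr L24 (fun i hi => (packT_spec L24 L24_nodup hf).1 i hi)

theorem canon_prodP (a b : ℕ) : canon (prodP a b) := by
  rw [prodP_eq]
  exact canon_packT (fun _ _ => Nat.lt_succ_of_le (sv_le _ _))

theorem canon_inj {s t : ℕ} (hs : svalid s = true) (ht : svalid t = true) (cs : canon s)
    (ct : canon t) (h : lperm s = lperm t) : s = t := by
  rw [← cs, ← ct]
  apply packT_congr
  intro i hi
  have hi' := mem_L24.mp hi
  have h1 : gIdx (lperm s (gPt i)) = gIdx (lperm t (gPt i)) := by rw [h]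
  rwa [gIdx_lperm hs, gIdx_lperm ht, gIdx_gPt hi'] at h1

/-- Test of canonicity. -/
def canonB (s : ℕ) : Bool := Nat.beq (packT (sv s) L24) s

theorem canonB_spec {s : ℕ} (h : canonB s = true) : canon s := Nat.eq_of_beq_eq_true h

/-- The packed permutation is in `M22`. -/
def okG (s : ℕ) : Bool := okM24 s && (Nat.beq (sv s 0) 0 && Nat.beq (sv s 23) 23)

theorem okG_spec {s : ℕ} (h : okG s = true) : svalid s = true ∧ lperm s ∈ Spor.M22 := by
  unfold okG at h
  rw [Bool.and_eq_true] at h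
  exact ⟨okM24_svalid h.1, lperm_mem_M22 h.1 h.2⟩

/-- An element of `M22` with its inverse. -/
def pairOK (ra : ℕ × ℕ) : Bool := okG ra.1 && (svalid ra.2 && Nat.beq (prodP ra.1 ra.2) idP)

theorem pairOK_spec {ra : ℕ × ℕ} (h : pairOK ra = true) :
    svalid ra.1 = true ∧ svalid ra.2 = true ∧ lperm ra.1 ∈ Spor.M22 ∧
      lperm ra.2 = (lperm ra.1)⁻¹ := by
  unfold pairOK at h
  simp only [Bool.and_eq_true] at h
  obtain ⟨h1, h2, h3⟩ := h
  obtain ⟨h4, h5⟩ := okG_spec h1
  refine ⟨h4, h2, h5, ?_⟩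
  have h6 := lperm_prodP h4 h2
  rw [Nat.eq_of_beq_eq_true h3, lperm_idP] at h6
  exact eq_inv_of_mul_eq_one_right h6.symm

/-- The conjugate of `x` by the first element of the pair. -/
def cnj (ra : ℕ × ℕ) (x : ℕ) : ℕ := prodP (prodP ra.1 x) ra.2

theorem cnj_spec {ra : ℕ × ℕ} {x : ℕ} (h : pairOK ra = true) (hx : svalid x = true) :
    svalid (cnj ra x) = true ∧ lperm (cnj ra x) = lperm ra.1 * lperm x * (lperm ra.1)⁻¹ := by
  obtain ⟨h1, h2, -, h4⟩ := pairOK_spec h
  have h5 := prodP_valid h1 hx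
  refine ⟨prodP_valid h5 h2, ?_⟩
  unfold cnj
  rw [lperm_prodP h5 h2, lperm_prodP h1 hx, h4]

theorem nthL_mem {α : Type} (d : α) : ∀ (L : List α) (n : ℕ), nthL d L n = d ∨ nthL d L n ∈ L := by
  intro L
  induction L with
  | nil => intro n; exact Or.inl rfl
  | cons a L ih =>
    intro n
    cases n with
    | zero => exact Or.inr List.mem_cons_self
    | succ n =>
      rcases ih n with h | h
      · exact Or.inl h
      · exact Or.inr (List.mem_cons_of_mem _ h)

theorem nthL_mem_of_lt {α : Type} (d : α) : ∀ (L : List α) (n : ℕ), n < L.length →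
    nthL d L n ∈ L := by
  intro L
  induction L with
  | nil => intro n hn; simp at hn
  | cons a L ih =>
    intro n hn
    cases n with
    | zero => exact List.mem_cons_self
    | succ n =>
      exact List.mem_cons_of_mem _ (ih n (by simpa using hn))

/-- `y` is a valid packed permutation conjugate in `M22` to `x`. -/
def CjTo (x y : ℕ) : Prop :=
  svalid y = true ∧ ∃ u ∈ Spor.M22, u * lperm x * u⁻¹ = lperm y

theorem CjTo_cnj {ra : ℕ × ℕ} {x : ℕ} (h : pairOK ra = true) (hx : svalid x = true) :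
    CjTo x (cnj ra x) := by
  obtain ⟨h1, h2⟩ := cnj_spec h hx
  exact ⟨h1, _, (pairOK_spec h).2.2.1, h2.symm⟩

theorem CjTo_trans {x y z : ℕ} (h1 : CjTo x y) (h2 : CjTo y z) : CjTo x z := by
  obtain ⟨-, u, hu, e1⟩ := h1
  obtain ⟨hz, v, hv, e2⟩ := h2
  refine ⟨hz, v * u, Subgroup.mul_mem _ hv hu, ?_⟩
  rw [← e2, ← e1]
  group

/-- The entry of a table: `u` is in `M22` and conjugates `e` to `r`. -/
def entOK (e r u ui : ℕ) : Bool := pairOK (u, ui) && Nat.beq (cnj (u, ui) e) r

theorem entOK_spec {e r u ui : ℕ} (h : entOK e r u ui = true) (he : svalid e = true) :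
    CjTo e r := by
  unfold entOK at h
  rw [Bool.and_eq_true] at h
  have h1 := CjTo_cnj h.1 he
  rwa [Nat.eq_of_beq_eq_true h.2] at h1

/-- The entry `k` of a packed table of packed permutations. -/
def tl (T k : ℕ) : ℕ :=
  Nat.land (Nat.shiftRight T (Nat.mul 120 k)) 1329227995784915872903807060280344575

/-- The entry `k` of a packed table of numbers below `16`. -/
def tl4 (T k : ℕ) : ℕ := Nat.land (Nat.shiftRight T (Nat.mul 4 k)) 15

theorem tl4_le (T k : ℕ) : tl4 T k ≤ 15 := Nat.and_le_right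

/-- The first element of the list failing `f`, or `0`. -/
def firstP (f : ℕ → Bool) (L : List ℕ) : ℕ :=
  @List.rec ℕ (fun _ => ℕ) 0 (fun i _ ih => condR (f i) ih i) L

theorem firstP_mem (f : ℕ → Bool) : ∀ (L : List ℕ), firstP f L = 0 ∨ firstP f L ∈ L := by
  intro L
  induction L with
  | nil => exact Or.inl rfl
  | cons a L ih =>
    have h1 : firstP f (a :: L) = condR (f a) (firstP f L) a := rfl
    rw [h1]
    cases hb : f a with
    | true =>
      rw [condR_true]
      rcases ih with h | h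
      · exact Or.inl h
      · exact Or.inr (List.mem_cons_of_mem _ h)
    | false =>
      rw [condR_false]
      exact Or.inr List.mem_cons_self

/-- `y` does not conjugate `ga` to `gb`; a test at the point `pt` first. -/
def sep1 (pt y ga gb : ℕ) : Bool :=
  condR (Nat.beq (sv y (sv ga pt)) (sv gb (sv y pt))) (!(Nat.beq (prodP y ga) (prodP gb y))) true

theorem sep1_spec {pt y ga gb : ℕ} (hpt : pt < 24) (h : sep1 pt y ga gb = true) :
    prodP y ga ≠ prodP gb y := by
  intro e
  have h1 : sv y (sv ga pt) = sv gb (sv y pt) := by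
    rw [← sv_prodP y ga hpt, ← sv_prodP gb y hpt, e]
  unfold sep1 at h
  rw [h1, Nat.beq_refl, condR_true, e, Nat.beq_refl] at h
  exact absurd h (by decide)

/-- A test on the images of the points `1` and `2`, against the mask `M`. -/
def preM (M sq : ℕ) : Bool :=
  Nat.beq (Nat.land (Nat.shiftRight M (Nat.add (Nat.mul 32 (sv sq 1)) (sv sq 2))) 1) 1

/-- The power of a packed permutation. -/
def powP (x n : ℕ) : ℕ := @Nat.rec (fun _ => ℕ) idP (fun _ ih => prodP ih x) n

theorem canon_idP : canon idP := canonB_spec (by decide +kernel)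

theorem powP_spec {x : ℕ} (hx : svalid x = true) : ∀ n : ℕ,
    svalid (powP x n) = true ∧ lperm (powP x n) = lperm x ^ n ∧ canon (powP x n) := by
  intro n
  induction n with
  | zero => exact ⟨idP_valid, by rw [pow_zero]; exact lperm_idP, canon_idP⟩
  | succ n ih =>
    have h1 : powP x (n + 1) = prodP (powP x n) x := rfl
    rw [h1]
    exact ⟨prodP_valid ih.1 hx, by rw [lperm_prodP ih.1 hx, ih.2.1, pow_succ], canon_prodP _ _⟩

/-- Xor-fold with an accumulator. -/
def xorR (f : ℕ → ℕ) (L : List ℕ) : ℕ → ℕ :=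
  @List.rec ℕ (fun _ => ℕ → ℕ) (fun acc => acc)
    (fun a _ ih acc => nlt (Nat.xor acc (f a)) ih) L

/-- A bit as an element of `ZMod 2`. -/
def bz (b : Bool) : ZMod 2 := if b then 1 else 0

theorem bz_xor (a b : Bool) : bz (a ^^ b) = bz a + bz b := by
  cases a <;> cases b <;> decide

theorem xorR_bit (f : ℕ → ℕ) (k : ℕ) : ∀ (L : List ℕ) (acc : ℕ),
    bz ((xorR f L acc).testBit k) =
      bz (acc.testBit k) + (L.map (fun a => bz ((f a).testBit k))).sum := by
  intro L
  induction L with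
  | nil =>
    intro acc
    show bz (acc.testBit k) = _
    simp
  | cons a L ih =>
    intro acc
    have h1 : xorR f (a :: L) acc = xorR f L (acc ^^^ f a) := by
      show nlt (Nat.xor acc (f a)) (xorR f L) = _
      rw [nlt_eq]
      rfl
    rw [h1, ih, Nat.testBit_xor, bz_xor, List.map_cons, List.sum_cons, add_assoc]

/-- Sum over the indices of a list. -/
theorem sum_range_nthL {M : Type*} [AddCommMonoid M] {α : Type} (d : α) (F : α → M) :
    ∀ (L : List α), ∑ i ∈ Finset.range L.length, F (nthL d L i) = (L.map F).sum := by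
  intro L
  induction L with
  | nil => simp
  | cons a L ih =>
    rw [List.length_cons, Finset.sum_range_succ', List.map_cons, List.sum_cons, add_comm]
    congr 1

end

end Cfsg.Agent.H34
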