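import Mathlib
import Cfsg.Agent.H2.BrDefs

/-!
helper34: piece S4501-CENTRALINV of helper2's team project S4501
(`Cfsg.Agent.H2.Br.StmtCentralInv`): a `2`-central involution.
-/

set_option autoImplicit false

namespace Cfsg.Agent.H34.Br

open Cfsg.Agent.H2.Br

universe u

theorem centralInv : StmtCentralInv.{u} := by
  intro G _ _ h2
  haveI : Fact (Nat.Prime 2) := ⟨Nat.prime_two⟩
  obtain ⟨T⟩ : Nonempty (Sylow 2 G) := inferInstance
  have hT : IsPGroup 2 (T : Subgroup G) := T.isPGroup'
  have hcard : Nat.card (T : Subgroup G) = 2 ^ (Nat.card G).factorization 2 :=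
    T.card_eq_multiplicity
  have hpos : 0 < (Nat.card G).factorization 2 :=
    Nat.Prime.factorization_pos_of_dvd Nat.prime_two Nat.card_pos.ne' h2
  haveI : Nontrivial (T : Subgroup G) := by
    rw [← Finite.one_lt_card_iff_nontrivial, hcard]
    exact Nat.one_lt_two_pow hpos.ne'
  haveI : Nontrivial (Subgroup.center (T : Subgroup G)) := hT.center_nontrivial
  have hZ : IsPGroup 2 (Subgroup.center (T : Subgroup G)) := hT.to_subgroup _
  have h2Z : 2 ∣ Nat.card (Subgroup.center (T : Subgroup G)) := by
    rcases hZ.card_eq_or_dvd with h | h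
    · exact absurd h (Finite.one_lt_card_iff_nontrivial.2 inferInstance).ne'
    · exact h
  obtain ⟨x, hx⟩ := exists_prime_orderOf_dvd_card' 2 h2Z
  refine ⟨((x : (T : Subgroup G)) : G), ?_, ?_⟩
  · rw [Subgroup.orderOf_coe, Subgroup.orderOf_coe]
    exact hx
  · intro k hk
    have hle : (T : Subgroup G) ≤ Subgroup.centralizer ({((x : (T : Subgroup G)) : G)} : Set G) := by
      intro t ht
      rw [Subgroup.mem_centralizer_iff]
      intro y hy
      rw [Set.mem_singleton_iff] at hy
      subst hy
      have := Subgroup.mem_center_iff.1 x.2 ⟨t, ht⟩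
      have h' := congrArg (Subtype.val) this
      simpa using h'.symm
    have h1 : Nat.card (T : Subgroup G) ∣
        Nat.card (Subgroup.centralizer ({((x : (T : Subgroup G)) : G)} : Set G)) :=
      Subgroup.card_dvd_of_le hle
    refine Dvd.dvd.trans ?_ h1
    rw [hcard]
    refine Nat.pow_dvd_pow 2 ?_
    exact (Nat.Prime.pow_dvd_iff_le_factorization Nat.prime_two Nat.card_pos.ne').1 hk

example : Cfsg.Agent.H2.Br.StmtCentralInv.{u} := centralInv

end Cfsg.Agent.H34.Br
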