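import Mathlib
import Cfsg.Agent.H64.Hall4Defs

/-!
helper34: piece H4-B3 of helper64's team project S4221 (`Cfsg.Agent.H64.Hall4.BasicCStmt`).
-/

set_option autoImplicit false

namespace Cfsg.Agent.H34.Hall4

open Equiv Cfsg.Agent.H64.Hall4

universe u

theorem mem_fix4 {α : Type u} {h : Perm α} {a b c d : α} :
    h ∈ fixingSubgroup (Perm α) ({a, b, c, d} : Set α) ↔ h a = a ∧ h b = b ∧ h c = c ∧ h d = d := by
  rw [mem_fixingSubgroup_iff]
  constructor
  · intro H
    exact ⟨H a (by simp), H b (by simp), H c (by simp), H d (by simp)⟩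
  · rintro ⟨ha, hb, hc, hd⟩ y hy
    simp only [Set.mem_insert_iff, Set.mem_singleton_iff] at hy
    rcases hy with rfl | rfl | rfl | rfl
    · exact ha
    · exact hb
    · exact hc
    · exact hd

theorem conj_mem_fix4 {α : Type u} {G : Subgroup (Perm α)} {g : Perm α} (hg : g ∈ G)
    {a b c d a' b' c' d' : α} (ha : g a = a') (hb : g b = b') (hc : g c = c') (hd : g d = d')
    {h : Perm α} (hh : h ∈ G ⊓ fixingSubgroup (Perm α) ({a, b, c, d} : Set α)) :
    g * h * g⁻¹ ∈ G ⊓ fixingSubgroup (Perm α) ({a', b', c', d'} : Set α) := by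
  obtain ⟨h1, h2⟩ := Subgroup.mem_inf.1 hh
  rw [mem_fix4] at h2
  obtain ⟨e1, e2, e3, e4⟩ := h2
  refine Subgroup.mem_inf.2 ⟨G.mul_mem (G.mul_mem hg h1) (G.inv_mem hg), ?_⟩
  rw [mem_fix4]
  have key : ∀ x x' : α, g x = x' → h x = x → (g * h * g⁻¹) x' = x' := by
    intro x x' hx hhx
    have hinv : g⁻¹ x' = x := Perm.inv_eq_iff_eq.2 hx.symm
    rw [Perm.mul_apply, Perm.mul_apply, hinv, hhx, hx]
  exact ⟨key a a' ha e1, key b b' hb e2, key c c' hc e3, key d d' hd e4⟩

theorem basicC : BasicCStmt.{u} := by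
  intro α _ _ G hT hO
  refine ⟨?_, ?_⟩
  · intro a b c d a' b' c' d' hnd hnd'
    obtain ⟨g, hg, ha, hb, hc, hd⟩ := hT a b c d a' b' c' d' hnd hnd'
    have ha' : g⁻¹ a' = a := Perm.inv_eq_iff_eq.2 ha.symm
    have hb' : g⁻¹ b' = b := Perm.inv_eq_iff_eq.2 hb.symm
    have hc' : g⁻¹ c' = c := Perm.inv_eq_iff_eq.2 hc.symm
    have hd' : g⁻¹ d' = d := Perm.inv_eq_iff_eq.2 hd.symm
    refine Nat.card_congr
      { toFun := fun h => ⟨g * h.1 * g⁻¹, conj_mem_fix4 hg ha hb hc hd h.2⟩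
        invFun := fun k => ⟨g⁻¹ * k.1 * g, by
          have := conj_mem_fix4 (G.inv_mem hg) ha' hb' hc' hd' k.2
          rwa [inv_inv] at this⟩
        left_inv := fun h => by
          apply Subtype.ext
          simp only
          group
        right_inv := fun k => by
          apply Subtype.ext
          simp only
          group }
  · intro a b c d hnd
    rw [← Nat.not_even_iff_odd, even_iff_two_dvd]
    intro h2
    haveI : Fact (Nat.Prime 2) := ⟨Nat.prime_two⟩
    obtain ⟨x, hx⟩ := exists_prime_orderOf_dvd_card' 2 h2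
    have hx' : orderOf (x : Perm α) = 2 := by
      rw [Subgroup.orderOf_coe]
      exact hx
    obtain ⟨h1, h2'⟩ := Subgroup.mem_inf.1 x.2
    rw [mem_fix4] at h2'
    have hodd := hO (x : Perm α) h1 a b c d hnd h2'.1 h2'.2.1 h2'.2.2.1 h2'.2.2.2
    rw [hx'] at hodd
    exact absurd hodd (by decide)

example : Cfsg.Agent.H64.Hall4.BasicCStmt.{u} := basicC

end Cfsg.Agent.H34.Hall4
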