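import Mathlib
import Cfsg.Agent.H64.Hall4Defs

/-!
helper34: piece H4-FOUR of helper64's team project S4221 (`Cfsg.Agent.H64.Hall4.FourStmt`).
-/

set_option autoImplicit false

namespace Cfsg.Agent.H34.Hall4

open Equiv Cfsg.Agent.H64.Hall4

universe u

theorem nodup4_iff {α : Type u} {a b c d : α} :
    [a, b, c, d].Nodup ↔ a ≠ b ∧ a ≠ c ∧ a ≠ d ∧ b ≠ c ∧ b ≠ d ∧ c ≠ d := by
  simp only [List.nodup_cons, List.mem_cons, List.not_mem_nil, or_false, not_or,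
    List.nodup_nil, and_true, not_false_eq_true, ne_eq]
  tauto

theorem four : FourStmt.{u} := by
  intro α _ _ G hB a b c d hnd
  obtain ⟨n1, n2, n3, n4, n5, n6⟩ := nodup4_iff.1 hnd
  have hnd1 : [a, b, d, c].Nodup := nodup4_iff.2 ⟨n1, n3, n2, n5, n4, n6.symm⟩
  have hnd2 : [b, a, c, d].Nodup := nodup4_iff.2 ⟨n1.symm, n4, n5, n2, n3, n6⟩
  obtain ⟨g1, hg1, e1a, e1b, e1c, e1d⟩ := hB.t4 a b c d a b d c hnd hnd1
  obtain ⟨y, hy, hy2, hyx⟩ := hB.twoPart g1 hg1 a b c d hnd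
    (by rw [e1a, e1a]) (by rw [e1b, e1b]) (by rw [e1c, e1d]) (by rw [e1d, e1c])
  have hyG : y ∈ G := (Subgroup.zpowers_le.2 hg1) hy
  have ya : y a = a := by rw [hyx a (by rw [e1a, e1a]), e1a]
  have yb : y b = b := by rw [hyx b (by rw [e1b, e1b]), e1b]
  have yc : y c = d := by rw [hyx c (by rw [e1c, e1d]), e1c]
  have yd : y d = c := by rw [hyx d (by rw [e1d, e1c]), e1d]
  obtain ⟨g2, hg2, e2a, e2b, e2c, e2d⟩ := hB.t4 a b c d b a c d hnd hnd2
  obtain ⟨h, hhG, hcomm, ha, hb, hc, hd, _⟩ := hB.centLift y hyG g2 hg2 hy2 a b c d hnd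
    (by rw [e2a, ya, yb, e2a]) (by rw [e2b, yb, ya, e2b]) (by rw [e2c, yc, e2d])
    (by rw [e2d, yd, e2c])
  rw [e2a] at ha
  rw [e2b] at hb
  rw [e2c] at hc
  rw [e2d] at hd
  obtain ⟨z, hz, hz2, hzx⟩ := hB.twoPart h hhG a b c d hnd
    (by rw [ha, hb]) (by rw [hb, ha]) (by rw [hc, hc]) (by rw [hd, hd])
  have hzG : z ∈ G := (Subgroup.zpowers_le.2 hhG) hz
  have za : z a = b := by rw [hzx a (by rw [ha, hb]), ha]
  have zb : z b = a := by rw [hzx b (by rw [hb, ha]), hb]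
  have zc : z c = c := by rw [hzx c (by rw [hc, hc]), hc]
  have zd : z d = d := by rw [hzx d (by rw [hd, hd]), hd]
  have hzc : z ∈ Subgroup.centralizer ({y} : Set (Perm α)) := by
    refine (Subgroup.zpowers_le.2 ?_) hz
    rw [Subgroup.mem_centralizer_iff]
    intro k hk
    rw [Set.mem_singleton_iff] at hk
    subst hk
    exact hcomm.symm
  have hyz : y * z = z * y := by
    rw [Subgroup.mem_centralizer_iff] at hzc
    exact hzc y rfl
  exact ⟨y, z, ⟨hyG, hzG, hy2, hz2, hyz, hnd, ya, yb, yc, yd, za, zb, zc, zd⟩⟩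

example : Cfsg.Agent.H64.Hall4.FourStmt.{u} := four

end Cfsg.Agent.H34.Hall4
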