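import Mathlib
import Cfsg.Agent.H64.Hall4Defs
import Cfsg.Agent.H34.Hall4Four

/-!
helper34: piece H4-BR1 of helper64's team project S4221 (`Cfsg.Agent.H64.Hall4.BridgeStmt`).
-/

set_option autoImplicit false

namespace Cfsg.Agent.H34.Hall4

open Equiv Cfsg.Agent.H64.Hall4

universe u

/-- The embedding `Fin 4 ↪ α` with values four distinct points. -/
theorem exists_emb4 {α : Type u} {a b c d : α} (hnd : [a, b, c, d].Nodup) :
    ∃ e : Fin 4 ↪ α, e 0 = a ∧ e 1 = b ∧ e 2 = c ∧ e 3 = d := by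
  obtain ⟨n1, n2, n3, n4, n5, n6⟩ := nodup4_iff.1 hnd
  refine ⟨⟨![a, b, c, d], ?_⟩, rfl, rfl, rfl, rfl⟩
  intro i j hij
  fin_cases i <;> fin_cases j <;> first | rfl | (exfalso; revert hij; simp; tauto)

theorem smul_emb_apply {α : Type u} {G : Subgroup (Perm α)} (g : G) (e : Fin 4 ↪ α) (i : Fin 4) :
    (g • e) i = (g : Perm α) (e i) := rfl

theorem bridge : BridgeStmt.{u} := by
  intro α _ _ G hT x hodd
  have hpt : ∀ x y : Fin 4 ↪ α, ∃ g : G, g • x = y := fun x y => MulAction.exists_smul_eq G x y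
  refine ⟨?_, ?_⟩
  · intro a b c d a' b' c' d' hnd hnd'
    obtain ⟨e, e0, e1, e2, e3⟩ := exists_emb4 hnd
    obtain ⟨e', e0', e1', e2', e3'⟩ := exists_emb4 hnd'
    obtain ⟨g, hg⟩ := hpt e e'
    have key : ∀ i, (g : Perm α) (e i) = e' i := fun i => by
      rw [← smul_emb_apply, hg]
    refine ⟨g, g.2, ?_, ?_, ?_, ?_⟩
    · rw [← e0, key, e0']
    · rw [← e1, key, e1']
    · rw [← e2, key, e2']
    · rw [← e3, key, e3']
  · intro g hg a b c d hnd ha hb hc hd
    obtain ⟨e, e0, e1, e2, e3⟩ := exists_emb4 hnd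
    obtain ⟨k, hk⟩ := hpt e x
    have hgi : ∀ i, g (e i) = e i := by
      intro i
      have hi : i = 0 ∨ i = 1 ∨ i = 2 ∨ i = 3 := by
        fin_cases i <;> simp
      rcases hi with rfl | rfl | rfl | rfl
      · rw [e0]; exact ha
      · rw [e1]; exact hb
      · rw [e2]; exact hc
      · rw [e3]; exact hd
    have hmem : k * ⟨g, hg⟩ * k⁻¹ ∈ MulAction.stabilizer G x := by
      rw [MulAction.mem_stabilizer_iff]
      ext i
      show ((k : Perm α) * g * (k : Perm α)⁻¹) (x i) = x i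
      have hx : x i = (k : Perm α) (e i) := by
        rw [← hk]
        rfl
      have h1 : (k : Perm α)⁻¹ ((k : Perm α) (e i)) = e i := by simp
      rw [hx, Perm.mul_apply, Perm.mul_apply, h1, hgi]
    have hord : orderOf (k * ⟨g, hg⟩ * k⁻¹) ∣ Nat.card (MulAction.stabilizer G x) := by
      have := orderOf_dvd_natCard (⟨_, hmem⟩ : MulAction.stabilizer G x)
      rwa [Subgroup.orderOf_mk] at this
    have hconj : orderOf (k * ⟨g, hg⟩ * k⁻¹) = orderOf g := by
      have h1 : SemiconjBy k (⟨g, hg⟩ : G) (k * ⟨g, hg⟩ * k⁻¹) := by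
        unfold SemiconjBy
        group
      rw [← h1.orderOf_eq, Subgroup.orderOf_mk]
    rw [← hconj]
    exact Odd.of_dvd_nat hodd hord

example : Cfsg.Agent.H64.Hall4.BridgeStmt.{u} := bridge

end Cfsg.Agent.H34.Hall4
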