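import Mathlib
import Cfsg.Agent.H64.Hall4Defs
import Cfsg.Agent.H34.Hall4B3
import Cfsg.Agent.H34.Hall4Four

/-!
helper34: piece H4-C0A of helper64's team project S4221 (`Cfsg.Agent.H64.Hall4.C0ConstStmt`),
with the reusable conjugation lemma `exists_conj`.
-/

set_option autoImplicit false

namespace Cfsg.Agent.H34.Hall4

open Equiv Cfsg.Agent.H64.Hall4

universe u

theorem inv_apply_apply {α : Type u} {t : Perm α} (ht : t * t = 1) (x : α) : t (t x) = x := by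
  have := congrArg (fun p : Perm α => p x) ht
  simpa using this

theorem moved_nodup {α : Type u} {t : Perm α} (ht : t * t = 1) {a b : α} (ha : t a ≠ a)
    (hb : t b ≠ b) (hba : b ≠ a) (hbta : b ≠ t a) : [a, t a, b, t b].Nodup := by
  refine nodup4_iff.2 ⟨fun h => ha h.symm, fun h => hba h.symm, ?_, fun h => hbta h.symm, ?_,
    fun h => hb h.symm⟩
  · intro h
    apply hbta
    rw [h, inv_apply_apply ht]
  · intro h
    exact hba (t.injective h).symm

/-- Two involutions of `G` with chosen pairs of 2-cycles are conjugate by an element of `G`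
matching the chosen points. -/
theorem exists_conj {α : Type u} [Fintype α] [DecidableEq α] {G : Subgroup (Perm α)}
    (hB : Basic G) {t t' : Perm α} (ht : Inv G t) (ht' : Inv G t') {a b a' b' : α}
    (ha : t a ≠ a) (hb : t b ≠ b) (hba : b ≠ a) (hbta : b ≠ t a)
    (ha' : t' a' ≠ a') (hb' : t' b' ≠ b') (hba' : b' ≠ a') (hbta' : b' ≠ t' a') :
    ∃ k ∈ G, k * t * k⁻¹ = t' ∧ k a = a' ∧ k (t a) = t' a' ∧ k b = b' ∧ k (t b) = t' b' := by
  obtain ⟨htG, ht2, _⟩ := ht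
  obtain ⟨htG', ht2', _⟩ := ht'
  have hnd := moved_nodup ht2 ha hb hba hbta
  have hnd' := moved_nodup ht2' ha' hb' hba' hbta'
  obtain ⟨g, hg, g1, g2, g3, g4⟩ := hB.t4 _ _ _ _ _ _ _ _ hnd hnd'
  have hs2 : (g * t * g⁻¹) * (g * t * g⁻¹) = 1 := by
    have : (g * t * g⁻¹) * (g * t * g⁻¹) = g * (t * t) * g⁻¹ := by group
    rw [this, ht2]
    group
  have hsG : g * t * g⁻¹ ∈ G := G.mul_mem (G.mul_mem hg htG) (G.inv_mem hg)
  have hs : ∀ x x' : α, g x = x' → (g * t * g⁻¹) x' = g (t x) := by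
    intro x x' hx
    have hinv : g⁻¹ x' = x := Perm.inv_eq_iff_eq.2 hx.symm
    rw [Perm.mul_apply, Perm.mul_apply, hinv]
  have tt := inv_apply_apply ht2
  have tt' := inv_apply_apply ht2'
  obtain ⟨e, he, het, hefix⟩ := hB.trick _ hsG t' htG' hs2 ht2' _ _ _ _ hnd'
    (by rw [hs _ _ g2, tt, g1]) (by rw [tt', hs _ _ g1, g2])
    (by rw [hs _ _ g4, tt, g3]) (by rw [tt', hs _ _ g3, g4])
  have heG : e ∈ G := (Subgroup.zpowers_le.2 (G.mul_mem hsG htG')) he
  refine ⟨e * g, G.mul_mem heG hg, ?_, ?_, ?_, ?_, ?_⟩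
  · have : e * g * t * (e * g)⁻¹ = e * (g * t * g⁻¹) * e⁻¹ := by group
    rw [this, het]
  · rw [Perm.mul_apply, g1]
    exact hefix _ (by rw [hs _ _ g2, tt, g1])
  · rw [Perm.mul_apply, g2]
    exact hefix _ (by rw [tt', hs _ _ g1, g2])
  · rw [Perm.mul_apply, g3]
    exact hefix _ (by rw [hs _ _ g4, tt, g3])
  · rw [Perm.mul_apply, g4]
    exact hefix _ (by rw [tt', hs _ _ g3, g4])

theorem conj_mem_cent_fix4 {α : Type u} {G : Subgroup (Perm α)} {k : Perm α} (hk : k ∈ G)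
    {t t' : Perm α} (ht : k * t * k⁻¹ = t')
    {a b c d a' b' c' d' : α} (ha : k a = a') (hb : k b = b') (hc : k c = c') (hd : k d = d')
    {h : Perm α}
    (hh : h ∈ G ⊓ Subgroup.centralizer {t} ⊓ fixingSubgroup (Perm α) ({a, b, c, d} : Set α)) :
    k * h * k⁻¹ ∈ G ⊓ Subgroup.centralizer {t'} ⊓
      fixingSubgroup (Perm α) ({a', b', c', d'} : Set α) := by
  obtain ⟨h12, h3⟩ := Subgroup.mem_inf.1 hh
  obtain ⟨h1, h2⟩ := Subgroup.mem_inf.1 h12
  have hfix := conj_mem_fix4 hk ha hb hc hd (Subgroup.mem_inf.2 ⟨h1, h3⟩)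
  obtain ⟨f1, f2⟩ := Subgroup.mem_inf.1 hfix
  refine Subgroup.mem_inf.2 ⟨Subgroup.mem_inf.2 ⟨f1, ?_⟩, f2⟩
  rw [Subgroup.mem_centralizer_iff] at h2 ⊢
  intro w hw
  rw [Set.mem_singleton_iff] at hw
  subst hw
  have h2' := h2 t rfl
  rw [← ht]
  have e1 : k * t * k⁻¹ * (k * h * k⁻¹) = k * (t * h) * k⁻¹ := by group
  have e2 : k * h * k⁻¹ * (k * t * k⁻¹) = k * (h * t) * k⁻¹ := by group
  rw [e1, e2, h2']

theorem c0Const : C0ConstStmt.{u} := by
  intro α _ _ G hB t t' ht ht' a b a' b' ha hb hba hbta ha' hb' hba' hbta'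
  obtain ⟨k, hk, hkt, k1, k2, k3, k4⟩ := exists_conj hB ht ht' ha hb hba hbta ha' hb' hba' hbta'
  have hkt' : k⁻¹ * t' * k⁻¹⁻¹ = t := by
    rw [← hkt]
    group
  have k1' : k⁻¹ a' = a := Perm.inv_eq_iff_eq.2 k1.symm
  have k2' : k⁻¹ (t' a') = t a := Perm.inv_eq_iff_eq.2 k2.symm
  have k3' : k⁻¹ b' = b := Perm.inv_eq_iff_eq.2 k3.symm
  have k4' : k⁻¹ (t' b') = t b := Perm.inv_eq_iff_eq.2 k4.symm
  refine Nat.card_congr
    { toFun := fun h => ⟨k * h.1 * k⁻¹, conj_mem_cent_fix4 hk hkt k1 k2 k3 k4 h.2⟩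
      invFun := fun h => ⟨k⁻¹ * h.1 * k, by
        have := conj_mem_cent_fix4 (G.inv_mem hk) hkt' k1' k2' k3' k4' h.2
        rwa [inv_inv] at this⟩
      left_inv := fun h => by
        apply Subtype.ext
        simp only
        group
      right_inv := fun h => by
        apply Subtype.ext
        simp only
        group }

example : Cfsg.Agent.H64.Hall4.C0ConstStmt.{u} := c0Const

end Cfsg.Agent.H34.Hall4
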