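import Mathlib
import Cfsg.Agent.H64.Hall4Defs
import Cfsg.Agent.H34.Hall4C0A

/-!
helper34: piece H4-CONJ of helper64's team project S4221 (`Cfsg.Agent.H64.Hall4.ConjStmt`).
-/

set_option autoImplicit false

namespace Cfsg.Agent.H34.Hall4

open Equiv Cfsg.Agent.H64.Hall4

universe u

theorem fixN_conj {α : Type u} [Fintype α] [DecidableEq α] (k t : Perm α) :
    fixN (k * t * k⁻¹) = fixN t := by
  unfold fixN
  refine Finset.card_bij (fun x _ => k⁻¹ x) ?_ ?_ ?_
  · intro x hx
    rw [Finset.mem_filter] at hx ⊢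
    refine ⟨Finset.mem_univ _, ?_⟩
    have h := hx.2
    rw [Perm.mul_apply, Perm.mul_apply] at h
    rw [Perm.eq_inv_iff_eq.2 h]
  · intro x _ y _ h
    exact k⁻¹.injective h
  · intro y hy
    rw [Finset.mem_filter] at hy
    refine ⟨k y, ?_, by simp⟩
    rw [Finset.mem_filter]
    refine ⟨Finset.mem_univ _, ?_⟩
    rw [Perm.mul_apply, Perm.mul_apply]
    have : k⁻¹ (k y) = y := by simp
    rw [this, hy.2]

/-- An involution with at most three fixed points on at least eight points has two 2-cycles. -/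
theorem exists_moved {α : Type u} [Fintype α] [DecidableEq α] {t : Perm α} (hfix : fixN t ≤ 3)
    (hn : 8 ≤ Fintype.card α) :
    ∃ a b : α, t a ≠ a ∧ t b ≠ b ∧ b ≠ a ∧ b ≠ t a := by
  have hsplit := Finset.card_filter_add_card_filter_not (s := (Finset.univ : Finset α))
    (fun x => t x = x)
  rw [Finset.card_univ] at hsplit
  have hM : 5 ≤ (Finset.univ.filter (fun x => ¬ t x = x)).card := by
    unfold fixN at hfix
    omega
  have hpos : 0 < (Finset.univ.filter (fun x => ¬ t x = x)).card := by omega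
  obtain ⟨a, ha⟩ := Finset.card_pos.1 hpos
  rw [Finset.mem_filter] at ha
  have hlt : ({a, t a} : Finset α).card < (Finset.univ.filter (fun x => ¬ t x = x)).card := by
    have := Finset.card_le_two (a := a) (b := t a)
    omega
  obtain ⟨b, hb, hb'⟩ := Finset.exists_mem_notMem_of_card_lt_card hlt
  rw [Finset.mem_filter] at hb
  rw [Finset.mem_insert, Finset.mem_singleton, not_or] at hb'
  exact ⟨a, b, ha.2, hb.2, hb'.1, hb'.2⟩

theorem conj : ConjStmt.{u} := by
  intro α _ _ G hB hn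
  have hconj : InvConj G := by
    intro t t' ht ht'
    obtain ⟨a, b, ha, hb, hba, hbta⟩ := exists_moved (hB.fixLe t ht) hn
    obtain ⟨a', b', ha', hb', hba', hbta'⟩ := exists_moved (hB.fixLe t' ht') hn
    obtain ⟨k, hk, hkt, _⟩ := exists_conj hB ht ht' ha hb hba hbta ha' hb' hba' hbta'
    exact ⟨k, hk, hkt⟩
  have hfix : FixEq G := by
    intro t t' ht ht'
    obtain ⟨k, _, hkt⟩ := hconj t t' ht ht'
    rw [← hkt, fixN_conj]
  refine ⟨hconj, hfix, ?_⟩
  intro t ht
  have h4 : Fintype.card (Fin 4) ≤ Fintype.card α := by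
    rw [Fintype.card_fin]
    omega
  obtain ⟨x⟩ := Function.Embedding.nonempty_of_card_le h4
  have hnd : [x 0, x 1, x 2, x 3].Nodup := by
    simp [x.injective.eq_iff]
  obtain ⟨n1, n2, n3, n4, n5, n6⟩ := nodup4_iff.1 hnd
  have hnd1 : [x 0, x 1, x 3, x 2].Nodup := nodup4_iff.2 ⟨n1, n3, n2, n5, n4, n6.symm⟩
  obtain ⟨g, hg, e1, e2, e3, e4⟩ := hB.t4 _ _ _ _ _ _ _ _ hnd hnd1
  obtain ⟨y, hy, hy2, hyx⟩ := hB.twoPart g hg _ _ _ _ hnd
    (by rw [e1, e1]) (by rw [e2, e2]) (by rw [e3, e4]) (by rw [e4, e3])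
  have hyG : y ∈ G := (Subgroup.zpowers_le.2 hg) hy
  have ya : y (x 0) = x 0 := by rw [hyx _ (by rw [e1, e1]), e1]
  have yb : y (x 1) = x 1 := by rw [hyx _ (by rw [e2, e2]), e2]
  have yc : y (x 2) = x 3 := by rw [hyx _ (by rw [e3, e4]), e3]
  have hy1 : y ≠ 1 := by
    intro h
    rw [h, Perm.one_apply] at yc
    exact n6 yc
  have hyInv : Inv G y := ⟨hyG, hy2, hy1⟩
  rw [hfix t y ht hyInv]
  unfold fixN
  have hsub : ({x 0, x 1} : Finset α) ⊆ Finset.univ.filter (fun a => y a = a) := by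
    intro w hw
    rw [Finset.mem_insert, Finset.mem_singleton] at hw
    rw [Finset.mem_filter]
    refine ⟨Finset.mem_univ _, ?_⟩
    rcases hw with rfl | rfl
    · exact ya
    · exact yb
  have := Finset.card_le_card hsub
  rw [Finset.card_pair n1] at this
  exact this

example : Cfsg.Agent.H64.Hall4.ConjStmt.{u} := conj

end Cfsg.Agent.H34.Hall4
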