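import Mathlib
import Cfsg.Agent.H64.Hall4Defs
import Cfsg.Agent.H34.Hall4Four

/-!
helper34: piece H4-REGTR of helper64's team project S4221 (`Cfsg.Agent.H64.Hall4.RegTransStmt`).
-/

set_option autoImplicit false

namespace Cfsg.Agent.H34.Hall4

open Equiv Cfsg.Agent.H64.Hall4

universe u

theorem reg_nodup {α : Type u} {y z : Perm α} (hy2 : y * y = 1) (hz2 : z * z = 1)
    (hyz : y * z = z * y) {e : α} (he : Reg y z e) : [e, y e, z e, y (z e)].Nodup := by
  obtain ⟨h1, h2, h3⟩ := he
  have yy : ∀ x, y (y x) = x := fun x => by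
    have := congrArg (fun p : Perm α => p x) hy2
    simpa using this
  have zz : ∀ x, z (z x) = x := fun x => by
    have := congrArg (fun p : Perm α => p x) hz2
    simpa using this
  have yz : ∀ x, y (z x) = z (y x) := fun x => by
    have := congrArg (fun p : Perm α => p x) hyz
    simpa using this
  refine nodup4_iff.2 ⟨fun h => h1 h.symm, fun h => h2 h.symm, fun h => h3 h.symm, ?_, ?_, ?_⟩
  · intro h
    apply h3
    rw [← h, yy]
  · intro h
    exact h2 (y.injective h).symm
  · intro h
    apply h1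
    have h' := congrArg z h
    rw [← yz, zz] at h'
    exact h'.symm

theorem regTrans : RegTransStmt.{u} := by
  intro α _ _ G hB y hy z hz hy2 hz2 hyz e e' he he'
  have yy : ∀ x, y (y x) = x := fun x => by
    have := congrArg (fun p : Perm α => p x) hy2
    simpa using this
  have zz : ∀ x, z (z x) = x := fun x => by
    have := congrArg (fun p : Perm α => p x) hz2
    simpa using this
  have yz : ∀ x, y (z x) = z (y x) := fun x => by
    have := congrArg (fun p : Perm α => p x) hyz
    simpa using this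
  have hnd := reg_nodup hy2 hz2 hyz he
  have hnd' := reg_nodup hy2 hz2 hyz he'
  obtain ⟨g, hg, g1, g2, g3, g4⟩ := hB.t4 _ _ _ _ _ _ _ _ hnd hnd'
  obtain ⟨k, hk, hky, k1, k2, k3, k4, hkL⟩ := hB.centLift y hy g hg hy2 _ _ _ _ hnd
    (by rw [g1, g2]) (by rw [g2, yy, yy, g1]) (by rw [g3, g4]) (by rw [g4, yy, yy, g3])
  rw [g1] at k1
  rw [g2] at k2
  rw [g3] at k3
  rw [g4] at k4
  obtain ⟨h, hh, hhz, h1, h2, h3, h4, hhL⟩ := hB.centLift z hz k hk hz2 _ _ _ _ hnd
    (by rw [k1, k3]) (by rw [k2, ← yz, ← yz, k4]) (by rw [k3, zz, zz, k1])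
    (by rw [k4, ← yz, zz, ← yz, zz, k2])
  refine ⟨h, hh, ?_, hhz, by rw [h1, k1]⟩
  have hzc : z ∈ Subgroup.centralizer ({y} : Set (Perm α)) := by
    rw [Subgroup.mem_centralizer_iff]
    intro w hw
    rw [Set.mem_singleton_iff] at hw
    subst hw
    exact hyz
  have hkc : k ∈ Subgroup.centralizer ({y} : Set (Perm α)) := by
    rw [Subgroup.mem_centralizer_iff]
    intro w hw
    rw [Set.mem_singleton_iff] at hw
    subst hw
    exact hky.symm
  have hhc := hhL _ hzc hkc
  rw [Subgroup.mem_centralizer_iff] at hhc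
  exact (hhc y rfl).symm

example : Cfsg.Agent.H64.Hall4.RegTransStmt.{u} := regTrans

end Cfsg.Agent.H34.Hall4
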