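import Mathlib
import Cfsg.Agent.H64.Hall4Defs

/-!
helper34: piece H4-SM45 of helper64's team project S4221 (`Cfsg.Agent.H64.Hall4.Small45Stmt`).
-/

set_option autoImplicit false

namespace Cfsg.Agent.H34.Hall4

open Equiv Cfsg.Agent.H64.Hall4

universe u

theorem small45 : Small45Stmt.{u} := by
  intro α _ _ G hT hn
  have h4 : Fintype.card (Fin 4) ≤ Fintype.card α := by
    rw [Fintype.card_fin]
    rcases hn with h | h <;> omega
  obtain ⟨x⟩ := Function.Embedding.nonempty_of_card_le h4
  have hnd : [x 0, x 1, x 2, x 3].Nodup := by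
    simp [x.injective.eq_iff]
  rw [eq_top_iff]
  intro σ _
  have hnd' : [σ (x 0), σ (x 1), σ (x 2), σ (x 3)].Nodup := by
    simp [x.injective.eq_iff]
  obtain ⟨g, hg, h0, h1, h2, h3⟩ := hT _ _ _ _ _ _ _ _ hnd hnd'
  have hτ : σ⁻¹ * g = 1 := by
    rw [← Perm.card_support_eq_zero]
    have hdisj : Disjoint (σ⁻¹ * g).support ([x 0, x 1, x 2, x 3].toFinset) := by
      rw [Finset.disjoint_left]
      intro y hy hy'
      rw [Perm.mem_support] at hy
      apply hy
      rw [Perm.mul_apply, Perm.inv_eq_iff_eq]
      simp only [List.toFinset_cons, List.toFinset_nil, insert_empty_eq, Finset.mem_insert,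
        Finset.mem_singleton] at hy'
      rcases hy' with rfl | rfl | rfl | rfl
      · exact h0
      · exact h1
      · exact h2
      · exact h3
    have hc4 : ([x 0, x 1, x 2, x 3].toFinset).card = 4 := by
      rw [List.toFinset_card_of_nodup hnd]
      rfl
    have hle := Finset.card_le_univ ((σ⁻¹ * g).support ∪ [x 0, x 1, x 2, x 3].toFinset)
    rw [Finset.card_union_of_disjoint hdisj, hc4] at hle
    have hne := Perm.card_support_ne_one (σ⁻¹ * g)
    rcases hn with h | h <;> omega
  have : g = σ := by
    have := congrArg (fun p => σ * p) hτ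
    simpa using this
  rw [← this]
  exact hg

example : Cfsg.Agent.H64.Hall4.Small45Stmt.{u} := small45

end Cfsg.Agent.H34.Hall4
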