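import Cfsg.Agent.H34.JkConj
import Cfsg.Agent.H52.SrMain
import Cfsg.Agent.H36.JkExp
import Cfsg.Agent.H36.JkFix
import Cfsg.Agent.H12.JkNV
import Cfsg.Agent.H91.JkCard
import Cfsg.Agent.H18.JkZ
import Cfsg.Agent.H90.JkBasic

/-!
# JZ-KILL, route 59: the wiring (S2951 / S2952)

`kill (hZ2) (h46) (hLt) (hNorm) : StKill` from helper59's `killAsm` and the landed sub-pieces:
K-EXP, K-FIX (helper36), K-NV (helper12), K-CARD, K-FOUR (helper91), K-Z (helper18),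
K-BASIC (helper90), K-CENT, K-TI (this folder), and helper52's structure theorem `struct`.
-/

set_option autoImplicit false
open Cfsg

namespace Cfsg.Agent.H34.Jk

open Cfsg.Agent.H64.Jz Cfsg.Agent.H59.JzK

universe u

/-- JZ-KILL, given JZ-Z2, the statement S2946, JZ-LT and JZ-NORM. -/
theorem kill (hZ2 : StZ2.{u}) (h46 : St46.{u}) (hLt : StLt.{u}) (hNorm : StNorm.{u}) :
    StKill.{u} :=
  have hSR : Cfsg.Agent.H52.Sr.StStruct.{u} := Cfsg.Agent.H52.Sr.struct.{u}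
  have hExp : StKExp.{u} := Cfsg.Agent.H36.Jk.kExp.{u}
  have hNV : StKNV.{u} := Cfsg.Agent.H12.Jk.kNV.{u}
  killAsm hExp hNV (Cfsg.Agent.H91.JzK.kCard hSR hZ2) (kCent hSR hZ2 h46 hExp hNV)
    (kTIfull hSR hZ2 h46 hExp hNV) (Cfsg.Agent.H91.JzK.kFour hSR hZ2 hNV)
    Cfsg.Agent.H36.Jk.kFix.{u} Cfsg.Agent.H18.Jk.kZ.{u} Cfsg.Agent.H90.JzK.kBasic.{u} hLt hNorm

example (hZ2 : Cfsg.Agent.H64.Jz.StZ2.{u}) (h46 : St46.{u}) (hLt : Cfsg.Agent.H64.Jz.StLt.{u})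
    (hNorm : Cfsg.Agent.H64.Jz.StNorm.{u}) : Cfsg.Agent.H64.Jz.StKill.{u} :=
  kill hZ2 h46 hLt hNorm

end Cfsg.Agent.H34.Jk

#print axioms Cfsg.Agent.H34.Jk.kill
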