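import Cfsg.Agent.H59.JzKillDefs
import Cfsg.Agent.H12.JzOut1
import Cfsg.Agent.H34.JzH1Abs

/-!
# JZ-KILL, piece K-TI (S2951 / S2952)

`kTI (hConj) (hCent) (hNV) : StKTI`: `V = Ω₁Z(O₂(L))` is a TI-subgroup, given

* `StKConj`: every element of `V` is `L`-conjugate into `Ω₁Z(J(S))` (the conjugation step of
  the proof of K-CENT through the structure of `V`),
* K-CENT and K-NV.
-/

set_option autoImplicit false
open Cfsg

namespace Cfsg.Agent.H34.Jk

open Cfsg.Agent.H64.Jz Cfsg.Agent.H59.JzK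

universe u

/-- K-CONJ: in (R), every element of `V = Ω₁Z(O₂(L))` is `L`-conjugate into `Ω₁Z(J(S))`. -/
def StKConj : Prop := ∀ {G : Type u} [Group G] [Finite G] (S : Sylow 2 G)
    (M K L T' K' L' : Subgroup G), RCtx S M K L T' K' L' →
  ∀ u ∈ Vof L, ∃ k ∈ L,
    k * u * k⁻¹ ∈ omegaCenterOf (thompsonSubgroupOf 2 (S : Subgroup G))

/-- In (R), `L` is the only conjugate of `L` containing `J(S)`. -/
theorem mem_of_J_le_conj {G : Type u} [Group G] [Finite G] (S : Sylow 2 G)
    (M K L T' K' L' : Subgroup G) (hR : RCtx S M K L T' K' L') (x : G)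
    (hx : thompsonSubgroupOf 2 (S : Subgroup G) ≤ L.map (MulAut.conj x).toMonoidHom) :
    x ∈ L := by
  have hLmax : IsMaximalTwoLocal L := hR.1.2.2.2.2.2.2.2.1
  have h2 : IsTwoLocal (L.map (MulAut.conj x).toMonoidHom) :=
    Cfsg.Agent.H12.Jz.isTwoLocal_conj x hLmax.1
  have hle : L.map (MulAut.conj x).toMonoidHom ≤ L := hR.2.1 _ h2 hx
  have hcard : Nat.card ↥(L.map (MulAut.conj x).toMonoidHom) = Nat.card ↥L :=
    Subgroup.card_map_of_injective (MulAut.conj x).injective
  have heq : L.map (MulAut.conj x).toMonoidHom = L :=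
    Subgroup.eq_of_le_of_card_ge hle hcard.ge
  exact Cfsg.Agent.H12.Jz.mem_of_map_conj_eq hLmax heq

/-- K-TI from the conjugation step, K-CENT and K-NV. -/
theorem kTI (hConj : StKConj.{u}) (hCent : StKCent.{u}) (hNV : StKNV.{u}) : StKTI.{u} := by
  intro G _ _ S M K L T' K' L' hR ha g hg
  have hNVeq : Subgroup.normalizer (Vof L : Set G) = L := hNV S M K L T' K' L' hR
  rw [hNVeq]
  refine Cfsg.Agent.H34.Jz.ti_abs (Vof L)
    (omegaCenterOf (thompsonSubgroupOf 2 (S : Subgroup G))) L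
    (thompsonSubgroupOf 2 (S : Subgroup G)) (hConj S M K L T' K' L' hR) ?_ ?_ ?_ g hg
  · intro y hy j hj
    have hle : omegaCenterOf (thompsonSubgroupOf 2 (S : Subgroup G)) ≤
        thompsonSubgroupOf 2 (S : Subgroup G) ⊓
          Subgroup.centralizer (thompsonSubgroupOf 2 (S : Subgroup G) : Set G) := by
      unfold omegaCenterOf omegaOne
      rw [Subgroup.closure_le]
      intro x hx
      exact hx.1
    have hyc := (hle hy).2
    rw [Subgroup.mem_centralizer_singleton_iff]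
    exact (Subgroup.mem_centralizer_iff.mp hyc j hj)
  · intro u hu hu1
    have h := hCent S M K L T' K' L' hR ha u hu hu1
    rwa [hNVeq] at h
  · intro x hx
    exact mem_of_J_le_conj S M K L T' K' L' hR x hx

example (hConj : StKConj.{u}) (hCent : Cfsg.Agent.H59.JzK.StKCent.{u})
    (hNV : Cfsg.Agent.H59.JzK.StKNV.{u}) : Cfsg.Agent.H59.JzK.StKTI.{u} :=
  kTI hConj hCent hNV

end Cfsg.Agent.H34.Jk

#print axioms Cfsg.Agent.H34.Jk.kTI
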