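import Cfsg.Agent.H34.M24Fpf

/-!
# Subgroups of order seven of `M24` (helper34 library)

For the subgroup `S7` of `M24` generated by the element `lperm u7P` of order seven: the normaliser
has order `126 = 3 * 2 * 7 * 3`, the centraliser has order `42 = 3 * 2 * 7` and is not abelian,
and the normaliser fixes a trio.
-/

set_option autoImplicit false

namespace Cfsg.Agent.H34

open Cfsg Cfsg.Agent.H9
open scoped Pointwise

/-! ### Generic tools -/

/-- An element conjugating a finite subgroup into itself normalises it. -/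
theorem mem_normalizer_of_conj_mem {G : Type*} [Group G] {H : Subgroup G} [Finite H] {g : G}
    (h : ∀ x ∈ H, g * x * g⁻¹ ∈ H) : g ∈ Subgroup.normalizer (H : Set G) := by
  rw [Subgroup.mem_normalizer_iff]
  intro x
  constructor
  · exact h x
  · intro hx
    let f : H → H := fun y => ⟨g * y.1 * g⁻¹, h y.1 y.2⟩
    have hf : Function.Injective f := by
      intro a b e
      have e' : g * a.1 * g⁻¹ = g * b.1 * g⁻¹ := congrArg Subtype.val e
      apply Subtype.ext
      simpa using e'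
    obtain ⟨y, hy⟩ := (Finite.injective_iff_surjective.mp hf) ⟨g * x * g⁻¹, hx⟩
    have e' : g * y.1 * g⁻¹ = g * x * g⁻¹ := congrArg Subtype.val hy
    have e'' : y.1 = x := by simpa using e'
    rw [← e'']
    exact y.2

/-- The number of elements of a subgroup of `M24` enumerated by a list with distinct keys. -/
theorem card_of_list' {K : Subgroup ↥M24} {EL : List ℕ} {key : ℕ → ℕ}
    (hkey : ∀ s s', svalid s = true → svalid s' = true → lperm s = lperm s' → key s = key s')
    (hnd : (EL.map key).Nodup) (hv : ∀ s ∈ EL, svalid s = true)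
    (hmem : ∀ s ∈ EL, ∃ h : lperm s ∈ M24, (⟨lperm s, h⟩ : ↥M24) ∈ K)
    (henum : ∀ g ∈ K, ∃ s ∈ EL, (g : Equiv.Perm GolayPt) = lperm s) :
    Nat.card K = EL.length := by
  rw [← Subgroup.card_map_of_injective (Subgroup.subtype_injective M24)]
  refine card_of_list hkey hnd hv ?_ ?_
  · intro s hs
    obtain ⟨h, hk⟩ := hmem s hs
    exact ⟨⟨lperm s, h⟩, hk, rfl⟩
  · rintro g ⟨k, hk, rfl⟩
    exact henum k hk

theorem stab_mk {n : ↥M24} {p : GolayPt} (h : (n : Equiv.Perm GolayPt) p = p) :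
    n ∈ MulAction.stabilizer ↥M24 p := MulAction.mem_stabilizer_iff.mpr h

theorem stab_apply {n : ↥M24} {p : GolayPt} (h : n ∈ MulAction.stabilizer ↥M24 p) :
    (n : Equiv.Perm GolayPt) p = p := MulAction.mem_stabilizer_iff.mp h

theorem gPt_map_nodup {L : List ℕ} (hL : L.Nodup) (hlt : ∀ j ∈ L, j < 24) : (L.map gPt).Nodup := by
  refine List.Nodup.map_on ?_ hL
  intro a ha b hb e
  have := congrArg gIdx e
  rwa [gIdx_gPt (hlt a ha), gIdx_gPt (hlt b hb)] at this

/-- The size of an orbit of points of a subgroup of `M24`, from a list of the indices of its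
points. -/
theorem orbit_ncard_of {K : Subgroup ↥M24} {a : GolayPt} {L : List ℕ} (hL : L.Nodup)
    (hlt : ∀ j ∈ L, j < 24) (hcl : ∀ n ∈ K, gIdx ((n : Equiv.Perm GolayPt) a) ∈ L)
    (hre : ∀ j ∈ L, ∃ n ∈ K, (n : Equiv.Perm GolayPt) a = gPt j) :
    (MulAction.orbit K a).ncard = L.length := by
  have e : MulAction.orbit K a = ↑(L.map gPt).toFinset := by
    ext x
    simp only [Finset.mem_coe, List.mem_toFinset, List.mem_map]
    constructor
    · rintro ⟨⟨n, hn⟩, rfl⟩
      exact ⟨gIdx ((n : Equiv.Perm GolayPt) a), hcl n hn, gPt_gIdx _⟩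
    · rintro ⟨j, hj, rfl⟩
      obtain ⟨n, hn, e⟩ := hre j hj
      exact ⟨⟨n, hn⟩, e⟩
  rw [e, Set.ncard_coe_finset, List.toFinset_card_of_nodup (gPt_map_nodup hL hlt), List.length_map]

/-- The packed permutation maps the family of sets with the listed masks to itself. -/
def famB (L : List ℕ) (s : ℕ) : Bool := L.all (fun m => L.any (fun m' => Nat.beq (pmN s m) m'))

theorem fam_fix {L : List ℕ} {s : ℕ} (hv : svalid s = true) (h : famB L s = true) :
    lperm s • (L.map fs).toFinset = (L.map fs).toFinset := by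
  apply Finset.eq_of_subset_of_card_le
  · intro x hx
    rw [Finset.mem_smul_finset] at hx
    obtain ⟨y, hy, rfl⟩ := hx
    simp only [List.mem_toFinset, List.mem_map] at hy
    obtain ⟨m, hm, rfl⟩ := hy
    have h1 := List.all_eq_true.mp h m hm
    rw [List.any_eq_true] at h1
    obtain ⟨m', hm', e⟩ := h1
    rw [lperm_smul_fs hv, Nat.eq_of_beq_eq_true e]
    simp only [List.mem_toFinset, List.mem_map]
    exact ⟨m', hm', rfl⟩
  · rw [Finset.card_smul_finset]

/-- The packed permutation `r` is the product of `s` and `t`. -/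
def prodB (r s t : ℕ) : Bool := allB (fun i => Nat.beq (sv r i) (sv s (sv t i))) 24

theorem prodB_sound {r s t : ℕ} (hr : svalid r = true) (hs : svalid s = true)
    (ht : svalid t = true) (h : prodB r s t = true) : lperm r = lperm s * lperm t := by
  apply Equiv.ext
  intro p
  apply gIdx_injective
  rw [gIdx_lperm_mul hs ht, gIdx_lperm hr]
  exact Nat.eq_of_beq_eq_true ((allB_iff _ _).mp h _ (gIdx_lt p))

/-- `M24` permutes the trios. -/
theorem smul_trios {g : Equiv.Perm GolayPt} (hg : g ∈ M24) {T : Finset (Finset GolayPt)}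
    (hT : T ∈ trios) : g • T ∈ trios := by
  obtain ⟨h1, h2, h3⟩ := hT
  refine ⟨by rw [Finset.card_smul_finset]; exact h1, ?_, ?_⟩
  · intro t ht
    rw [Finset.mem_smul_finset] at ht
    obtain ⟨y, hy, rfl⟩ := ht
    exact (smul_mem_octads hg).mpr (h2 y hy)
  · intro t ht u hu htu
    rw [Finset.mem_smul_finset] at ht hu
    obtain ⟨y, hy, rfl⟩ := ht
    obtain ⟨z, hz, rfl⟩ := hu
    have hyz : y ≠ z := fun e => htu (by rw [e])
    have h4 := h3 y hy z hz hyz
    rw [Finset.disjoint_iff_inter_eq_empty] at h4 ⊢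
    rw [← Finset.smul_finset_inter, h4, Finset.smul_finset_empty]

/-! ### The base element of order seven -/

/-- The packed powers of the base element of order seven. -/
def upw : ℕ → ℕ
  | 0 => 984818244535754528103549039458486304
  | 1 => 770047631972691092638114048368838688
  | 2 => 139482344570632009557744329090041888
  | 3 => 525362922542567448191740220230830112
  | 4 => 878256748432619708337756018872616992
  | 5 => 311681469758545851542456649117304864
  | 6 => 589826801286791147573120710226806816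
  | _ => 984818244535754528103549039458486304

/-- The packed base element of order seven. -/
def u7P : ℕ := 770047631972691092638114048368838688

theorem upw_ok : ∀ k, k < 8 → okM24 (upw k) = true := by decide +kernel

theorem upw_valid {k : ℕ} (hk : k < 8) : svalid (upw k) = true := okM24_svalid (upw_ok k hk)

theorem u7P_ok : okM24 u7P = true := upw_ok 1 (by norm_num)

theorem u7P_valid : svalid u7P = true := okM24_svalid u7P_ok

theorem upw_prod : ∀ k, k < 7 → prodB (upw (k + 1)) u7P (upw k) = true := by decide +kernel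

theorem upw_zero : upw 0 = idP := by decide +kernel

theorem upw_seven : upw 7 = idP := by decide +kernel

theorem upw_pow : ∀ k, k ≤ 7 → lperm (upw k) = lperm u7P ^ k := by
  intro k
  induction k with
  | zero =>
    intro _
    rw [upw_zero, lperm_idP, pow_zero]
  | succ k ih =>
    intro hk
    rw [prodB_sound (upw_valid (by omega)) u7P_valid (upw_valid (by omega)) (upw_prod k (by omega)),
      ih (by omega), pow_succ']

theorem u7_pow7 : lperm u7P ^ 7 = 1 := by
  rw [← upw_pow 7 le_rfl, upw_seven, lperm_idP]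

theorem u7_fix : ∀ i, i < 3 → sv u7P i = i := by decide +kernel

theorem u7_move : sv u7P 3 ≠ 3 := by decide +kernel

theorem u7_ne_one : lperm u7P ≠ 1 := by
  intro h
  have h1 := congrArg (fun f : Equiv.Perm GolayPt => gIdx (f (gPt 3))) h
  simp only [gIdx_lperm u7P_valid, gIdx_gPt (by norm_num : 3 < 24), Equiv.Perm.one_apply] at h1
  exact u7_move h1

theorem upw_fix : ∀ k, k < 7 → k = 0 ∨ ∀ j, j < 24 → sv (upw k) j = j → j < 3 := by
  decide +kernel

/-- The base element of order seven, as an element of `M24`. -/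
noncomputable def u7M : ↥M24 := ⟨lperm u7P, lperm_mem_M24 u7P_ok⟩

/-- The base subgroup of order seven. -/
noncomputable def S7 : Subgroup ↥M24 := Subgroup.zpowers u7M

theorem u7M_pow7 : u7M ^ 7 = 1 := by
  apply Subtype.ext
  rw [Subgroup.coe_pow]
  exact u7_pow7

theorem u7M_ne_one : u7M ≠ 1 := fun h => u7_ne_one (congrArg Subtype.val h)

theorem prime7 : Nat.Prime 7 := by norm_num

theorem card_S7 : Nat.card S7 = 7 := by
  have : Fact (Nat.Prime 7) := ⟨prime7⟩
  rw [S7, Nat.card_zpowers, orderOf_eq_prime u7M_pow7 u7M_ne_one]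

theorem mem_S7 {x : ↥M24} : x ∈ S7 ↔ ∃ k, k < 7 ∧ (x : Equiv.Perm GolayPt) = lperm (upw k) := by
  unfold S7
  rw [Subgroup.mem_zpowers_iff]
  constructor
  · rintro ⟨k, rfl⟩
    rw [zpow_eq_zpow_emod' k u7M_pow7]
    have h1 : 0 ≤ k % ((7 : ℕ) : ℤ) := Int.emod_nonneg k (by norm_num)
    have h2 : k % ((7 : ℕ) : ℤ) < ((7 : ℕ) : ℤ) := Int.emod_lt_of_pos k (by norm_num)
    obtain ⟨j, hj⟩ := Int.eq_ofNat_of_zero_le h1
    rw [hj, zpow_natCast]
    refine ⟨j, by omega, ?_⟩
    rw [Subgroup.coe_pow]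
    exact (upw_pow j (by omega)).symm
  · rintro ⟨k, hk, e⟩
    refine ⟨(k : ℤ), ?_⟩
    rw [zpow_natCast]
    apply Subtype.ext
    rw [Subgroup.coe_pow, e]
    exact (upw_pow k (by omega)).symm

theorem u7M_mem : u7M ∈ S7 := Subgroup.mem_zpowers u7M

/-- Membership in the normaliser of the base subgroup. -/
theorem mem_N7 {n : ↥M24} : n ∈ Subgroup.normalizer (S7 : Set ↥M24) ↔
    ∃ k, k < 7 ∧ (n : Equiv.Perm GolayPt) * lperm u7P = lperm (upw k) * (n : Equiv.Perm GolayPt) := by
  constructor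
  · intro hn
    have h1 : n * u7M * n⁻¹ ∈ S7 := (Subgroup.mem_normalizer_iff.mp hn u7M).mp u7M_mem
    obtain ⟨k, hk, e⟩ := mem_S7.mp h1
    refine ⟨k, hk, ?_⟩
    have e' : (n : Equiv.Perm GolayPt) * lperm u7P * (n : Equiv.Perm GolayPt)⁻¹ = lperm (upw k) := e
    rw [← e']
    group
  · rintro ⟨k, hk, e⟩
    apply mem_normalizer_of_conj_mem
    intro x hx
    obtain ⟨j, rfl⟩ := Subgroup.mem_zpowers_iff.mp hx
    rw [← conj_zpow]
    apply Subgroup.zpow_mem
    apply mem_S7.mpr
    refine ⟨k, hk, ?_⟩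
    show (n : Equiv.Perm GolayPt) * lperm u7P * (n : Equiv.Perm GolayPt)⁻¹ = lperm (upw k)
    rw [e]
    group

/-- Membership in the centraliser of the base subgroup. -/
theorem mem_C7 {c : ↥M24} : c ∈ Subgroup.centralizer (S7 : Set ↥M24) ↔
    (c : Equiv.Perm GolayPt) * lperm u7P = lperm u7P * (c : Equiv.Perm GolayPt) := by
  constructor
  · intro hc
    have h := Subgroup.mem_centralizer_iff.mp hc u7M u7M_mem
    exact (congrArg Subtype.val h).symm
  · intro e
    rw [Subgroup.mem_centralizer_iff]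
    intro x hx
    obtain ⟨j, rfl⟩ := Subgroup.mem_zpowers_iff.mp hx
    have hc : Commute u7M c := Subtype.ext e.symm
    exact (hc.zpow_left j).eq

/-- The packed permutation normalises the base subgroup. -/
def normB (s : ℕ) : Bool := (List.range 7).any (fun k => conjB s u7P (upw k))

/-- The product of two packed permutations normalises the base subgroup. -/
def norm3 (r s : ℕ) : Bool := (List.range 7).any (fun k =>
  allB (fun i => Nat.beq (sv r (sv s (sv u7P i))) (sv (upw k) (sv r (sv s i)))) 24)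

theorem normB_sound {s : ℕ} (hs : okM24 s = true) (h : normB s = true) :
    (⟨lperm s, lperm_mem_M24 hs⟩ : ↥M24) ∈ Subgroup.normalizer (S7 : Set ↥M24) := by
  rw [mem_N7]
  rw [normB, List.any_eq_true] at h
  obtain ⟨k, hk, e⟩ := h
  have hk' : k < 7 := List.mem_range.mp hk
  exact ⟨k, hk', conjB_sound (okM24_svalid hs) u7P_valid (upw_valid (by omega)) e⟩

theorem normB_complete {s : ℕ} (hs : svalid s = true) {k : ℕ} (hk : k < 7)
    (e : lperm s * lperm u7P = lperm (upw k) * lperm s) : normB s = true := by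
  rw [normB, List.any_eq_true]
  exact ⟨k, List.mem_range.mpr hk, conjB_complete hs u7P_valid (upw_valid (by omega)) e⟩

theorem norm3_complete {r s : ℕ} (hr : svalid r = true) (hs : svalid s = true) {k : ℕ}
    (hk : k < 7) (e : lperm r * lperm s * lperm u7P = lperm (upw k) * (lperm r * lperm s)) :
    norm3 r s = true := by
  rw [norm3, List.any_eq_true]
  refine ⟨k, List.mem_range.mpr hk, ?_⟩
  rw [allB_iff]
  intro i hi
  have h1 := congrArg (fun g : Equiv.Perm GolayPt => gIdx (g (gPt i))) e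
  have e' : lperm (upw k) * (lperm r * lperm s) = lperm (upw k) * lperm r * lperm s := by group
  rw [e'] at h1
  simp only [gIdx_lperm_mul3 hr hs u7P_valid, gIdx_lperm_mul3 (upw_valid (by omega : k < 8)) hr hs,
    gIdx_gPt hi] at h1
  rw [h1]
  exact Nat.beq_refl _

/-- The normaliser permutes the three fixed points of the base element. -/
theorem N7_fix {n : ↥M24} (hn : n ∈ Subgroup.normalizer (S7 : Set ↥M24)) {i : ℕ} (hi : i < 3) :
    gIdx ((n : Equiv.Perm GolayPt) (gPt i)) < 3 := by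
  obtain ⟨k, hk, e⟩ := mem_N7.mp hn
  rcases upw_fix k hk with h0 | h0
  · exfalso
    rw [h0, upw_zero, lperm_idP, one_mul] at e
    apply u7_ne_one
    have e2 : lperm u7P = (n : Equiv.Perm GolayPt)⁻¹ * ((n : Equiv.Perm GolayPt) * lperm u7P) := by
      group
    rw [e2, e]
    group
  · apply h0 _ (gIdx_lt _)
    have h1 := congrArg (fun g : Equiv.Perm GolayPt => gIdx (g (gPt i))) e
    simp only [Equiv.Perm.mul_apply, gIdx_lperm (upw_valid (by omega : k < 8)),
      lperm_gPt u7P_valid (by omega : i < 24), u7_fix i hi] at h1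
    exact h1.symm

/-! ### The lists of elements -/

/-- The trio attached to the base element, as masks. -/
def TRL : List ℕ := [567074, 5441617, 10768524]

/-- The trio attached to the base element. -/
def TR7 : Finset (Finset GolayPt) := (TRL.map fs).toFinset

theorem TRL_oct : ∀ m ∈ TRL, isGolay m = true ∧ pcT m = 8 := by decide +kernel

theorem TRL_disj : ∀ m ∈ TRL, ∀ m' ∈ TRL, m = m' ∨ Nat.land m m' = 0 := by decide +kernel

theorem TR7_mem : TR7 ∈ trios := by
  have hlt : ∀ m ∈ TRL, m < 2 ^ 24 := by decide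
  have hnd : (TRL.map fs).Nodup := by
    refine List.Nodup.map_on ?_ (by decide)
    intro a ha b hb e
    exact fs_inj (hlt a ha) (hlt b hb) e
  refine ⟨?_, ?_, ?_⟩
  · rw [TR7, List.toFinset_card_of_nodup hnd, List.length_map]
    rfl
  · intro t ht
    simp only [TR7, List.mem_toFinset, List.mem_map] at ht
    obtain ⟨m, hm, rfl⟩ := ht
    exact fs_mem_octads (TRL_oct m hm).1 (TRL_oct m hm).2
  · intro t ht u hu htu
    simp only [TR7, List.mem_toFinset, List.mem_map] at ht hu
    obtain ⟨m, hm, rfl⟩ := ht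
    obtain ⟨m', hm', rfl⟩ := hu
    rcases TRL_disj m hm m' hm' with h | h
    · exact absurd (by rw [h]) htu
    · rw [Finset.disjoint_iff_inter_eq_empty, ← Finset.card_eq_zero, card_fs_inter, h]
      rfl

/-- Elements of the normaliser moving `gPt 0` to the three fixed points. -/
def NL1 : List ℕ := [984818244535754528103549039458486304, 921043724362427818283919144655126593, 932490481732394571664838685813669922]

/-- Elements of the normaliser fixing `gPt 0` and moving `gPt 1` to the other fixed points. -/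
def NL2 : List ℕ := [984818244535754528103549039458486304, 403032682424347017969892777015215168]

/-- Elements of the normaliser fixing the three fixed points and moving `gPt 3`. -/
def NL3 : List ℕ := [984818244535754528103549039458486304, 887180863439576545671399783325206560, 608445888427012109820239823564572704, 878256748432619708337756018872616992, 894685746707725871042886050122369056, 961330759472245986151833609123301408, 587474265665484634403439662124992544]

/-- The orbit of `gPt 3`. -/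
def NT3 : List ℕ := [3, 7, 12, 14, 18, 21, 23]

/-- Elements of `M24` fixing `gPt 0, gPt 1, gPt 2` and moving `gPt 3` off the orbit. -/
def NRB : List (ℕ × ℕ) := [(4, 273061710911347646794728681882388512), (5, 983114479500887568959290245577345056), (6, 851930571487404165654825467787806752), (8, 598641804578996519740528749576456224), (9, 154771433951332614717631010632402976), (10, 944397937647834838634175266627586080), (11, 144509927387230296790501279786174496), (13, 306928103167270793841313175352805408), (15, 902294148128194236510761170101569568), (16, 764085796750485883582937313634158624), (17, 876575962548728179557394302651369504), (19, 555750088663726726784470529474136096), (20, 182368465515556820548376976133064736), (22, 152501545364300191555248721587013664)]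

/-- Elements of the centraliser moving `gPt 0` to the three fixed points. -/
def CL1 : List ℕ := [984818244535754528103549039458486304, 481839207943043069543950343117865025, 819627838920331345834034877349135362]

/-- Elements of the centraliser fixing `gPt 0` and moving `gPt 1` to the other fixed points. -/
def CL2 : List ℕ := [984818244535754528103549039458486304, 628702374334532753622854390011659328]

/-- Elements of the centraliser fixing the three fixed points and moving `gPt 3`. -/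
def CL3 : List ℕ := [984818244535754528103549039458486304, 525362922542567448191740220230830112, 770047631972691092638114048368838688, 878256748432619708337756018872616992, 589826801286791147573120710226806816, 139482344570632009557744329090041888, 311681469758545851542456649117304864]

theorem NL1_ok : NL1.all (fun s => okM24 s && (normB s && famB TRL s)) = true := by decide +kernel

theorem NL1_img : ∀ j ∈ List.range 3, NL1.any (fun s => Nat.beq (sv s 0) j) = true := by
  decide +kernel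

theorem NL2_ok : NL2.all (fun s => okM24 s && (normB s && (famB TRL s && Nat.beq (sv s 0) 0)))
    = true := by
  decide +kernel

theorem NL2_img : ∀ j ∈ [1, 2], NL2.any (fun s => Nat.beq (sv s 1) j) = true := by decide +kernel

theorem NL3_ok : NL3.all (fun s => okM24 s && (normB s && (famB TRL s && (Nat.beq (sv s 0) 0 &&
    Nat.beq (sv s 1) 1)))) = true := by
  decide +kernel

theorem NL3_img : ∀ j ∈ NT3, NL3.any (fun s => Nat.beq (sv s 3) j) = true := by decide +kernel

theorem NRB_ok : NRB.all (fun e => okM24 e.2 && (Nat.beq (sv e.2 0) 0 && (Nat.beq (sv e.2 1) 1 &&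
    (Nat.beq (sv e.2 2) 2 && (Nat.beq (sv e.2 3) e.1 &&
    Q4EL.all (fun s => !(norm3 e.2 s))))))) = true := by
  decide +kernel

theorem N_cases : ∀ j, j < 24 → j < 3 ∨ j ∈ NT3 ∨ j ∈ NRB.map Prod.fst := by decide

theorem NQ_tr : Q4EL.all (fun s => !(normB s) || famB TRL s) = true := by decide +kernel

/-- The elements of the normaliser fixing the four base points. -/
def NQL : List ℕ := Q4EL.filter normB

theorem NQL_length : NQL.length = 3 := by decide +kernel

/-- The elements of the centraliser fixing the four base points. -/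
def CQL : List ℕ := Q4EL.filter (fun s => conjB s u7P u7P)

theorem CQL_length : CQL.length = 1 := by decide +kernel

theorem CL1_ok : CL1.all (fun s => okM24 s && conjB s u7P u7P) = true := by decide +kernel

theorem CL1_img : ∀ j ∈ List.range 3, CL1.any (fun s => Nat.beq (sv s 0) j) = true := by
  decide +kernel

theorem CL2_ok : CL2.all (fun s => okM24 s && (conjB s u7P u7P && Nat.beq (sv s 0) 0)) = true := by
  decide +kernel

theorem CL2_img : ∀ j ∈ [1, 2], CL2.any (fun s => Nat.beq (sv s 1) j) = true := by decide +kernel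

theorem CL3_ok : CL3.all (fun s => okM24 s && (conjB s u7P u7P && (Nat.beq (sv s 0) 0 &&
    Nat.beq (sv s 1) 1))) = true := by
  decide +kernel

theorem CL3_img : ∀ j ∈ NT3, CL3.any (fun s => Nat.beq (sv s 3) j) = true := by decide +kernel

/-! ### Stabiliser chains -/

theorem gPt_fix_of_lt {n : Equiv.Perm GolayPt} {i j : ℕ} (hi : i < 24) (hj : j < 24)
    (hn : n (gPt j) = gPt j) (hij : i ≠ j) : gIdx (n (gPt i)) ≠ j := by
  intro h
  apply hij
  have e : n (gPt i) = n (gPt j) := by rw [hn, ← gPt_gIdx (n (gPt i)), h]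
  have := congrArg gIdx (n.injective e)
  rwa [gIdx_gPt hi, gIdx_gPt hj] at this

/-- An element of the normaliser fixing two of the fixed points fixes the third. -/
theorem N7_fix2 {n : ↥M24} (hn : n ∈ Subgroup.normalizer (S7 : Set ↥M24))
    (h0 : (n : Equiv.Perm GolayPt) (gPt 0) = gPt 0) (h1 : (n : Equiv.Perm GolayPt) (gPt 1) = gPt 1) :
    (n : Equiv.Perm GolayPt) (gPt 2) = gPt 2 := by
  have h2 := N7_fix hn (i := 2) (by norm_num)
  have h3 := gPt_fix_of_lt (i := 2) (j := 0) (by norm_num) (by norm_num) h0 (by norm_num)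
  have h4 := gPt_fix_of_lt (i := 2) (j := 1) (by norm_num) (by norm_num) h1 (by norm_num)
  have h5 : gIdx ((n : Equiv.Perm GolayPt) (gPt 2)) = 2 := by omega
  rw [← gPt_gIdx ((n : Equiv.Perm GolayPt) (gPt 2)), h5]

/-- The orbit of `gPt 3` under the elements of the normaliser fixing the fixed points. -/
theorem N7_closure {n : ↥M24} (hn : n ∈ Subgroup.normalizer (S7 : Set ↥M24))
    (h0 : (n : Equiv.Perm GolayPt) (gPt 0) = gPt 0) (h1 : (n : Equiv.Perm GolayPt) (gPt 1) = gPt 1) :
    gIdx ((n : Equiv.Perm GolayPt) (gPt 3)) ∈ NT3 := by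
  have h2 := N7_fix2 hn h0 h1
  rcases N_cases _ (gIdx_lt ((n : Equiv.Perm GolayPt) (gPt 3))) with h | h | h
  · exfalso
    have h3 := gPt_fix_of_lt (i := 3) (j := 0) (by norm_num) (by norm_num) h0 (by norm_num)
    have h4 := gPt_fix_of_lt (i := 3) (j := 1) (by norm_num) (by norm_num) h1 (by norm_num)
    have h5 := gPt_fix_of_lt (i := 3) (j := 2) (by norm_num) (by norm_num) h2 (by norm_num)
    omega
  · exact h
  · exfalso
    rw [List.mem_map] at h
    obtain ⟨⟨j, r⟩, hjr, e⟩ := h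
    have h3 := List.all_eq_true.mp NRB_ok (j, r) hjr
    simp only [Bool.and_eq_true] at h3
    obtain ⟨ok, r0, r1, r2, r3, hall⟩ := h3
    have hv := okM24_svalid ok
    have ej : gIdx ((n : Equiv.Perm GolayPt) (gPt 3)) = j := e.symm
    have k0 : (n : Equiv.Perm GolayPt) (gPt 0) = lperm r (gPt 0) := by
      rw [h0, lperm_gPt hv (by norm_num), Nat.eq_of_beq_eq_true r0]
    have k1 : (n : Equiv.Perm GolayPt) (gPt 1) = lperm r (gPt 1) := by
      rw [h1, lperm_gPt hv (by norm_num), Nat.eq_of_beq_eq_true r1]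
    have k2 : (n : Equiv.Perm GolayPt) (gPt 2) = lperm r (gPt 2) := by
      rw [h2, lperm_gPt hv (by norm_num), Nat.eq_of_beq_eq_true r2]
    have k3 : (n : Equiv.Perm GolayPt) (gPt 3) = lperm r (gPt 3) := by
      rw [lperm_gPt hv (by norm_num), Nat.eq_of_beq_eq_true r3, ← ej, gPt_gIdx]
    obtain ⟨s, hs, es⟩ := Q4_coset n.2 (lperm_mem_M24 ok) k0 k1 k2 k3
    obtain ⟨k, hk, ek⟩ := mem_N7.mp hn
    have h4 := List.all_eq_true.mp hall s hs
    have h5 : norm3 r s = true := by
      apply norm3_complete hv (Q4EL_valid hs) hk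
      rw [← es]
      exact ek
    rw [h5] at h4
    exact absurd h4 (by decide)

theorem mem_NQL {s : ℕ} : s ∈ NQL ↔ s ∈ Q4EL ∧ normB s = true := by
  unfold NQL
  rw [List.mem_filter]

theorem mem_CQL {s : ℕ} : s ∈ CQL ↔ s ∈ Q4EL ∧ conjB s u7P u7P = true := by
  unfold CQL
  rw [List.mem_filter]

/-- The elements of the normaliser fixing `gPt 0`, `gPt 1` and `gPt 3` are listed in `NQL`. -/
theorem N7_step4 {n : ↥M24} (hn : n ∈ Subgroup.normalizer (S7 : Set ↥M24))
    (h0 : (n : Equiv.Perm GolayPt) (gPt 0) = gPt 0) (h1 : (n : Equiv.Perm GolayPt) (gPt 1) = gPt 1)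
    (h3 : (n : Equiv.Perm GolayPt) (gPt 3) = gPt 3) :
    ∃ s ∈ NQL, (n : Equiv.Perm GolayPt) = lperm s := by
  have h2 := N7_fix2 hn h0 h1
  obtain ⟨s, hs, es⟩ := Q4_coset (r := 1) n.2 (one_mem _) h0 h1 h2 h3
  rw [one_mul] at es
  obtain ⟨k, hk, ek⟩ := mem_N7.mp hn
  refine ⟨s, mem_NQL.mpr ⟨hs, ?_⟩, es⟩
  apply normB_complete (Q4EL_valid hs) hk
  rw [← es]
  exact ek

/-- Packed elements as elements of `M24`. -/
noncomputable def mkM (s : ℕ) (h : okM24 s = true) : ↥M24 := ⟨lperm s, lperm_mem_M24 h⟩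

theorem N7_reach1 : ∀ j ∈ List.range 3, ∃ n ∈ Subgroup.normalizer (S7 : Set ↥M24),
    (n : Equiv.Perm GolayPt) (gPt 0) = gPt j ∧ (n : Equiv.Perm GolayPt) • TR7 = TR7 := by
  intro j hj
  have h1 := NL1_img j hj
  rw [List.any_eq_true] at h1
  obtain ⟨u, hu, e⟩ := h1
  have h2 := List.all_eq_true.mp NL1_ok u hu
  simp only [Bool.and_eq_true] at h2
  obtain ⟨ok, nb, tr⟩ := h2
  refine ⟨mkM u ok, normB_sound ok nb, ?_, fam_fix (okM24_svalid ok) tr⟩
  show lperm u (gPt 0) = gPt j
  rw [lperm_gPt (okM24_svalid ok) (by norm_num), Nat.eq_of_beq_eq_true e]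

theorem N7_reach2 : ∀ j ∈ [1, 2], ∃ n ∈ Subgroup.normalizer (S7 : Set ↥M24),
    (n : Equiv.Perm GolayPt) (gPt 0) = gPt 0 ∧ (n : Equiv.Perm GolayPt) (gPt 1) = gPt j ∧
    (n : Equiv.Perm GolayPt) • TR7 = TR7 := by
  intro j hj
  have h1 := NL2_img j hj
  rw [List.any_eq_true] at h1
  obtain ⟨u, hu, e⟩ := h1
  have h2 := List.all_eq_true.mp NL2_ok u hu
  simp only [Bool.and_eq_true] at h2
  obtain ⟨ok, nb, tr, u0⟩ := h2
  refine ⟨mkM u ok, normB_sound ok nb, ?_, ?_, fam_fix (okM24_svalid ok) tr⟩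
  · show lperm u (gPt 0) = gPt 0
    rw [lperm_gPt (okM24_svalid ok) (by norm_num), Nat.eq_of_beq_eq_true u0]
  · show lperm u (gPt 1) = gPt j
    rw [lperm_gPt (okM24_svalid ok) (by norm_num), Nat.eq_of_beq_eq_true e]

theorem N7_reach3 : ∀ j ∈ NT3, ∃ n ∈ Subgroup.normalizer (S7 : Set ↥M24),
    (n : Equiv.Perm GolayPt) (gPt 0) = gPt 0 ∧ (n : Equiv.Perm GolayPt) (gPt 1) = gPt 1 ∧
    (n : Equiv.Perm GolayPt) (gPt 3) = gPt j ∧ (n : Equiv.Perm GolayPt) • TR7 = TR7 := by
  intro j hj
  have h1 := NL3_img j hj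
  rw [List.any_eq_true] at h1
  obtain ⟨u, hu, e⟩ := h1
  have h2 := List.all_eq_true.mp NL3_ok u hu
  simp only [Bool.and_eq_true] at h2
  obtain ⟨ok, nb, tr, u0, u1⟩ := h2
  refine ⟨mkM u ok, normB_sound ok nb, ?_, ?_, ?_, fam_fix (okM24_svalid ok) tr⟩
  · show lperm u (gPt 0) = gPt 0
    rw [lperm_gPt (okM24_svalid ok) (by norm_num), Nat.eq_of_beq_eq_true u0]
  · show lperm u (gPt 1) = gPt 1
    rw [lperm_gPt (okM24_svalid ok) (by norm_num), Nat.eq_of_beq_eq_true u1]
  · show lperm u (gPt 3) = gPt j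
    rw [lperm_gPt (okM24_svalid ok) (by norm_num), Nat.eq_of_beq_eq_true e]

theorem inv_mul_apply_eq {a n : Equiv.Perm GolayPt} {x y : GolayPt} (ha : a x = y) (hn : n x = y) :
    (a⁻¹ * n) x = x := by
  rw [Equiv.Perm.mul_apply, Equiv.Perm.inv_eq_iff_eq, ha, hn]

/-- The normaliser fixes the trio. -/
theorem N7_trio {n : ↥M24} (hn : n ∈ Subgroup.normalizer (S7 : Set ↥M24)) :
    (n : Equiv.Perm GolayPt) • TR7 = TR7 := by
  obtain ⟨a, ha, ea, ta⟩ := N7_reach1 _ (List.mem_range.mpr (N7_fix hn (i := 0) (by norm_num)))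
  rw [gPt_gIdx] at ea
  have hn1 : a⁻¹ * n ∈ Subgroup.normalizer (S7 : Set ↥M24) := mul_mem (inv_mem ha) hn
  have e1 : ((a⁻¹ * n : ↥M24) : Equiv.Perm GolayPt) (gPt 0) = gPt 0 := inv_mul_apply_eq ea rfl
  have hj2 : gIdx (((a⁻¹ * n : ↥M24) : Equiv.Perm GolayPt) (gPt 1)) ∈ [1, 2] := by
    have h1 := N7_fix hn1 (i := 1) (by norm_num)
    have h2 := gPt_fix_of_lt (i := 1) (j := 0) (by norm_num) (by norm_num) e1 (by norm_num)
    have h3 : gIdx (((a⁻¹ * n : ↥M24) : Equiv.Perm GolayPt) (gPt 1)) = 1 ∨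
        gIdx (((a⁻¹ * n : ↥M24) : Equiv.Perm GolayPt) (gPt 1)) = 2 := by omega
    rcases h3 with h3 | h3 <;> rw [h3] <;> simp
  obtain ⟨b, hb, eb0, eb, tb⟩ := N7_reach2 _ hj2
  rw [gPt_gIdx] at eb
  have hn2 : b⁻¹ * (a⁻¹ * n) ∈ Subgroup.normalizer (S7 : Set ↥M24) := mul_mem (inv_mem hb) hn1
  have e2 : ((b⁻¹ * (a⁻¹ * n) : ↥M24) : Equiv.Perm GolayPt) (gPt 0) = gPt 0 :=
    inv_mul_apply_eq eb0 e1
  have e2' : ((b⁻¹ * (a⁻¹ * n) : ↥M24) : Equiv.Perm GolayPt) (gPt 1) = gPt 1 :=
    inv_mul_apply_eq eb rfl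
  obtain ⟨c, hc, ec0, ec1, ec, tc⟩ := N7_reach3 _ (N7_closure hn2 e2 e2')
  rw [gPt_gIdx] at ec
  have hn3 : c⁻¹ * (b⁻¹ * (a⁻¹ * n)) ∈ Subgroup.normalizer (S7 : Set ↥M24) :=
    mul_mem (inv_mem hc) hn2
  have e3 : ((c⁻¹ * (b⁻¹ * (a⁻¹ * n)) : ↥M24) : Equiv.Perm GolayPt) (gPt 0) = gPt 0 :=
    inv_mul_apply_eq ec0 e2
  have e3' : ((c⁻¹ * (b⁻¹ * (a⁻¹ * n)) : ↥M24) : Equiv.Perm GolayPt) (gPt 1) = gPt 1 :=
    inv_mul_apply_eq ec1 e2'
  have e3'' : ((c⁻¹ * (b⁻¹ * (a⁻¹ * n)) : ↥M24) : Equiv.Perm GolayPt) (gPt 3) = gPt 3 :=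
    inv_mul_apply_eq ec rfl
  obtain ⟨s, hs, es⟩ := N7_step4 hn3 e3 e3' e3''
  obtain ⟨hs1, hs2⟩ := mem_NQL.mp hs
  have h3 := List.all_eq_true.mp NQ_tr s hs1
  rw [hs2] at h3
  have ts := fam_fix (Q4EL_valid hs1) h3
  have en : (n : Equiv.Perm GolayPt) = (a : Equiv.Perm GolayPt) * ((b : Equiv.Perm GolayPt) *
      ((c : Equiv.Perm GolayPt) * lperm s)) := by
    rw [← es]
    show (n : Equiv.Perm GolayPt) = (a : Equiv.Perm GolayPt) * ((b : Equiv.Perm GolayPt) *
      ((c : Equiv.Perm GolayPt) * ((c : Equiv.Perm GolayPt)⁻¹ * ((b : Equiv.Perm GolayPt)⁻¹ *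
      ((a : Equiv.Perm GolayPt)⁻¹ * (n : Equiv.Perm GolayPt))))))
    group
  rw [en, mul_smul, mul_smul, mul_smul]
  show (a : Equiv.Perm GolayPt) • (b : Equiv.Perm GolayPt) • (c : Equiv.Perm GolayPt) •
    lperm s • (TRL.map fs).toFinset = TR7
  rw [ts]
  show (a : Equiv.Perm GolayPt) • (b : Equiv.Perm GolayPt) • (c : Equiv.Perm GolayPt) • TR7 = TR7
  rw [tc, tb, ta]

/-- The normaliser of the base subgroup of order seven has order `126`. -/
theorem card_N7 : Nat.card ↥(Subgroup.normalizer (S7 : Set ↥M24)) = 126 := by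
  have h1 := card_eq_orbit_mul_inf (Subgroup.normalizer (S7 : Set ↥M24)) (gPt 0)
  have h2 := card_eq_orbit_mul_inf
    (Subgroup.normalizer (S7 : Set ↥M24) ⊓ MulAction.stabilizer ↥M24 (gPt 0)) (gPt 1)
  have h3 := card_eq_orbit_mul_inf
    (Subgroup.normalizer (S7 : Set ↥M24) ⊓ MulAction.stabilizer ↥M24 (gPt 0) ⊓
      MulAction.stabilizer ↥M24 (gPt 1)) (gPt 3)
  have o1 : (MulAction.orbit ↥(Subgroup.normalizer (S7 : Set ↥M24)) (gPt 0)).ncard = 3 := by
    refine orbit_ncard_of (L := List.range 3) (List.nodup_range) (by decide) ?_ ?_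
    · intro n hn
      exact List.mem_range.mpr (N7_fix hn (by norm_num))
    · intro j hj
      obtain ⟨n, hn, e, -⟩ := N7_reach1 j hj
      exact ⟨n, hn, e⟩
  have o2 : (MulAction.orbit ↥(Subgroup.normalizer (S7 : Set ↥M24) ⊓
      MulAction.stabilizer ↥M24 (gPt 0)) (gPt 1)).ncard = 2 := by
    refine orbit_ncard_of (L := [1, 2]) (by decide) (by decide) ?_ ?_
    · rintro n ⟨hn, hn0⟩
      have e1 : (n : Equiv.Perm GolayPt) (gPt 0) = gPt 0 := stab_apply hn0
      have h1 := N7_fix hn (i := 1) (by norm_num)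
      have h2 := gPt_fix_of_lt (i := 1) (j := 0) (by norm_num) (by norm_num) e1 (by norm_num)
      have h3 : gIdx ((n : Equiv.Perm GolayPt) (gPt 1)) = 1 ∨
          gIdx ((n : Equiv.Perm GolayPt) (gPt 1)) = 2 := by omega
      rcases h3 with h3 | h3 <;> rw [h3] <;> simp
    · intro j hj
      obtain ⟨n, hn, e0, e, -⟩ := N7_reach2 j hj
      exact ⟨n, ⟨hn, stab_mk e0⟩, e⟩
  have o3 : (MulAction.orbit ↥(Subgroup.normalizer (S7 : Set ↥M24) ⊓
      MulAction.stabilizer ↥M24 (gPt 0) ⊓ MulAction.stabilizer ↥M24 (gPt 1)) (gPt 3)).ncard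
      = 7 := by
    refine orbit_ncard_of (L := NT3) (by decide) (by decide) ?_ ?_
    · rintro n ⟨⟨hn, hn0⟩, hn1⟩
      exact N7_closure hn (stab_apply hn0) (stab_apply hn1)
    · intro j hj
      obtain ⟨n, hn, e0, e1, e, -⟩ := N7_reach3 j hj
      exact ⟨n, ⟨⟨hn, stab_mk e0⟩, stab_mk e1⟩, e⟩
  have c4 : Nat.card ↥(Subgroup.normalizer (S7 : Set ↥M24) ⊓ MulAction.stabilizer ↥M24 (gPt 0) ⊓
      MulAction.stabilizer ↥M24 (gPt 1) ⊓ MulAction.stabilizer ↥M24 (gPt 3)) = 3 := by
    refine Eq.trans (card_of_list' (EL := NQL) (key := keyN 4 5 6)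
      (keyN_eq (by norm_num) (by norm_num) (by norm_num)) ?_ ?_ ?_ ?_) NQL_length
    · exact List.Nodup.sublist (List.Sublist.map _ List.filter_sublist) Q4EL_nodup
    · intro s hs
      exact Q4EL_valid (mem_NQL.mp hs).1
    · intro s hs
      obtain ⟨hs1, hs2⟩ := mem_NQL.mp hs
      have hok : okM24 s = true := by
        have := Q4EL_okF hs1
        simp only [okF, Bool.and_eq_true] at this
        exact this.1
      have hm := lperm_mem_SF (Q4EL_okF hs1)
      have f0 : lperm s (gPt 0) = gPt 0 := SF_fix_pt hm (j := 0) (by norm_num) (by simp)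
      have f1 : lperm s (gPt 1) = gPt 1 := SF_fix_pt hm (j := 1) (by norm_num) (by simp)
      have f3 : lperm s (gPt 3) = gPt 3 := SF_fix_pt hm (j := 3) (by norm_num) (by simp)
      exact ⟨lperm_mem_M24 hok, Subgroup.mem_inf.mpr ⟨Subgroup.mem_inf.mpr
        ⟨Subgroup.mem_inf.mpr ⟨normB_sound hok hs2, stab_mk f0⟩, stab_mk f1⟩, stab_mk f3⟩⟩
    · intro g hgg
      obtain ⟨hgg1, hg3⟩ := Subgroup.mem_inf.mp hgg
      obtain ⟨hgg2, hg1⟩ := Subgroup.mem_inf.mp hgg1
      obtain ⟨hg, hg0⟩ := Subgroup.mem_inf.mp hgg2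
      have e0 := stab_apply hg0
      have e1 := stab_apply hg1
      have e3 := stab_apply hg3
      exact N7_step4 hg e0 e1 e3
  rw [o1, h2, o2, h3, o3, c4] at h1
  exact h1

theorem C7_le : Subgroup.centralizer (S7 : Set ↥M24) ≤ Subgroup.normalizer (S7 : Set ↥M24) :=
  Subgroup.centralizer_le_normalizer _

theorem conjB_mem_C7 {s : ℕ} (hs : okM24 s = true) (h : conjB s u7P u7P = true) :
    mkM s hs ∈ Subgroup.centralizer (S7 : Set ↥M24) :=
  mem_C7.mpr (conjB_sound (okM24_svalid hs) u7P_valid u7P_valid h)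

theorem C7_reach1 : ∀ j ∈ List.range 3, ∃ n ∈ Subgroup.centralizer (S7 : Set ↥M24),
    (n : Equiv.Perm GolayPt) (gPt 0) = gPt j := by
  intro j hj
  have h1 := CL1_img j hj
  rw [List.any_eq_true] at h1
  obtain ⟨u, hu, e⟩ := h1
  have h2 := List.all_eq_true.mp CL1_ok u hu
  simp only [Bool.and_eq_true] at h2
  obtain ⟨ok, cb⟩ := h2
  refine ⟨mkM u ok, conjB_mem_C7 ok cb, ?_⟩
  show lperm u (gPt 0) = gPt j
  rw [lperm_gPt (okM24_svalid ok) (by norm_num), Nat.eq_of_beq_eq_true e]

theorem C7_reach2 : ∀ j ∈ [1, 2], ∃ n ∈ Subgroup.centralizer (S7 : Set ↥M24),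
    (n : Equiv.Perm GolayPt) (gPt 0) = gPt 0 ∧ (n : Equiv.Perm GolayPt) (gPt 1) = gPt j := by
  intro j hj
  have h1 := CL2_img j hj
  rw [List.any_eq_true] at h1
  obtain ⟨u, hu, e⟩ := h1
  have h2 := List.all_eq_true.mp CL2_ok u hu
  simp only [Bool.and_eq_true] at h2
  obtain ⟨ok, cb, u0⟩ := h2
  refine ⟨mkM u ok, conjB_mem_C7 ok cb, ?_, ?_⟩
  · show lperm u (gPt 0) = gPt 0
    rw [lperm_gPt (okM24_svalid ok) (by norm_num), Nat.eq_of_beq_eq_true u0]
  · show lperm u (gPt 1) = gPt j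
    rw [lperm_gPt (okM24_svalid ok) (by norm_num), Nat.eq_of_beq_eq_true e]

theorem C7_reach3 : ∀ j ∈ NT3, ∃ n ∈ Subgroup.centralizer (S7 : Set ↥M24),
    (n : Equiv.Perm GolayPt) (gPt 0) = gPt 0 ∧ (n : Equiv.Perm GolayPt) (gPt 1) = gPt 1 ∧
    (n : Equiv.Perm GolayPt) (gPt 3) = gPt j := by
  intro j hj
  have h1 := CL3_img j hj
  rw [List.any_eq_true] at h1
  obtain ⟨u, hu, e⟩ := h1
  have h2 := List.all_eq_true.mp CL3_ok u hu
  simp only [Bool.and_eq_true] at h2
  obtain ⟨ok, cb, u0, u1⟩ := h2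
  refine ⟨mkM u ok, conjB_mem_C7 ok cb, ?_, ?_, ?_⟩
  · show lperm u (gPt 0) = gPt 0
    rw [lperm_gPt (okM24_svalid ok) (by norm_num), Nat.eq_of_beq_eq_true u0]
  · show lperm u (gPt 1) = gPt 1
    rw [lperm_gPt (okM24_svalid ok) (by norm_num), Nat.eq_of_beq_eq_true u1]
  · show lperm u (gPt 3) = gPt j
    rw [lperm_gPt (okM24_svalid ok) (by norm_num), Nat.eq_of_beq_eq_true e]

/-- The centraliser of the base subgroup of order seven has order `42`. -/
theorem card_C7 : Nat.card ↥(Subgroup.centralizer (S7 : Set ↥M24)) = 42 := by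
  have h1 := card_eq_orbit_mul_inf (Subgroup.centralizer (S7 : Set ↥M24)) (gPt 0)
  have h2 := card_eq_orbit_mul_inf
    (Subgroup.centralizer (S7 : Set ↥M24) ⊓ MulAction.stabilizer ↥M24 (gPt 0)) (gPt 1)
  have h3 := card_eq_orbit_mul_inf
    (Subgroup.centralizer (S7 : Set ↥M24) ⊓ MulAction.stabilizer ↥M24 (gPt 0) ⊓
      MulAction.stabilizer ↥M24 (gPt 1)) (gPt 3)
  have o1 : (MulAction.orbit ↥(Subgroup.centralizer (S7 : Set ↥M24)) (gPt 0)).ncard = 3 := by
    refine orbit_ncard_of (L := List.range 3) (List.nodup_range) (by decide) ?_ ?_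
    · intro n hn
      exact List.mem_range.mpr (N7_fix (C7_le hn) (by norm_num))
    · exact C7_reach1
  have o2 : (MulAction.orbit ↥(Subgroup.centralizer (S7 : Set ↥M24) ⊓
      MulAction.stabilizer ↥M24 (gPt 0)) (gPt 1)).ncard = 2 := by
    refine orbit_ncard_of (L := [1, 2]) (by decide) (by decide) ?_ ?_
    · rintro n ⟨hn, hn0⟩
      have e1 : (n : Equiv.Perm GolayPt) (gPt 0) = gPt 0 := stab_apply hn0
      have h1 := N7_fix (C7_le hn) (i := 1) (by norm_num)
      have h2 := gPt_fix_of_lt (i := 1) (j := 0) (by norm_num) (by norm_num) e1 (by norm_num)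
      have h3 : gIdx ((n : Equiv.Perm GolayPt) (gPt 1)) = 1 ∨
          gIdx ((n : Equiv.Perm GolayPt) (gPt 1)) = 2 := by omega
      rcases h3 with h3 | h3 <;> rw [h3] <;> simp
    · intro j hj
      obtain ⟨n, hn, e0, e⟩ := C7_reach2 j hj
      exact ⟨n, ⟨hn, stab_mk e0⟩, e⟩
  have o3 : (MulAction.orbit ↥(Subgroup.centralizer (S7 : Set ↥M24) ⊓
      MulAction.stabilizer ↥M24 (gPt 0) ⊓ MulAction.stabilizer ↥M24 (gPt 1)) (gPt 3)).ncard
      = 7 := by
    refine orbit_ncard_of (L := NT3) (by decide) (by decide) ?_ ?_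
    · rintro n ⟨⟨hn, hn0⟩, hn1⟩
      exact N7_closure (C7_le hn) (stab_apply hn0)
        (stab_apply hn1)
    · intro j hj
      obtain ⟨n, hn, e0, e1, e⟩ := C7_reach3 j hj
      exact ⟨n, ⟨⟨hn, stab_mk e0⟩, stab_mk e1⟩, e⟩
  have c4 : Nat.card ↥(Subgroup.centralizer (S7 : Set ↥M24) ⊓ MulAction.stabilizer ↥M24 (gPt 0) ⊓
      MulAction.stabilizer ↥M24 (gPt 1) ⊓ MulAction.stabilizer ↥M24 (gPt 3)) = 1 := by
    refine Eq.trans (card_of_list' (EL := CQL) (key := keyN 4 5 6)
      (keyN_eq (by norm_num) (by norm_num) (by norm_num)) ?_ ?_ ?_ ?_) CQL_length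
    · exact List.Nodup.sublist (List.Sublist.map _ List.filter_sublist) Q4EL_nodup
    · intro s hs
      exact Q4EL_valid (mem_CQL.mp hs).1
    · intro s hs
      obtain ⟨hs1, hs2⟩ := mem_CQL.mp hs
      have hok : okM24 s = true := by
        have := Q4EL_okF hs1
        simp only [okF, Bool.and_eq_true] at this
        exact this.1
      have hm := lperm_mem_SF (Q4EL_okF hs1)
      have f0 : lperm s (gPt 0) = gPt 0 := SF_fix_pt hm (j := 0) (by norm_num) (by simp)
      have f1 : lperm s (gPt 1) = gPt 1 := SF_fix_pt hm (j := 1) (by norm_num) (by simp)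
      have f3 : lperm s (gPt 3) = gPt 3 := SF_fix_pt hm (j := 3) (by norm_num) (by simp)
      exact ⟨lperm_mem_M24 hok, Subgroup.mem_inf.mpr ⟨Subgroup.mem_inf.mpr
        ⟨Subgroup.mem_inf.mpr ⟨conjB_mem_C7 hok hs2, stab_mk f0⟩, stab_mk f1⟩, stab_mk f3⟩⟩
    · intro g hgg
      obtain ⟨hgg1, hg3⟩ := Subgroup.mem_inf.mp hgg
      obtain ⟨hgg2, hg1⟩ := Subgroup.mem_inf.mp hgg1
      obtain ⟨hg, hg0⟩ := Subgroup.mem_inf.mp hgg2
      have e0 := stab_apply hg0
      have e1 := stab_apply hg1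
      have e3 := stab_apply hg3
      have e2 := N7_fix2 (C7_le hg) e0 e1
      obtain ⟨s, hs, es⟩ := Q4_coset (r := 1) g.2 (one_mem _) e0 e1 e2 e3
      rw [one_mul] at es
      refine ⟨s, mem_CQL.mpr ⟨hs, ?_⟩, es⟩
      apply conjB_complete (Q4EL_valid hs) u7P_valid u7P_valid
      rw [← es]
      exact mem_C7.mp hg
  rw [o1, h2, o2, h3, o3, c4] at h1
  exact h1

/-- The centraliser of the base subgroup of order seven is not abelian. -/
theorem C7_nonabelian : ∃ x ∈ Subgroup.centralizer (S7 : Set ↥M24),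
    ∃ y ∈ Subgroup.centralizer (S7 : Set ↥M24), x * y ≠ y * x := by
  obtain ⟨x, hx, ex⟩ := C7_reach1 1 (by decide)
  obtain ⟨y, hy, ey0, ey⟩ := C7_reach2 2 (by decide)
  refine ⟨x, hx, y, hy, ?_⟩
  intro h
  have h1 := congrArg (fun z : ↥M24 => (z : Equiv.Perm GolayPt) (gPt 0)) h
  have h2 : (x : Equiv.Perm GolayPt) ((y : Equiv.Perm GolayPt) (gPt 0)) =
      (y : Equiv.Perm GolayPt) ((x : Equiv.Perm GolayPt) (gPt 0)) := h1
  rw [ey0, ex, ey] at h2
  exact gPt_ne (by norm_num) (by norm_num) (by norm_num : (1 : ℕ) ≠ 2) h2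

end Cfsg.Agent.H34
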