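import Cfsg.Agent.H34.M22Sub
import Cfsg.Agent.H34.M24Aut
import Cfsg.Agent.H34.M24Syl7

/-!
# The subgroup `PSL(2, 23)` of `M24` and the subgroup `23:11` of `M23` (helper34 library)

The maps `t ↦ t + 1`, `t ↦ 2 t`, `t ↦ -1/t` of the projective line over `ZMod 23` are the packed
permutations `a24P`, `b24P`, `cinvP`.  Sylow counting at the primes 23 and 11 shows that a subgroup
of `M23` containing the first two has order 253 or is `M23`, and that a subgroup of `M24` containing
them and moving the extra point has order 6072 or is `M24`.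
-/

set_option autoImplicit false

namespace Cfsg.Agent.H34

open Cfsg Cfsg.Agent.H9
open scoped Pointwise

/-! ### The generators as packed permutations -/

/-- The packed permutation `t ↦ -1/t`. -/
def cinvP : ℕ := 1795248432537898728475572672376535

/-- The packed permutation `t ↦ -t` (not in `M24`). -/
def negP : ℕ := 956765793662171983829532039519557312

/-- The packed permutation `cubeTwist`. -/
def dtwP : ℕ := 974380510768821363662145534143076928

theorem cinv_ok : okM24 cinvP = true := by decide +kernel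
theorem cinv_valid : svalid cinvP = true := okM24_svalid cinv_ok
theorem cinv_H : lperm cinvP ∈ M24 := lperm_mem_M24 cinv_ok
theorem negP_valid : svalid negP = true := by decide +kernel
theorem dtw_ok : okM24 dtwP = true := by decide +kernel
theorem dtw_valid : svalid dtwP = true := okM24_svalid dtw_ok

theorem addRight_eq : Equiv.optionCongr (Equiv.addRight (1 : ZMod 23)) = lperm a24P := by
  apply Equiv.ext
  intro p
  rw [lperm_apply a24_valid]
  revert p
  decide +kernel

theorem projInv_eq : projInv = lperm cinvP := by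
  apply Equiv.ext
  intro p
  rw [lperm_apply cinv_valid]
  revert p
  decide +kernel

theorem sq_tab : ∀ x : ZMod 23, x ≠ 0 → ∃ j, j < 11 ∧ ∀ p : GolayPt,
    Option.map (fun t => x * x * t) p = gPt (sv (pwOf BL11 j) (gIdx p)) := by
  decide +kernel

theorem sq_gen (u : (ZMod 23)ˣ) (hu : IsSquare u) :
    ∃ j, j < 11 ∧ Equiv.optionCongr (Units.mulLeft u) = lperm b24P ^ j := by
  obtain ⟨r, rfl⟩ := hu
  have hr : (r : ZMod 23) ≠ 0 := by
    intro h
    have h1 := r.mul_inv
    rw [h, zero_mul] at h1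
    exact absurd h1 (by decide)
  obtain ⟨j, hj, h⟩ := sq_tab (r : ZMod 23) hr
  obtain ⟨hv, he⟩ := pwOf_spec b24_valid BL11_ok (k := j) (by rw [BL11_len]; omega)
  refine ⟨j, hj, ?_⟩
  rw [← he]
  apply Equiv.ext
  intro p
  rw [lperm_apply hv, ← h p]
  cases p with
  | none => rfl
  | some t => simp

theorem two_tab : ∀ p : GolayPt,
    gPt (sv b24P (gIdx p)) = Option.map (fun t => (2 : ZMod 23) * t) p := by decide +kernel

theorem two_gen : ∃ u : (ZMod 23)ˣ, IsSquare u ∧ lperm b24P = Equiv.optionCongr (Units.mulLeft u) := by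
  refine ⟨⟨(2 : ZMod 23), 12, by decide, by decide⟩,
    ⟨⟨(5 : ZMod 23), 14, by decide, by decide⟩, ?_⟩, ?_⟩
  · apply Units.ext
    show (2 : ZMod 23) = 5 * 5
    decide
  · apply Equiv.ext
    intro p
    rw [lperm_apply b24_valid, two_tab]
    cases p with
    | none => rfl
    | some t => simp

/-! ### An invariant of `PSL(2, 23)` on triples of points -/

/-- Quadratic character on residues (`true` on the nonzero squares modulo 23). -/
def chiB (x : ℕ) : Bool := tb 0x5335e (Nat.mod x 23)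

/-- The invariant of `PSL(2, 23)` on ordered triples of indices of points. -/
def triB (i j k : ℕ) : Bool :=
  cond (Nat.beq i j || (Nat.beq j k || Nat.beq i k)) false
    (cond (Nat.beq i 23) (chiB (Nat.sub (Nat.add k 23) j))
      (cond (Nat.beq j 23) (chiB (Nat.sub (Nat.add i 23) k))
        (cond (Nat.beq k 23) (chiB (Nat.sub (Nat.add j 23) i))
          (chiB (Nat.mul (Nat.mul (Nat.sub (Nat.add i 23) j) (Nat.sub (Nat.add j 23) k))
            (Nat.sub (Nat.add k 23) i))))))

/-- The permutations preserving the invariant `triB`. -/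
def PT23 : Subgroup (Equiv.Perm GolayPt) where
  carrier := {g | ∀ p q r : GolayPt, triB (gIdx (g p)) (gIdx (g q)) (gIdx (g r)) =
    triB (gIdx p) (gIdx q) (gIdx r)}
  one_mem' := fun _ _ _ => rfl
  mul_mem' := by
    intro g h hg hh p q r
    show triB (gIdx (g (h p))) (gIdx (g (h q))) (gIdx (g (h r))) = _
    rw [hg, hh]
  inv_mem' := by
    intro g hg p q r
    have h := hg (g⁻¹ p) (g⁻¹ q) (g⁻¹ r)
    rw [perm_apply_inv, perm_apply_inv, perm_apply_inv] at h
    exact h.symm

/-- Kernel-friendly check that a packed permutation preserves `triB`. -/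
def triOK (s : ℕ) : Bool :=
  allB (fun i => allB (fun j => allB (fun k =>
    !(xor (triB (sv s i) (sv s j) (sv s k)) (triB i j k))) 24) 24) 24

theorem triOK_mem {s : ℕ} (hv : svalid s = true) (h : triOK s = true) : lperm s ∈ PT23 := by
  intro p q r
  rw [gIdx_lperm hv, gIdx_lperm hv, gIdx_lperm hv]
  have h1 := (allB_iff _ _).mp ((allB_iff _ _).mp ((allB_iff _ _).mp h _ (gIdx_lt p)) _
    (gIdx_lt q)) _ (gIdx_lt r)
  revert h1
  cases triB (sv s (gIdx p)) (sv s (gIdx q)) (sv s (gIdx r)) <;>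
    cases triB (gIdx p) (gIdx q) (gIdx r) <;> simp

theorem tri_a : triOK a24P = true := by decide +kernel
theorem tri_b : triOK b24P = true := by decide +kernel
theorem tri_c : triOK cinvP = true := by decide +kernel

theorem dtw_tri : triB (sv dtwP 0) (sv dtwP 1) (sv dtwP 2) ≠ triB 0 1 2 := by decide +kernel

theorem dtw_not_PT : lperm dtwP ∉ PT23 := by
  intro h
  have h1 := h (gPt 0) (gPt 1) (gPt 2)
  rw [gIdx_lperm dtw_valid, gIdx_lperm dtw_valid, gIdx_lperm dtw_valid,
    gIdx_gPt (by norm_num), gIdx_gPt (by norm_num), gIdx_gPt (by norm_num)] at h1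
  exact dtw_tri h1

/-! ### Orders of the generators -/

theorem a24_pow23 : lperm a24P ^ 23 = 1 := by
  have h := pw_order a24_valid AL23_ok AL23_last
  rw [AL23_len] at h
  exact h

theorem a24_pow22 : lperm a24P ^ 22 = (lperm a24P)⁻¹ := by
  rw [eq_inv_iff_mul_eq_one, ← pow_succ]
  exact a24_pow23

theorem ord_a24P : orderOf (lperm a24P) = 23 := by
  haveI : Fact (Nat.Prime 23) := ⟨by norm_num⟩
  exact orderOf_eq_prime a24_pow23 a24_ne_one

theorem ord_b24P : orderOf (lperm b24P) = 11 := by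
  haveI : Fact (Nat.Prime 11) := ⟨by norm_num⟩
  exact orderOf_eq_prime a22_pow11 b24_ne_one

theorem ord_b22P : orderOf (lperm b22P) = 5 := by
  haveI : Fact (Nat.Prime 5) := ⟨by norm_num⟩
  exact orderOf_eq_prime b22_pow5 b22_ne_one

/-! ### The normaliser of the subgroup of order 23 -/

theorem neg_conj : conjB negP a24P (pwOf AL23 AL23.length) = true := by decide +kernel

theorem neg_img : isGolay (pmN negP 0x149f) = false := by decide +kernel

theorem neg_not_M24 : lperm negP ∉ M24 := by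
  intro h
  have h1 : fs 0x149f ∈ supports (golayCode : Set (GolayPt → ZMod 2)) :=
    (fs_mem_supports_iff (by norm_num)).mpr (by decide +kernel)
  have h2 := (smul_mem_supports h).mpr h1
  rw [lperm_smul_fs negP_valid, fs_mem_supports_iff (pmN_lt negP_valid _), neg_img] at h2
  exact absurd h2 (by decide)

/-- No element of `M24` inverts the element of order 23. -/
theorem a24_not_inv {h : Equiv.Perm GolayPt} (hh : h ∈ M24)
    (he : h * lperm a24P = (lperm a24P)⁻¹ * h) : False := by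
  obtain ⟨hpv, hpe⟩ := pwOf_spec a24_valid AL23_ok (k := AL23.length) (by omega)
  have h1 := conjB_sound negP_valid a24_valid hpv neg_conj
  rw [hpe, AL23_len, a24_pow22] at h1
  have h2 : lperm negP * (lperm a24P)⁻¹ = lperm a24P * lperm negP := by
    have h3 : lperm negP = (lperm a24P)⁻¹ * lperm negP * (lperm a24P)⁻¹ := by
      rw [← h1]
      group
    calc lperm negP * (lperm a24P)⁻¹
        = lperm a24P * ((lperm a24P)⁻¹ * lperm negP * (lperm a24P)⁻¹) := by group
      _ = lperm a24P * lperm negP := by rw [← h3]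
  have hc : (lperm negP * h) * lperm a24P = lperm a24P * (lperm negP * h) := by
    rw [mul_assoc, he, ← mul_assoc, h2, mul_assoc]
  obtain ⟨k, hk⟩ := cent_a24 hc
  apply neg_not_M24
  have e : lperm negP = lperm a24P ^ k * h⁻¹ := by
    rw [← hk]
    group
  rw [e]
  exact mul_mem (pow_mem a24_H k) (inv_mem hh)

/-- The normaliser in `M24` of the subgroup of order 23. -/
theorem norm_a24 {z : Equiv.Perm GolayPt} (hz : z ∈ M24)
    (hn : z * lperm a24P * z⁻¹ ∈ Subgroup.zpowers (lperm a24P)) :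
    ∃ j i : ℕ, j < 11 ∧ i < 23 ∧ z = (lperm b24P ^ j)⁻¹ * lperm a24P ^ i := by
  obtain ⟨k, hk, e⟩ := zpowers_pw (by norm_num) a24_pow23 hn
  have e' : z * lperm a24P = lperm a24P ^ k * z := by
    rw [← e]
    group
  have hk0 : k ≠ 0 := by
    rintro rfl
    rw [pow_zero, one_mul] at e'
    exact a24_ne_one (mul_left_cancel (e'.trans (mul_one z).symm))
  have ht := List.all_eq_true.mp N24_tab k (List.mem_range.mpr (by rw [AL23_len]; omega))
  have hk0' : Nat.beq k 0 = false := by
    cases hb : Nat.beq k 0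
    · rfl
    · exact absurd (Nat.eq_of_beq_eq_true hb) hk0
  rw [hk0', Bool.false_or] at ht
  obtain ⟨j, hj, hjj⟩ := List.any_eq_true.mp ht
  have hj' : j < BL11.length + 1 := List.mem_range.mp hj
  obtain ⟨hbv, hbe⟩ := pwOf_spec b24_valid BL11_ok hj'
  obtain ⟨hav, hae⟩ := pwOf_spec a24_valid AL23_ok (k := k) (by rw [AL23_len]; omega)
  rw [Bool.or_eq_true] at hjj
  rcases hjj with h | h
  · have h1 := conjB_sound hbv hav a24_valid h
    rw [hbe, hae] at h1
    have hc : (lperm b24P ^ j * z) * lperm a24P = lperm a24P * (lperm b24P ^ j * z) := by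
      rw [mul_assoc, e', ← mul_assoc, h1, mul_assoc]
    obtain ⟨i, hi⟩ := cent_a24 hc
    refine ⟨j, i % 23, by rw [BL11_len] at hj'; exact hj', Nat.mod_lt _ (by norm_num), ?_⟩
    rw [← pow_eq_pow_mod i a24_pow23, ← hi]
    group
  · exfalso
    obtain ⟨hlv, hle⟩ := pwOf_spec a24_valid AL23_ok (k := AL23.length) (by omega)
    have h1 := conjB_sound hbv hav hlv h
    rw [hbe, hae, hle, AL23_len, a24_pow22] at h1
    apply a24_not_inv (h := lperm b24P ^ j * z) (mul_mem (pow_mem b24_H j) hz)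
    rw [mul_assoc, e', ← mul_assoc, h1, mul_assoc]

theorem conj_zpowers {G : Type*} [Group G] {g x : G} (h : g * x * g⁻¹ ∈ Subgroup.zpowers x) :
    ∀ y ∈ Subgroup.zpowers x, g * y * g⁻¹ ∈ Subgroup.zpowers x := by
  intro y hy
  obtain ⟨k, rfl⟩ := Subgroup.mem_zpowers_iff.mp hy
  have e : g * x ^ k * g⁻¹ = (g * x * g⁻¹) ^ k := conj_zpow.symm
  rw [e]
  exact Subgroup.zpow_mem _ h k

/-- The normaliser in `M24` of the subgroup of order 23. -/
def NA : Subgroup (Equiv.Perm GolayPt) :=
  M24 ⊓ Subgroup.normalizer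
    ((Subgroup.zpowers (lperm a24P) : Subgroup (Equiv.Perm GolayPt)) : Set (Equiv.Perm GolayPt))

theorem mem_NA {g : Equiv.Perm GolayPt} :
    g ∈ NA ↔ g ∈ M24 ∧ g * lperm a24P * g⁻¹ ∈ Subgroup.zpowers (lperm a24P) := by
  constructor
  · rintro ⟨h1, h2⟩
    exact ⟨h1, (Subgroup.mem_normalizer_iff.mp h2 _).mp (Subgroup.mem_zpowers _)⟩
  · rintro ⟨h1, h2⟩
    exact ⟨h1, mem_normalizer_of_conj_mem (conj_zpowers h2)⟩

/-- The normaliser in `M22` of the subgroup of order 11. -/
def NB : Subgroup (Equiv.Perm GolayPt) :=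
  Spor.M22 ⊓ Subgroup.normalizer
    ((Subgroup.zpowers (lperm b24P) : Subgroup (Equiv.Perm GolayPt)) : Set (Equiv.Perm GolayPt))

theorem mem_NB {g : Equiv.Perm GolayPt} :
    g ∈ NB ↔ g ∈ Spor.M22 ∧ g * lperm b24P * g⁻¹ ∈ Subgroup.zpowers (lperm b24P) := by
  constructor
  · rintro ⟨h1, h2⟩
    exact ⟨h1, (Subgroup.mem_normalizer_iff.mp h2 _).mp (Subgroup.mem_zpowers _)⟩
  · rintro ⟨h1, h2⟩
    exact ⟨h1, mem_normalizer_of_conj_mem (conj_zpowers h2)⟩

theorem card_of_image {G : Type*} [Group G] [Finite G] (N : Subgroup G) {n : ℕ} (T : Finset G)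
    (hT : T.card ≤ n) (hsub : ∀ g ∈ N, g ∈ T) (hdvd : n ∣ Nat.card N) : Nat.card N = n := by
  have h1 : Nat.card N ≤ T.card := by
    have h2 : ((N : Subgroup G) : Set G) ⊆ (T : Set G) := fun g hg => Finset.mem_coe.mpr (hsub g hg)
    have h3 := Set.ncard_le_ncard h2 (Finset.finite_toSet T)
    rw [Set.ncard_coe_finset] at h3
    exact h3
  exact Nat.le_antisymm (le_trans h1 hT) (Nat.le_of_dvd Nat.card_pos hdvd)

theorem a24_mem_NA : lperm a24P ∈ NA :=
  mem_NA.mpr ⟨a24_H, by rw [mul_inv_cancel_right]; exact Subgroup.mem_zpowers _⟩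

theorem b24_mem_NA : lperm b24P ∈ NA := by
  refine mem_NA.mpr ⟨b24_H, ?_⟩
  obtain ⟨hv, he⟩ := pwOf_spec a24_valid AL23_ok (k := 2) (by rw [AL23_len]; norm_num)
  have h := conjB_sound b24_valid a24_valid hv ba24_rel
  rw [he] at h
  rw [h, mul_inv_cancel_right]
  exact Subgroup.pow_mem _ (Subgroup.mem_zpowers _) 2

theorem card_NA : Nat.card NA = 253 := by
  apply card_of_image NA ((Finset.univ : Finset (Fin 11 × Fin 23)).image
    (fun x => (lperm b24P ^ (x.1 : ℕ))⁻¹ * lperm a24P ^ (x.2 : ℕ)))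
  · refine le_trans Finset.card_image_le ?_
    simp
  · intro g hg
    obtain ⟨j, i, hj, hi, e⟩ := norm_a24 (mem_NA.mp hg).1 (mem_NA.mp hg).2
    exact Finset.mem_image.mpr ⟨(⟨j, hj⟩, ⟨i, hi⟩), Finset.mem_univ _, e.symm⟩
  · have h23 : 23 ∣ Nat.card NA := by
      rw [← ord_a24P]
      exact Subgroup.orderOf_dvd_natCard NA a24_mem_NA
    have h11 : 11 ∣ Nat.card NA := by
      rw [← ord_b24P]
      exact Subgroup.orderOf_dvd_natCard NA b24_mem_NA
    exact Nat.Coprime.mul_dvd_of_dvd_of_dvd (by norm_num) h23 h11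

theorem b22_a : conjB b22P b24P (pwOf BL11 3) = true := by decide +kernel

theorem b24_mem_NB : lperm b24P ∈ NB :=
  mem_NB.mpr ⟨a22_H, by rw [mul_inv_cancel_right]; exact Subgroup.mem_zpowers _⟩

theorem b22_mem_NB : lperm b22P ∈ NB := by
  refine mem_NB.mpr ⟨b22_H, ?_⟩
  obtain ⟨hv, he⟩ := pwOf_spec b24_valid BL11_ok (k := 3) (by rw [BL11_len]; norm_num)
  have h := conjB_sound b22_valid b24_valid hv b22_a
  rw [he] at h
  rw [h, mul_inv_cancel_right]
  exact Subgroup.pow_mem _ (Subgroup.mem_zpowers _) 3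

theorem card_NB : Nat.card NB = 55 := by
  apply card_of_image NB ((Finset.univ : Finset (Fin 5 × Fin 11)).image
    (fun x => (lperm b22P ^ (x.1 : ℕ))⁻¹ * lperm b24P ^ (x.2 : ℕ)))
  · refine le_trans Finset.card_image_le ?_
    simp
  · intro g hg
    obtain ⟨j, i, hj, hi, e⟩ := norm_a22 (mem_NB.mp hg).1 (mem_NB.mp hg).2
    exact Finset.mem_image.mpr ⟨(⟨j, hj⟩, ⟨i, hi⟩), Finset.mem_univ _, e.symm⟩
  · have h11 : 11 ∣ Nat.card NB := by
      rw [← ord_b24P]
      exact Subgroup.orderOf_dvd_natCard NB b24_mem_NB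
    have h5 : 5 ∣ Nat.card NB := by
      rw [← ord_b22P]
      exact Subgroup.orderOf_dvd_natCard NB b22_mem_NB
    exact Nat.Coprime.mul_dvd_of_dvd_of_dvd (by norm_num) h5 h11

/-! ### Sylow counting -/

/-- Sylow counting for a subgroup `P ≤ K` of prime order `p` with `p ^ 2 ∤ |K|`: the normaliser
`M` of `P` in `K` has index congruent to 1 modulo `p`. -/
theorem sylow_cnt {G : Type*} [Group G] [Finite G] {p : ℕ} [Fact p.Prime] (K P : Subgroup G)
    (hPK : P ≤ K) (hP : Nat.card P = p) (hK : (Nat.card K).factorization p = 1) :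
    ∃ M : Subgroup G, M ≤ K ∧ (∀ g ∈ M, ∀ x ∈ P, g * x * g⁻¹ ∈ P) ∧
      (∀ g ∈ K, (∀ x ∈ P, g * x * g⁻¹ ∈ P) → g ∈ M) ∧ Nat.card K / Nat.card M % p = 1 := by
  classical
  have hP' : Nat.card (P.subgroupOf K) = p ^ (Nat.card K).factorization p := by
    rw [hK, pow_one, Nat.card_congr (Subgroup.subgroupOfEquivOfLe hPK).toEquiv, hP]
  have h1 : Nat.card (Sylow p K) ≡ 1 [MOD p] := card_sylow_modEq_one p K
  have h2 := Sylow.card_eq_index_normalizer (Sylow.ofCard (P.subgroupOf K) hP')
  rw [show ((Sylow.ofCard (P.subgroupOf K) hP' : Sylow p K) : Set K) =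
      ((P.subgroupOf K : Subgroup K) : Set K) from
    congrArg (fun S : Subgroup K => (S : Set K)) (Sylow.coe_ofCard _ hP')] at h2
  have hidx := Subgroup.index_mul_card (Subgroup.normalizer ((P.subgroupOf K : Subgroup K) : Set K))
  have hcN : Nat.card ((Subgroup.normalizer ((P.subgroupOf K : Subgroup K) : Set K)).map K.subtype) =
      Nat.card (Subgroup.normalizer ((P.subgroupOf K : Subgroup K) : Set K)) :=
    Subgroup.card_map_of_injective K.subtype_injective
  refine ⟨(Subgroup.normalizer ((P.subgroupOf K : Subgroup K) : Set K)).map K.subtype,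
    ?_, ?_, ?_, ?_⟩
  · rintro g ⟨k, -, rfl⟩
    exact k.2
  · rintro g ⟨k, hk, rfl⟩ x hx
    have h3 := (Subgroup.mem_normalizer_iff.mp hk ⟨x, hPK hx⟩).mp (Subgroup.mem_subgroupOf.mpr hx)
    exact Subgroup.mem_subgroupOf.mp h3
  · intro g hg hn
    refine ⟨⟨g, hg⟩, ?_, rfl⟩
    apply mem_normalizer_of_conj_mem
    intro y hy
    exact Subgroup.mem_subgroupOf.mpr (hn y.1 (Subgroup.mem_subgroupOf.mp hy))
  · rw [hcN, ← hidx, Nat.mul_div_cancel _ Nat.card_pos, ← h2]
    have h4 : 1 % p = 1 := Nat.mod_eq_of_lt (Fact.out : p.Prime).one_lt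
    rw [← h4]
    exact h1

theorem m23_tab : (List.range 40321).all (fun m =>
    !(Nat.beq (Nat.mod 40320 m) 0 && Nat.beq (Nat.mod m 23) 1) ||
      (Nat.beq m 1 || (Nat.beq m 24 || (Nat.beq m 70 || (Nat.beq m 576 || (Nat.beq m 1680 ||
        Nat.beq m 40320)))))) = true := by decide +kernel

theorem m23_num {m : ℕ} (h1 : m ∣ 40320) (h2 : m % 23 = 1) :
    m = 1 ∨ m = 24 ∨ m = 70 ∨ m = 576 ∨ m = 1680 ∨ m = 40320 := by
  have hle : m ≤ 40320 := Nat.le_of_dvd (by norm_num) h1
  have h := List.all_eq_true.mp m23_tab m (List.mem_range.mpr (by omega))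
  have e1 : Nat.beq (Nat.mod 40320 m) 0 = true := by
    rw [show Nat.mod 40320 m = 0 from Nat.mod_eq_zero_of_dvd h1]
    rfl
  have e2 : Nat.beq (Nat.mod m 23) 1 = true := by
    rw [show Nat.mod m 23 = 1 from h2]
    rfl
  rw [e1, e2] at h
  simp only [Bool.and_self, Bool.not_true, Bool.false_or, Bool.or_eq_true] at h
  rcases h with h | h | h | h | h | h
  · exact Or.inl (Nat.eq_of_beq_eq_true h)
  · exact Or.inr (Or.inl (Nat.eq_of_beq_eq_true h))
  · exact Or.inr (Or.inr (Or.inl (Nat.eq_of_beq_eq_true h)))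
  · exact Or.inr (Or.inr (Or.inr (Or.inl (Nat.eq_of_beq_eq_true h))))
  · exact Or.inr (Or.inr (Or.inr (Or.inr (Or.inl (Nat.eq_of_beq_eq_true h)))))
  · exact Or.inr (Or.inr (Or.inr (Or.inr (Or.inr (Nat.eq_of_beq_eq_true h)))))

/-! ### Orbits of points -/

theorem card_M23' : Nat.card Spor.M23 = 10200960 := by
  have e : (MulAction.stabilizer M24 (none : GolayPt)).map M24.subtype = Spor.M23 := by
    ext g
    constructor
    · rintro ⟨h, hh, rfl⟩
      exact ⟨h.2, hh⟩
    · rintro ⟨hg, h1⟩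
      exact ⟨⟨g, hg⟩, h1, rfl⟩
  rw [← e, Subgroup.card_map_of_injective M24.subtype_injective]
  exact card_stabilizer_point _

theorem mem_M23' {g : Equiv.Perm GolayPt} : g ∈ Spor.M23 ↔ g ∈ M24 ∧ g (gPt 23) = gPt 23 := by
  rw [gPt_inf]
  exact Iff.rfl

theorem a24_pow_zero {k : ℕ} (hk : k < 23) : (lperm a24P ^ k) (gPt 0) = gPt k := by
  obtain ⟨hv, he⟩ := pwOf_spec a24_valid AL23_ok (k := k) (by rw [AL23_len]; omega)
  rw [← he, lperm_apply hv, gIdx_gPt (by norm_num)]
  have h := List.all_eq_true.mp a24_act k (List.mem_range.mpr hk)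
  rw [Bool.and_eq_true] at h
  rw [Nat.eq_of_beq_eq_true h.1]

theorem a24_fix23 : lperm a24P (gPt 23) = gPt 23 := by
  rw [lperm_apply a24_valid, gIdx_gPt (by norm_num), a24_inf]

theorem b24_fix23 : lperm b24P (gPt 23) = gPt 23 := (mem_M22_iff.mp a22_H).2.1

theorem b24_fix0 : lperm b24P (gPt 0) = gPt 0 := (mem_M22_iff.mp a22_H).2.2

theorem pt_cases (p : GolayPt) : p = gPt 23 ∨ ∃ k, k < 23 ∧ p = gPt k := by
  have h := gIdx_lt p
  rcases Nat.lt_or_ge (gIdx p) 23 with h1 | h1
  · exact Or.inr ⟨gIdx p, h1, (gPt_gIdx p).symm⟩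
  · left
    have e : gIdx p = 23 := by omega
    rw [← gPt_gIdx p, e]

theorem gPt_ne_23 {k : ℕ} (hk : k < 23) : gPt k ≠ gPt 23 := by
  intro h
  have h1 := congrArg gIdx h
  rw [gIdx_gPt (by omega), gIdx_gPt (by norm_num)] at h1
  omega

theorem card_GolayPt : Nat.card GolayPt = 24 := by
  rw [Nat.card_eq_fintype_card]
  rfl

/-- The orbit of the point `0` under a subgroup of `M23` containing the element of order 23. -/
theorem orbit_fin (H : Subgroup (Equiv.Perm GolayPt)) (ha : lperm a24P ∈ H)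
    (hfix : ∀ h ∈ H, h (gPt 23) = gPt 23) : (MulAction.orbit H (gPt 0)).ncard = 23 := by
  have e : MulAction.orbit H (gPt 0) = ({gPt 23} : Set GolayPt)ᶜ := by
    ext p
    constructor
    · rintro ⟨h, rfl⟩ hp
      have h1 : (h : Equiv.Perm GolayPt) (gPt 0) = gPt 23 := hp
      rw [← hfix h h.2] at h1
      exact gPt_ne_23 (by norm_num : 0 < 23) ((h : Equiv.Perm GolayPt).injective h1)
    · intro hp
      rcases pt_cases p with rfl | ⟨k, hk, rfl⟩
      · exact absurd rfl hp
      · exact ⟨⟨lperm a24P ^ k, pow_mem ha k⟩, a24_pow_zero hk⟩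
  rw [e, Set.ncard_compl, Set.ncard_singleton, card_GolayPt]

/-- The orbit of the extra point under a subgroup containing the element of order 23 and moving
the extra point. -/
theorem orbit_all (H : Subgroup (Equiv.Perm GolayPt)) (ha : lperm a24P ∈ H)
    {h : Equiv.Perm GolayPt} (hh : h ∈ H) (hmv : h (gPt 23) ≠ gPt 23) :
    (MulAction.orbit H (gPt 23)).ncard = 24 := by
  have e : MulAction.orbit H (gPt 23) = Set.univ := by
    ext p
    refine ⟨fun _ => Set.mem_univ _, fun _ => ?_⟩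
    rcases pt_cases (h (gPt 23)) with h0 | ⟨t, ht, h0⟩
    · exact absurd h0 hmv
    · rcases pt_cases p with rfl | ⟨k, hk, rfl⟩
      · exact MulAction.mem_orbit_self _
      · refine ⟨⟨lperm a24P ^ k * (lperm a24P ^ t)⁻¹ * h,
          mul_mem (mul_mem (pow_mem ha k) (inv_mem (pow_mem ha t))) hh⟩, ?_⟩
        show (lperm a24P ^ k * (lperm a24P ^ t)⁻¹ * h) (gPt 23) = gPt k
        rw [Equiv.Perm.mul_apply, Equiv.Perm.mul_apply, h0, ← a24_pow_zero ht, perm_inv_apply,
          a24_pow_zero hk]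
  rw [e, Set.ncard_univ, card_GolayPt]

/-! ### Subgroups of `M23` containing `23:11` -/

/-- Sylow counting at the prime 11 excludes the intermediate orders. -/
theorem syl11_no (H : Subgroup (Equiv.Perm GolayPt)) (ha : lperm a24P ∈ H)
    (hb : lperm b24P ∈ H) (hH : H ≤ Spor.M23) {m : ℕ} (hm : Nat.card H = 253 * m)
    (hm' : m = 24 ∨ m = 70 ∨ m = 576 ∨ m = 1680) : False := by
  haveI : Fact (Nat.Prime 11) := ⟨by norm_num⟩
  have hfix : ∀ h ∈ H, h (gPt 23) = gPt 23 := fun h hh => (mem_M23'.mp (hH hh)).2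
  have hc := card_eq_orbit_mul_inf H (gPt 0)
  rw [orbit_fin H ha hfix, hm] at hc
  have hc0 : Nat.card ↥(H ⊓ MulAction.stabilizer (Equiv.Perm GolayPt) (gPt 0)) = 11 * m := by
    omega
  have hH0M : H ⊓ MulAction.stabilizer (Equiv.Perm GolayPt) (gPt 0) ≤ Spor.M22 := by
    intro g hg
    exact mem_M22_iff.mpr ⟨(mem_M23'.mp (hH hg.1)).1, hfix g hg.1, hg.2⟩
  have hbH0 : lperm b24P ∈ H ⊓ MulAction.stabilizer (Equiv.Perm GolayPt) (gPt 0) :=
    ⟨hb, b24_fix0⟩
  have hPK : Subgroup.zpowers (lperm b24P) ≤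
      H ⊓ MulAction.stabilizer (Equiv.Perm GolayPt) (gPt 0) := Subgroup.zpowers_le.mpr hbH0
  have hP : Nat.card (Subgroup.zpowers (lperm b24P)) = 11 := by rw [Nat.card_zpowers, ord_b24P]
  have hK : (Nat.card ↥(H ⊓ MulAction.stabilizer (Equiv.Perm GolayPt) (gPt 0))).factorization 11
      = 1 := by
    rw [hc0]
    rcases hm' with rfl | rfl | rfl | rfl <;>
      exact fact_one (by norm_num) (by norm_num) (by norm_num) (by norm_num)
  obtain ⟨M, hMK, hMn, hMall, hmod⟩ := sylow_cnt _ (Subgroup.zpowers (lperm b24P)) hPK hP hK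
  have hMN : M ≤ NB := fun g hg =>
    mem_NB.mpr ⟨hH0M (hMK hg), hMn g hg _ (Subgroup.mem_zpowers _)⟩
  have hd55 : Nat.card M ∣ 55 := by
    rw [← card_NB]
    exact Subgroup.card_dvd_of_le hMN
  have hd11 : 11 ∣ Nat.card M := by
    rw [← hP]
    apply Subgroup.card_dvd_of_le
    intro g hg
    exact hMall g (hPK hg) (fun x hx => mul_mem (mul_mem hg hx) (inv_mem hg))
  have hMc : Nat.card M = 11 ∨ Nat.card M = 55 := by
    obtain ⟨c, hc⟩ := hd11
    rw [hc] at hd55 ⊢
    have h5 : c ∣ 5 := (Nat.mul_dvd_mul_iff_left (by norm_num : 0 < 11)).mp hd55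
    rcases (Nat.dvd_prime (by norm_num)).mp h5 with rfl | rfl
    · left; rfl
    · right; rfl
  rw [hc0] at hmod
  rcases hMc with h | h <;> rw [h] at hmod <;> rcases hm' with rfl | rfl | rfl | rfl <;>
    norm_num at hmod

/-- A subgroup of `M23` containing the maps `t ↦ t + 1` and `t ↦ 2 t` has order 253 or is
`M23`. -/
theorem sub_M23 (H : Subgroup (Equiv.Perm GolayPt)) (ha : lperm a24P ∈ H)
    (hb : lperm b24P ∈ H) (hH : H ≤ Spor.M23) : Nat.card H = 253 ∨ H = Spor.M23 := by
  haveI : Fact (Nat.Prime 23) := ⟨by norm_num⟩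
  have hH24 : H ≤ M24 := fun g hg => (mem_M23'.mp (hH hg)).1
  have hdvd : Nat.card H ∣ 10200960 := by
    rw [← card_M23']
    exact Subgroup.card_dvd_of_le hH
  have hpos : Nat.card H ≠ 0 := Nat.card_pos.ne'
  have hPK : Subgroup.zpowers (lperm a24P) ≤ H := Subgroup.zpowers_le.mpr ha
  have hP : Nat.card (Subgroup.zpowers (lperm a24P)) = 23 := by rw [Nat.card_zpowers, ord_a24P]
  have h23 : 23 ∣ Nat.card H := by
    rw [← hP]
    exact Subgroup.card_dvd_of_le hPK
  have hK : (Nat.card H).factorization 23 = 1 := by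
    refine fact_one (by norm_num) hpos h23 (fun h => ?_)
    have h1 := dvd_trans h hdvd
    norm_num at h1
  obtain ⟨M, hMK, hMn, hMall, hmod⟩ := sylow_cnt H (Subgroup.zpowers (lperm a24P)) hPK hP hK
  have hM : M = NA := by
    apply le_antisymm
    · intro g hg
      exact mem_NA.mpr ⟨hH24 (hMK hg), hMn g hg _ (Subgroup.mem_zpowers _)⟩
    · intro g hg
      obtain ⟨j, i, -, -, e⟩ := norm_a24 (mem_NA.mp hg).1 (mem_NA.mp hg).2
      have hgH : g ∈ H := by
        rw [e]
        exact mul_mem (inv_mem (pow_mem hb j)) (pow_mem ha i)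
      exact hMall g hgH (conj_zpowers (mem_NA.mp hg).2)
  have h253 : 253 ∣ Nat.card H := by
    rw [← card_NA, ← hM]
    exact Subgroup.card_dvd_of_le hMK
  rw [hM, card_NA] at hmod
  obtain ⟨m, hm⟩ := h253
  rw [hm, Nat.mul_div_cancel_left _ (by norm_num : 0 < 253)] at hmod
  have hm40 : m ∣ 40320 := by
    rw [hm, show (10200960 : ℕ) = 253 * 40320 from by norm_num] at hdvd
    exact (Nat.mul_dvd_mul_iff_left (by norm_num : 0 < 253)).mp hdvd
  rcases m23_num hm40 hmod with h | h | h | h | h | h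
  · left
    rw [hm, h]
  · exact (syl11_no H ha hb hH hm (Or.inl h)).elim
  · exact (syl11_no H ha hb hH hm (Or.inr (Or.inl h))).elim
  · exact (syl11_no H ha hb hH hm (Or.inr (Or.inr (Or.inl h)))).elim
  · exact (syl11_no H ha hb hH hm (Or.inr (Or.inr (Or.inr h)))).elim
  · right
    exact Subgroup.eq_of_le_of_card_ge hH (by rw [card_M23', hm, h])

/-- A subgroup of `M24` containing `t ↦ t + 1` and `t ↦ 2 t` and moving the extra point has order
6072 or is `M24`. -/
theorem sup_B (H : Subgroup (Equiv.Perm GolayPt)) (ha : lperm a24P ∈ H) (hb : lperm b24P ∈ H)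
    (hH : H ≤ M24) {h : Equiv.Perm GolayPt} (hh : h ∈ H) (hmv : h (gPt 23) ≠ gPt 23) :
    Nat.card H = 6072 ∨ H = M24 := by
  have hc := card_eq_orbit_mul_inf H (gPt 23)
  rw [orbit_all H ha hh hmv] at hc
  have hsub : H ⊓ MulAction.stabilizer (Equiv.Perm GolayPt) (gPt 23) ≤ Spor.M23 := fun g hg =>
    mem_M23'.mpr ⟨hH hg.1, hg.2⟩
  rcases sub_M23 (H ⊓ MulAction.stabilizer (Equiv.Perm GolayPt) (gPt 23))
    (Subgroup.mem_inf.mpr ⟨ha, a24_fix23⟩) (Subgroup.mem_inf.mpr ⟨hb, b24_fix23⟩) hsub with h1 | h1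
  · left
    rw [hc, h1]
  · right
    apply Subgroup.eq_of_le_of_card_ge hH
    rw [card_M24, hc, h1, card_M23']

/-! ### The two groups of the statement -/

/-- The group `PSL(2, 23)`. -/
def L23 : Subgroup (Equiv.Perm GolayPt) :=
  Subgroup.closure {lperm a24P, lperm b24P, lperm cinvP}

theorem a24_mem_L : lperm a24P ∈ L23 := Subgroup.subset_closure (by simp)
theorem b24_mem_L : lperm b24P ∈ L23 := Subgroup.subset_closure (by simp)
theorem cinv_mem_L : lperm cinvP ∈ L23 := Subgroup.subset_closure (by simp)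

theorem L23_le : L23 ≤ M24 := by
  refine (Subgroup.closure_le _).mpr ?_
  rintro g (rfl | rfl | rfl)
  · exact a24_H
  · exact b24_H
  · exact cinv_H

theorem cinv_mv : lperm cinvP (gPt 23) ≠ gPt 23 := by
  rw [lperm_apply cinv_valid, gIdx_gPt (by norm_num),
    show sv cinvP 23 = 0 from by decide +kernel]
  exact gPt_ne_23 (by norm_num)

theorem L23_le_PT : L23 ≤ PT23 := by
  refine (Subgroup.closure_le _).mpr ?_
  rintro g (rfl | rfl | rfl)
  · exact triOK_mem a24_valid tri_a
  · exact triOK_mem b24_valid tri_b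
  · exact triOK_mem cinv_valid tri_c

theorem card_L23 : Nat.card L23 = 6072 := by
  rcases sup_B L23 a24_mem_L b24_mem_L L23_le cinv_mem_L cinv_mv with h | h
  · exact h
  · exfalso
    apply dtw_not_PT
    apply L23_le_PT
    rw [h]
    exact lperm_mem_M24 dtw_ok

theorem NA_eq : Subgroup.closure {lperm a24P, lperm b24P} = NA := by
  apply le_antisymm
  · refine (Subgroup.closure_le _).mpr ?_
    rintro g (rfl | rfl)
    · exact a24_mem_NA
    · exact b24_mem_NA
  · intro g hg
    obtain ⟨j, i, -, -, e⟩ := norm_a24 (mem_NA.mp hg).1 (mem_NA.mp hg).2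
    rw [e]
    exact mul_mem (inv_mem (pow_mem (Subgroup.subset_closure (by simp)) j))
      (pow_mem (Subgroup.subset_closure (by simp)) i)

theorem NA_le_M23 : NA ≤ Spor.M23 := by
  rw [← NA_eq]
  refine (Subgroup.closure_le _).mpr ?_
  rintro g (rfl | rfl)
  · exact mem_M23'.mpr ⟨a24_H, a24_fix23⟩
  · exact mem_M23'.mpr ⟨b24_H, b24_fix23⟩

theorem genL_eq : Subgroup.closure (({Equiv.optionCongr (Equiv.addRight (1 : ZMod 23)), projInv} :
      Set (Equiv.Perm GolayPt)) ∪
    {g : Equiv.Perm GolayPt | ∃ u : (ZMod 23)ˣ, IsSquare u ∧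
      g = Equiv.optionCongr (Units.mulLeft u)}) = L23 := by
  apply le_antisymm
  · refine (Subgroup.closure_le _).mpr ?_
    rintro g ((rfl | rfl) | ⟨u, hu, rfl⟩)
    · rw [addRight_eq]
      exact a24_mem_L
    · rw [projInv_eq]
      exact cinv_mem_L
    · obtain ⟨j, -, e⟩ := sq_gen u hu
      rw [e]
      exact pow_mem b24_mem_L j
  · refine (Subgroup.closure_le _).mpr ?_
    rintro g (rfl | rfl | rfl)
    · rw [← addRight_eq]
      exact Subgroup.subset_closure (Or.inl (by simp))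
    · obtain ⟨u, hu, e⟩ := two_gen
      exact Subgroup.subset_closure (Or.inr ⟨u, hu, e⟩)
    · rw [← projInv_eq]
      exact Subgroup.subset_closure (Or.inl (by simp))

theorem genB_eq : Subgroup.closure (({Equiv.optionCongr (Equiv.addRight (1 : ZMod 23))} :
      Set (Equiv.Perm GolayPt)) ∪
    {g : Equiv.Perm GolayPt | ∃ u : (ZMod 23)ˣ, IsSquare u ∧
      g = Equiv.optionCongr (Units.mulLeft u)}) = NA := by
  rw [← NA_eq]
  apply le_antisymm
  · refine (Subgroup.closure_le _).mpr ?_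
    rintro g (rfl | ⟨u, hu, rfl⟩)
    · rw [addRight_eq]
      exact Subgroup.subset_closure (by simp)
    · obtain ⟨j, -, e⟩ := sq_gen u hu
      rw [e]
      exact pow_mem (Subgroup.subset_closure (by simp)) j
  · refine (Subgroup.closure_le _).mpr ?_
    rintro g (rfl | rfl)
    · rw [← addRight_eq]
      exact Subgroup.subset_closure (Or.inl rfl)
    · obtain ⟨u, hu, e⟩ := two_gen
      exact Subgroup.subset_closure (Or.inr ⟨u, hu, e⟩)

/-! ### Maximality -/

theorem L23_coatom : IsCoatom (L23.subgroupOf M24) := by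
  constructor
  · intro h
    have h1 : M24 ≤ L23 := Subgroup.subgroupOf_eq_top.mp h
    have h2 := Subgroup.card_le_of_le h1
    rw [card_M24, card_L23] at h2
    norm_num at h2
  · intro Y hY
    have hL0 : L23 ≤ Y.map M24.subtype := by
      intro g hg
      exact ⟨⟨g, L23_le hg⟩, hY.le (Subgroup.mem_subgroupOf.mpr hg), rfl⟩
    have hYM : Y.map M24.subtype ≤ M24 := by
      rintro _ ⟨y, -, rfl⟩
      exact y.2
    rcases sup_B (Y.map M24.subtype) (hL0 a24_mem_L) (hL0 b24_mem_L) hYM (hL0 cinv_mem_L)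
      cinv_mv with h1 | h1
    · exfalso
      have heq : L23 = Y.map M24.subtype :=
        Subgroup.eq_of_le_of_card_ge hL0 (by rw [h1, card_L23])
      apply not_le_of_gt hY
      intro y hy
      apply Subgroup.mem_subgroupOf.mpr
      rw [heq]
      exact ⟨y, hy, rfl⟩
    · rw [eq_top_iff]
      intro y _
      have h2 : (y : Equiv.Perm GolayPt) ∈ Y.map M24.subtype := by
        rw [h1]
        exact y.2
      obtain ⟨y', hy', e⟩ := h2
      have e' : y' = y := Subtype.ext e
      rw [← e']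
      exact hy'

theorem NA_coatom : IsCoatom ((NA.subgroupOf M24).subgroupOf
    (MulAction.stabilizer M24 (none : GolayPt))) := by
  constructor
  · intro h
    have h1 : Spor.M23 ≤ NA := by
      intro g hg
      have hgM : g ∈ M24 := (mem_M23'.mp hg).1
      have hgS : (⟨g, hgM⟩ : ↥M24) ∈ MulAction.stabilizer M24 (none : GolayPt) := by
        apply stab_mk
        rw [← gPt_inf]
        exact (mem_M23'.mp hg).2
      have h2 : (⟨⟨g, hgM⟩, hgS⟩ : ↥(MulAction.stabilizer M24 (none : GolayPt))) ∈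
          (NA.subgroupOf M24).subgroupOf (MulAction.stabilizer M24 (none : GolayPt)) := by
        rw [h]
        exact Subgroup.mem_top _
      exact Subgroup.mem_subgroupOf.mp (Subgroup.mem_subgroupOf.mp h2)
    have h2 := Subgroup.card_le_of_le h1
    rw [card_M23', card_NA] at h2
    norm_num at h2
  · intro Y hY
    have hN0 : NA ≤ (Y.map (MulAction.stabilizer M24 (none : GolayPt)).subtype).map
        M24.subtype := by
      intro g hg
      have hgM : g ∈ M24 := (mem_NA.mp hg).1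
      have hgS : (⟨g, hgM⟩ : ↥M24) ∈ MulAction.stabilizer M24 (none : GolayPt) := by
        apply stab_mk
        rw [← gPt_inf]
        exact (mem_M23'.mp (NA_le_M23 hg)).2
      refine ⟨⟨g, hgM⟩, ⟨⟨⟨g, hgM⟩, hgS⟩, hY.le ?_, rfl⟩, rfl⟩
      exact Subgroup.mem_subgroupOf.mpr (Subgroup.mem_subgroupOf.mpr hg)
    have hYM : (Y.map (MulAction.stabilizer M24 (none : GolayPt)).subtype).map M24.subtype ≤
        Spor.M23 := by
      rintro _ ⟨_, ⟨y, -, rfl⟩, rfl⟩
      refine mem_M23'.mpr ⟨y.1.2, ?_⟩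
      rw [gPt_inf]
      exact stab_apply y.2
    rcases sub_M23 _ (hN0 a24_mem_NA) (hN0 b24_mem_NA) hYM with h1 | h1
    · exfalso
      have heq : NA = (Y.map (MulAction.stabilizer M24 (none : GolayPt)).subtype).map
          M24.subtype := Subgroup.eq_of_le_of_card_ge hN0 (by rw [h1, card_NA])
      apply not_le_of_gt hY
      intro y hy
      apply Subgroup.mem_subgroupOf.mpr
      apply Subgroup.mem_subgroupOf.mpr
      rw [heq]
      exact ⟨y.1, ⟨y, hy, rfl⟩, rfl⟩
    · rw [eq_top_iff]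
      intro y _
      have h2 : ((y : ↥M24) : Equiv.Perm GolayPt) ∈
          (Y.map (MulAction.stabilizer M24 (none : GolayPt)).subtype).map M24.subtype := by
        rw [h1]
        refine mem_M23'.mpr ⟨y.1.2, ?_⟩
        rw [gPt_inf]
        exact stab_apply y.2
      obtain ⟨_, ⟨y', hy', rfl⟩, e⟩ := h2
      have e' : y' = y := Subtype.ext (Subtype.ext e)
      rw [← e']
      exact hy'

end Cfsg.Agent.H34
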