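import Cfsg.Agent.H34.M11Enum

/-!
# The stabiliser of a pair in the 12-point action of the smallest Mathieu group (helper34 library)

The stabiliser `SF [2176, 1, D0]` in `SF [1, D0]` of the pair of points of index `7` and `11` of
the complementary dodecad acts on five points of the base dodecad as the symmetric group.
-/

set_option autoImplicit false

namespace Cfsg.Agent.H34

open Cfsg Cfsg.Agent.H9
open scoped Pointwise

theorem HS_inv_ok : M11EL.all (fun s => !(Nat.beq (pmN s 2176) 2176) ||
    Nat.beq (pmN s 131640) 131640) = true := by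
  decide +kernel

theorem HS_le {g : Equiv.Perm GolayPt} (hg : g ∈ SF [2176, 1, D0]) : g ∈ SF [1, D0] :=
  ⟨hg.1, fun a ha => hg.2 a (List.mem_cons_of_mem _ ha)⟩

/-- The elements of the pair stabiliser preserve the set of five points. -/
theorem HS_inv {g : Equiv.Perm GolayPt} (hg : g ∈ SF [2176, 1, D0]) :
    g • fs 131640 = fs 131640 := by
  obtain ⟨s, hs, rfl⟩ := M11_enum g (HS_le hg)
  have hv := M11EL_valid hs
  have h1 := hg.2 2176 (by simp)
  rw [lperm_smul_fs hv] at h1
  have h2 : pmN s 2176 = 2176 := fs_inj (pmN_lt hv _) (by norm_num) h1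
  have h3 := List.all_eq_true.mp HS_inv_ok s hs
  rw [h2] at h3
  simp only [Nat.beq_refl, Bool.not_true, Bool.false_or, Nat.beq_eq] at h3
  rw [lperm_smul_fs hv, h3]

/-- Indices of the five points, in the order of a 5-cycle. -/
def a5N : Fin 5 → ℕ := ![3, 5, 17, 9, 4]

/-- The five points. -/
def pt5 (i : Fin 5) : GolayPt := gPt (a5N i)

/-- The position of an index among the five. -/
def idx5N (n : ℕ) : Fin 5 :=
  if n = 3 then 0 else if n = 5 then 1 else if n = 17 then 2 else if n = 9 then 3 else 4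

/-- The position of a point among the five. -/
def idx5 (x : GolayPt) : Fin 5 := idx5N (gIdx x)

theorem a5N_lt (i : Fin 5) : a5N i < 24 := by
  revert i
  decide

theorem idx5_pt5 (i : Fin 5) : idx5 (pt5 i) = i := by
  unfold idx5 pt5
  rw [gIdx_gPt (a5N_lt i)]
  revert i
  decide

theorem pt5_mem (i : Fin 5) : pt5 i ∈ fs 131640 := by
  unfold pt5
  rw [mem_fs, gIdx_gPt (a5N_lt i)]
  revert i
  decide

theorem pt5_idx5 {x : GolayPt} (hx : x ∈ fs 131640) : pt5 (idx5 x) = x := by
  have h : ∀ n, n < 24 → (131640 : ℕ).testBit n = true → a5N (idx5N n) = n := by decide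
  unfold pt5 idx5
  rw [h _ (gIdx_lt x) (mem_fs.mp hx), gPt_gIdx]

theorem HS_maps {g : Equiv.Perm GolayPt} (hg : g ∈ SF [2176, 1, D0]) (i : Fin 5) :
    g (pt5 i) ∈ fs 131640 := by
  rw [← HS_inv hg]
  exact Finset.smul_mem_smul_finset (pt5_mem i)

theorem inv_smul_smul_pt (g : Equiv.Perm GolayPt) (x : GolayPt) : g⁻¹ (g x) = x :=
  Equiv.symm_apply_apply g x

theorem smul_inv_smul_pt (g : Equiv.Perm GolayPt) (x : GolayPt) : g (g⁻¹ x) = x :=
  Equiv.apply_symm_apply g x

/-- The permutation of the five points induced by an element of the pair stabiliser. -/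
def perm5 (g : ↥(SF [2176, 1, D0])) : Equiv.Perm (Fin 5) where
  toFun i := idx5 ((g : Equiv.Perm GolayPt) (pt5 i))
  invFun i := idx5 ((g : Equiv.Perm GolayPt)⁻¹ (pt5 i))
  left_inv i := by
    show idx5 ((g : Equiv.Perm GolayPt)⁻¹ (pt5 (idx5 ((g : Equiv.Perm GolayPt) (pt5 i))))) = i
    rw [pt5_idx5 (HS_maps g.2 i), inv_smul_smul_pt, idx5_pt5]
  right_inv i := by
    show idx5 ((g : Equiv.Perm GolayPt) (pt5 (idx5 ((g : Equiv.Perm GolayPt)⁻¹ (pt5 i))))) = i
    rw [pt5_idx5 (HS_maps (inv_mem g.2) i), smul_inv_smul_pt, idx5_pt5]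

theorem perm5_apply (g : ↥(SF [2176, 1, D0])) (i : Fin 5) :
    perm5 g i = idx5 ((g : Equiv.Perm GolayPt) (pt5 i)) := rfl

/-- The action on the five points, as a homomorphism. -/
def S5hom : ↥(SF [2176, 1, D0]) →* Equiv.Perm (Fin 5) where
  toFun := perm5
  map_one' := by
    apply Equiv.ext
    intro i
    rw [perm5_apply]
    exact idx5_pt5 i
  map_mul' g h := by
    apply Equiv.ext
    intro i
    rw [Equiv.Perm.mul_apply, perm5_apply, perm5_apply, perm5_apply, pt5_idx5 (HS_maps h.2 i)]
    rfl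

theorem HS_inj_ok : M11EL.all (fun s => !(Nat.beq (sv s 3) 3 && (Nat.beq (sv s 5) 5 &&
    (Nat.beq (sv s 17) 17 && (Nat.beq (sv s 9) 9 && Nat.beq (sv s 4) 4)))) || Nat.beq s idP)
    = true := by
  decide +kernel

theorem S5hom_inj : Function.Injective S5hom := by
  rw [injective_iff_map_eq_one]
  intro g hg
  have h1 : ∀ i : Fin 5, (g : Equiv.Perm GolayPt) (pt5 i) = pt5 i := by
    intro i
    have h2 : perm5 g i = i := by
      have h3 : S5hom g i = i := by rw [hg]; rfl
      exact h3
    rw [perm5_apply] at h2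
    rw [← pt5_idx5 (HS_maps g.2 i), h2]
  obtain ⟨s, hs, e⟩ := M11_enum _ (HS_le g.2)
  have hv := M11EL_valid hs
  have h4 : ∀ i : Fin 5, sv s (a5N i) = a5N i := by
    intro i
    have h5 := congrArg gIdx (h1 i)
    rw [e] at h5
    unfold pt5 at h5
    rwa [gIdx_lperm hv, gIdx_gPt (a5N_lt i)] at h5
  have h6 := List.all_eq_true.mp HS_inj_ok s hs
  have e0 : sv s 3 = 3 := h4 0
  have e1 : sv s 5 = 5 := h4 1
  have e2 : sv s 17 = 17 := h4 2
  have e3 : sv s 9 = 9 := h4 3
  have e4 : sv s 4 = 4 := h4 4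
  rw [e0, e1, e2, e3, e4] at h6
  simp only [Nat.beq_refl, Bool.and_self, Bool.not_true, Bool.false_or, Nat.beq_eq] at h6
  apply Subtype.ext
  rw [e, h6, lperm_idP]
  rfl

/-- A packed element of the pair stabiliser acting on the five points as a 5-cycle. -/
def w1P : ℕ := 861533916299769565973789645884000448

/-- A packed element of the pair stabiliser acting on the five points as a transposition. -/
def w2P : ℕ := 517510299230846075177518700985231552

theorem w1P_ok : okF [2176, 1, D0] w1P = true := by decide +kernel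
theorem w2P_ok : okF [2176, 1, D0] w2P = true := by decide +kernel

theorem perm5_lperm {s : ℕ} (h : okF [2176, 1, D0] s = true) (i : Fin 5) :
    perm5 ⟨lperm s, lperm_mem_SF h⟩ i = idx5N (sv s (a5N i)) := by
  rw [perm5_apply]
  unfold idx5 pt5
  rw [gIdx_lperm (okF_svalid' h), gIdx_gPt (a5N_lt i)]

theorem w1P_act : ∀ i : Fin 5, idx5N (sv w1P (a5N i)) = finRotate 5 i := by decide +kernel

theorem w2P_act : ∀ i : Fin 5, idx5N (sv w2P (a5N i)) = Equiv.swap (0 : Fin 5) (finRotate 5 0) i := by
  decide +kernel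

theorem S5hom_surj : Function.Surjective S5hom := by
  rw [← MonoidHom.range_eq_top, eq_top_iff,
    ← Equiv.Perm.closure_cycle_adjacent_swap (isCycle_finRotate (n := 3))
      (support_finRotate (n := 3)) (0 : Fin 5), Subgroup.closure_le]
  intro σ hσ
  rcases hσ with rfl | hσ
  · refine ⟨⟨lperm w1P, lperm_mem_SF w1P_ok⟩, ?_⟩
    apply Equiv.ext
    intro i
    exact (perm5_lperm w1P_ok i).trans (w1P_act i)
  · rw [Set.mem_singleton_iff] at hσ
    rw [hσ]
    refine ⟨⟨lperm w2P, lperm_mem_SF w2P_ok⟩, ?_⟩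
    apply Equiv.ext
    intro i
    exact (perm5_lperm w2P_ok i).trans (w2P_act i)

/-- The pair stabiliser is isomorphic to the symmetric group of degree five. -/
noncomputable def HS_equiv : ↥(SF [2176, 1, D0]) ≃* Equiv.Perm (Fin 5) :=
  MulEquiv.ofBijective S5hom ⟨S5hom_inj, S5hom_surj⟩

/-! ### Moving a dodecad with a marked point and two marked points off it to the base -/

theorem stabD1q_ok : certOK [128, 1, D0] (2 ^ 11) [984818244535754528103549039458486304, 984612649355406094121217942427387040, 473421453096544473061133097202915488, 563878499375927014710176416716242464, 938158237641673125338188572106245440, 861134718755059909827382306028037664, 902709706924218613731325739976330432, 765482884220143768626014946946748576, 690036389342827927552455737040241952, 520098753517996796092509337501864992, 769013208907165540777804874404833376] [2048, 4096, 8192, 16384, 65536, 262144, 524288, 1048576, 2097152, 4194304, 8388608] = true := by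
  decide +kernel

theorem stabD1q_targets : ∀ j, j < 24 → D0.testBit j = false → j ≠ 7 →
    2 ^ j ∈ ([2048, 4096, 8192, 16384, 65536, 262144, 524288, 1048576, 2097152, 4194304, 8388608] : List ℕ) := by
  intro j hj h h0
  exact ((by decide : ∀ j, j < 24 → D0.testBit j = false → j = 7 ∨
    2 ^ j ∈ ([2048, 4096, 8192, 16384, 65536, 262144, 524288, 1048576, 2097152, 4194304, 8388608] : List ℕ)) j hj h).resolve_left h0

theorem fs_2176 : fs 2176 = {gPt 7, gPt 11} := by
  have h : (2176 : ℕ) = 2 ^ 7 ||| 2 ^ 11 := by decide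
  rw [h, fs_or, fs_two_pow (by norm_num), fs_two_pow (by norm_num)]
  rfl

/-- `M24` is transitive on the dodecads with a marked point and two ordered marked points off
the dodecad. -/
theorem dod_pt_out2_trans {d : Finset GolayPt} (hd : d ∈ dodecads) {p q q' : GolayPt}
    (hp : p ∈ d) (hq : q ∉ d) (hq' : q' ∉ d) (hqq' : q ≠ q') :
    ∃ g ∈ M24, g • fs D0 = d ∧ g (gPt 0) = p ∧ g (gPt 7) = q ∧ g (gPt 11) = q' := by
  obtain ⟨g1, hg1, h1, e1⟩ := dod_pt_trans hd hp
  obtain ⟨h2, hh2, e2⟩ := ext_step stabD1_out_ok (by norm_num) g1 q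
    (stabD_out_targets _ (gIdx_lt _) (testBit_inv_false (by rw [h1]; exact hq)))
  have h1' : (g1 * h2) • fs D0 = d := by rw [mul_smul, hh2.2 D0 (by simp), h1]
  have e1' : (g1 * h2) (gPt 0) = p := by
    rw [Equiv.Perm.mul_apply, SF_fix_pt hh2 (j := 0) (by norm_num) (by simp), e1]
  obtain ⟨h3, hh3, e3⟩ := ext_step stabD1q_ok (by norm_num) (g1 * h2) q'
    (stabD1q_targets _ (gIdx_lt _) (testBit_inv_false (by rw [h1']; exact hq'))
      (gIdx_inv_ne (by rw [e2]; exact hqq'.symm)))
  refine ⟨g1 * h2 * h3, mul_mem (mul_mem hg1 hh2.1) hh3.1, ?_, ?_, ?_, e3⟩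
  · rw [mul_smul, hh3.2 D0 (by simp), h1']
  · rw [Equiv.Perm.mul_apply, SF_fix_pt hh3 (j := 0) (by norm_num) (by simp), e1']
  · rw [Equiv.Perm.mul_apply, SF_fix_pt hh3 (j := 7) (by norm_num) (by simp), e2]

end Cfsg.Agent.H34
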