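import Cfsg.Agent.H34.M24Syl7
import Cfsg.Agent.H34.M22Sub
import Cfsg.Agent.S5604

/-!
# Subgroups of index 253 in a point stabiliser of `M24`

A subgroup of order `40320` of the stabiliser of a point contains (up to conjugacy) the normaliser
of a subgroup of order seven in the point stabiliser, by Sylow counting; the orbits of this
normaliser force the subgroup to fix a pair of points or an octad through the point.
-/

set_option autoImplicit false

namespace Cfsg.Agent.H34

open Cfsg Cfsg.Agent.H9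
open scoped Pointwise

/-- An element of the normaliser of the base subgroup of order seven fixing `gPt 0` and swapping
`gPt 1` and `gPt 2`. -/
def w253 : ℕ := 403032682424347017969892777015215168

/-- The triples whose products are the elements of the normaliser fixing `gPt 0`. -/
def T253 : List (ℕ × ℕ × ℕ) := NL2 ×ˢ (NL3 ×ˢ NQL)

theorem T253_length : T253.length = 42 := by
  unfold T253
  rw [List.length_product, List.length_product, NQL_length]
  rfl

theorem w253_mem : (w253, idP, idP) ∈ T253 := by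
  unfold T253
  rw [List.mem_product, List.mem_product, mem_NQL]
  exact ⟨by decide, by decide, by decide +kernel, by decide +kernel⟩

/-- The elements of the normaliser fixing `gPt 0`, as a finite set. -/
noncomputable def T253F : Finset (Equiv.Perm GolayPt) :=
  (T253.map (fun t => lperm t.1 * lperm t.2.1 * lperm t.2.2)).toFinset

theorem T253F_card : T253F.card ≤ 42 := by
  unfold T253F
  refine le_trans (List.toFinset_card_le _) ?_
  rw [List.length_map, T253_length]

theorem w253_mem_F : lperm w253 ∈ T253F := by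
  unfold T253F
  rw [List.mem_toFinset, List.mem_map]
  exact ⟨(w253, idP, idP), w253_mem, by simp only [lperm_idP, mul_one]⟩

/-- An element of `M24` fixing `gPt 0` and normalising the base subgroup of order seven is one of
the listed products. -/
theorem N23_mem {g : Equiv.Perm GolayPt} (hg : g ∈ M24) (h0 : g (gPt 0) = gPt 0)
    (hn : g * lperm u7P * g⁻¹ ∈ Subgroup.zpowers (lperm u7P)) : g ∈ T253F := by
  have hN : (⟨g, hg⟩ : ↥M24) ∈ Subgroup.normalizer (S7 : Set ↥M24) := by
    rw [mem_N7]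
    obtain ⟨k, hk, e⟩ := zpowers_pw (by norm_num) u7_pow7 hn
    refine ⟨k, hk, ?_⟩
    show g * lperm u7P = lperm (upw k) * g
    rw [upw_pow k (by omega), ← e]
    group
  have h1 : gIdx (g (gPt 1)) < 3 := N7_fix hN (i := 1) (by norm_num)
  have h2 := gPt_fix_of_lt (i := 1) (j := 0) (by norm_num) (by norm_num) h0 (by norm_num)
  have hj2 : gIdx (g (gPt 1)) ∈ [1, 2] := by
    have h3 : gIdx (g (gPt 1)) = 1 ∨ gIdx (g (gPt 1)) = 2 := by omega
    rcases h3 with h3 | h3 <;> rw [h3] <;> simp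
  obtain ⟨u, hu, eu⟩ := List.any_eq_true.mp (NL2_img _ hj2)
  have hu2 := List.all_eq_true.mp NL2_ok u hu
  simp only [Bool.and_eq_true] at hu2
  obtain ⟨uok, unb, -, u0⟩ := hu2
  have huv := okM24_svalid uok
  have hb : mkM u uok ∈ Subgroup.normalizer (S7 : Set ↥M24) := normB_sound uok unb
  have eb0 : lperm u (gPt 0) = gPt 0 := by
    rw [lperm_gPt huv (by norm_num), Nat.eq_of_beq_eq_true u0]
  have eb1 : lperm u (gPt 1) = g (gPt 1) := by
    rw [lperm_gPt huv (by norm_num), Nat.eq_of_beq_eq_true eu, gPt_gIdx]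
  have hn2 : (mkM u uok)⁻¹ * (⟨g, hg⟩ : ↥M24) ∈ Subgroup.normalizer (S7 : Set ↥M24) :=
    mul_mem (inv_mem hb) hN
  have e2 : ((lperm u)⁻¹ * g) (gPt 0) = gPt 0 := inv_mul_apply_eq eb0 h0
  have e2' : ((lperm u)⁻¹ * g) (gPt 1) = gPt 1 := inv_mul_apply_eq eb1 rfl
  have hj3 : gIdx (((lperm u)⁻¹ * g) (gPt 3)) ∈ NT3 := N7_closure hn2 e2 e2'
  obtain ⟨u3, hu3, eu3⟩ := List.any_eq_true.mp (NL3_img _ hj3)
  have hu32 := List.all_eq_true.mp NL3_ok u3 hu3
  simp only [Bool.and_eq_true] at hu32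
  obtain ⟨u3ok, u3nb, -, u30, u31⟩ := hu32
  have hu3v := okM24_svalid u3ok
  have hc : mkM u3 u3ok ∈ Subgroup.normalizer (S7 : Set ↥M24) := normB_sound u3ok u3nb
  have ec0 : lperm u3 (gPt 0) = gPt 0 := by
    rw [lperm_gPt hu3v (by norm_num), Nat.eq_of_beq_eq_true u30]
  have ec1 : lperm u3 (gPt 1) = gPt 1 := by
    rw [lperm_gPt hu3v (by norm_num), Nat.eq_of_beq_eq_true u31]
  have ec3 : lperm u3 (gPt 3) = ((lperm u)⁻¹ * g) (gPt 3) := by
    rw [lperm_gPt hu3v (by norm_num), Nat.eq_of_beq_eq_true eu3, gPt_gIdx]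
  have hn3 : (mkM u3 u3ok)⁻¹ * ((mkM u uok)⁻¹ * (⟨g, hg⟩ : ↥M24)) ∈
      Subgroup.normalizer (S7 : Set ↥M24) := mul_mem (inv_mem hc) hn2
  have e3 : ((lperm u3)⁻¹ * ((lperm u)⁻¹ * g)) (gPt 0) = gPt 0 := inv_mul_apply_eq ec0 e2
  have e3' : ((lperm u3)⁻¹ * ((lperm u)⁻¹ * g)) (gPt 1) = gPt 1 := inv_mul_apply_eq ec1 e2'
  have e3'' : ((lperm u3)⁻¹ * ((lperm u)⁻¹ * g)) (gPt 3) = gPt 3 := inv_mul_apply_eq ec3 rfl
  obtain ⟨s, hs, es⟩ := N7_step4 hn3 e3 e3' e3''
  have es' : (lperm u3)⁻¹ * ((lperm u)⁻¹ * g) = lperm s := es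
  unfold T253F
  rw [List.mem_toFinset, List.mem_map]
  refine ⟨(u, u3, s), ?_, ?_⟩
  · unfold T253
    rw [List.mem_product, List.mem_product]
    exact ⟨hu, hu3, hs⟩
  · show lperm u * lperm u3 * lperm s = g
    rw [← es']
    group

/-- Sylow counting at the prime 7 in a subgroup of order `40320` of the stabiliser of `gPt 0`
containing the base element of order seven. -/
theorem w253_in (K : Subgroup (Equiv.Perm GolayPt)) (hK : K ≤ M24)
    (h0 : ∀ g ∈ K, g (gPt 0) = gPt 0) (hc : Nat.card K = 40320) (hu : lperm u7P ∈ K) :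
    lperm w253 ∈ K := by
  haveI : Fact (Nat.Prime 7) := ⟨by norm_num⟩
  have hP : Nat.card (Subgroup.zpowers (lperm u7P)) = 7 := by
    rw [Nat.card_zpowers, orderOf_eq_prime u7_pow7 u7_ne_one]
  obtain ⟨m, h1, h2, h3, h4, h5⟩ := sylow_num K (Subgroup.zpowers (lperm u7P))
    (Subgroup.zpowers_le.mpr hu) hP (by
      rw [hc]
      exact fact_one (by norm_num) (by norm_num) (by norm_num) (by norm_num)) T253F
    (fun g hg hn => N23_mem (hK hg) (h0 g hg) (hn _ (Subgroup.mem_zpowers _)))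
  have hT := T253F_card
  rw [hc] at h3 h4
  have hm : m = 42 := by
    have h42 : m ≤ 42 := le_trans h1 hT
    clear h1 h5 hT
    obtain ⟨c, rfl⟩ := h2
    have hc6 : c ≤ 6 := by omega
    interval_cases c <;> simp_all
  exact h5 (by omega) _ w253_mem_F

/-! ### The orbits of the normaliser on the points -/

/-- The cycle of the base element of order seven fixed pointwise by the central involution. -/
def OA253 : ℕ := 5441616

/-- The two other cycles of the base element of order seven. -/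
def OBC253 : ℕ := 11335592

theorem pt_cases253 : ∀ i, i < 24 → i = 0 ∨ i = 1 ∨ i = 2 ∨ OA253.testBit i = true ∨
    OBC253.testBit i = true := by decide +kernel

theorem A_reach253 : ∀ i, i < 24 → OA253.testBit i = true → ∃ k, k < 7 ∧ sv (upw k) 4 = i := by
  decide +kernel

theorem BC_reach253 : ∀ i, i < 24 → OBC253.testBit i = true →
    ∃ k, k < 7 ∧ (sv (upw k) 3 = i ∨ sv (upw k) (sv w253 3) = i) := by decide +kernel

theorem w253_vals : sv w253 1 = 2 := by decide +kernel

theorem w253_val3 : sv w253 3 < 24 := by decide +kernel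

theorem w253_valid : svalid w253 = true := by decide +kernel

theorem OM_bits253 : ∀ i, i < 24 →
    ((5441617 : ℕ).testBit i = true ↔ i = 0 ∨ OA253.testBit i = true) := by decide +kernel

theorem six_bits253 : ∀ i, i < 24 → ((6 : ℕ).testBit i = true ↔ i = 1 ∨ i = 2) := by
  decide +kernel

/-- The point lies in the orbit of `gPt 1`. -/
def InOrb (K : Subgroup (Equiv.Perm GolayPt)) (p : GolayPt) : Prop := ∃ h ∈ K, h (gPt 1) = p

theorem inOrb_smul {K : Subgroup (Equiv.Perm GolayPt)} {g : Equiv.Perm GolayPt} (hg : g ∈ K)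
    (p : GolayPt) : InOrb K (g p) ↔ InOrb K p := by
  constructor
  · rintro ⟨h, hh, e⟩
    refine ⟨g⁻¹ * h, mul_mem (inv_mem hg) hh, ?_⟩
    rw [Equiv.Perm.mul_apply, e, perm_inv_apply]
  · rintro ⟨h, hh, e⟩
    exact ⟨g * h, mul_mem hg hh, by rw [Equiv.Perm.mul_apply, e]⟩

theorem upw_mem253 {K : Subgroup (Equiv.Perm GolayPt)} (hu : lperm u7P ∈ K) {k : ℕ}
    (hk : k < 7) : lperm (upw k) ∈ K := by
  rw [upw_pow k (by omega)]
  exact pow_mem hu k

theorem inOrb_A {K : Subgroup (Equiv.Perm GolayPt)} (hu : lperm u7P ∈ K) {i : ℕ} (hi : i < 24)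
    (hA : OA253.testBit i = true) : InOrb K (gPt i) ↔ InOrb K (gPt 4) := by
  obtain ⟨k, hk, e⟩ := A_reach253 i hi hA
  subst e
  rw [← lperm_gPt (upw_valid (by omega)) (by norm_num : 4 < 24)]
  exact inOrb_smul (upw_mem253 hu hk) _

theorem inOrb_BC {K : Subgroup (Equiv.Perm GolayPt)} (hu : lperm u7P ∈ K)
    (hw : lperm w253 ∈ K) {i : ℕ} (hi : i < 24) (hB : OBC253.testBit i = true) :
    InOrb K (gPt i) ↔ InOrb K (gPt 3) := by
  obtain ⟨k, hk, e | e⟩ := BC_reach253 i hi hB
  · subst e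
    rw [← lperm_gPt (upw_valid (by omega)) (by norm_num : 3 < 24)]
    exact inOrb_smul (upw_mem253 hu hk) _
  · subst e
    rw [← lperm_gPt (upw_valid (by omega)) w253_val3,
      ← lperm_gPt w253_valid (by norm_num : 3 < 24)]
    exact (inOrb_smul (upw_mem253 hu hk) _).trans (inOrb_smul hw _)

theorem inOrb_cases {K : Subgroup (Equiv.Perm GolayPt)} (hz : ¬ InOrb K (gPt 0))
    (hu : lperm u7P ∈ K) (hw : lperm w253 ∈ K) {p : GolayPt} (hp : InOrb K p) :
    gIdx p = 1 ∨ gIdx p = 2 ∨ (OA253.testBit (gIdx p) = true ∧ InOrb K (gPt 4)) ∨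
      (OBC253.testBit (gIdx p) = true ∧ InOrb K (gPt 3)) := by
  have hp' : InOrb K (gPt (gIdx p)) := by rw [gPt_gIdx]; exact hp
  rcases pt_cases253 (gIdx p) (gIdx_lt p) with c | c | c | c | c
  · exfalso
    apply hz
    rw [← c]
    exact hp'
  · exact Or.inl c
  · exact Or.inr (Or.inl c)
  · exact Or.inr (Or.inr (Or.inl ⟨c, (inOrb_A hu (gIdx_lt p) c).mp hp'⟩))
  · exact Or.inr (Or.inr (Or.inr ⟨c, (inOrb_BC hu hw (gIdx_lt p) c).mp hp'⟩))

theorem smul_fs_eq_of_forall {g : Equiv.Perm GolayPt} {m : ℕ} (h : ∀ p ∈ fs m, g p ∈ fs m) :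
    g • fs m = fs m := by
  apply Finset.eq_of_subset_of_card_le
  · intro x hx
    rw [Finset.mem_smul_finset] at hx
    obtain ⟨y, hy, rfl⟩ := hx
    exact h y hy
  · rw [Finset.card_smul_finset]

theorem OM253_mem : fs 5441617 ∈ octads := by
  have h := TRL_oct 5441617 (by decide)
  exact fs_mem_octads h.1 h.2

/-- A subgroup of order `40320` of the stabiliser of `gPt 0` containing the normaliser fixes the
pair `{gPt 1, gPt 2}` or the octad of the fixed cycle. -/
theorem orbit_dich (K : Subgroup (Equiv.Perm GolayPt)) (hK : K ≤ M24)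
    (h0 : ∀ g ∈ K, g (gPt 0) = gPt 0) (hc : Nat.card K = 40320) (hu : lperm u7P ∈ K)
    (hw : lperm w253 ∈ K) :
    (∀ g ∈ K, g • fs 6 = fs 6) ∨ (∀ g ∈ K, g • fs 5441617 = fs 5441617) := by
  have hne01 : gPt 1 ≠ gPt 0 := by
    intro h
    have h1 := congrArg gIdx h
    rw [gIdx_gPt (by norm_num), gIdx_gPt (by norm_num)] at h1
    exact absurd h1 (by norm_num)
  have hz : ¬ InOrb K (gPt 0) := by
    rintro ⟨h, hh, e⟩
    exact hne01 (h.injective (e.trans (h0 h hh).symm))
  have h1 : InOrb K (gPt 1) := ⟨1, one_mem K, rfl⟩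
  have h2 : InOrb K (gPt 2) :=
    ⟨lperm w253, hw, by rw [lperm_gPt w253_valid (by norm_num), w253_vals]⟩
  by_cases PA : InOrb K (gPt 4) <;> by_cases PB : InOrb K (gPt 3)
  · exfalso
    have horb : MulAction.orbit K (gPt 1) = {gPt 0}ᶜ := by
      ext p
      rw [MulAction.mem_orbit_iff, Set.mem_compl_iff, Set.mem_singleton_iff]
      constructor
      · rintro ⟨⟨h, hh⟩, rfl⟩ e
        exact hz ⟨h, hh, e⟩
      · intro hp
        have hin : InOrb K (gPt (gIdx p)) := by
          rcases pt_cases253 (gIdx p) (gIdx_lt p) with c | c | c | c | c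
          · exact absurd (by rw [← gPt_gIdx p, c]) hp
          · rw [c]; exact h1
          · rw [c]; exact h2
          · exact (inOrb_A hu (gIdx_lt p) c).mpr PA
          · exact (inOrb_BC hu hw (gIdx_lt p) c).mpr PB
        rw [gPt_gIdx] at hin
        obtain ⟨h, hh, e⟩ := hin
        exact ⟨⟨h, hh⟩, e⟩
    have h3 := card_eq_orbit_mul_inf K (gPt 1)
    rw [horb, Set.ncard_compl, Set.ncard_singleton, card_golayPt, hc] at h3
    have h4 : 23 ∣ 40320 := ⟨_, h3⟩
    norm_num at h4
  · right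
    intro g hg
    have hsub : ∀ q ∈ g • fs 5441617, q ∈ fs 5441617 ∨ q ∈ fs 6 := by
      intro q hq
      rw [Finset.mem_smul_finset] at hq
      obtain ⟨p, hp, rfl⟩ := hq
      rcases (OM_bits253 _ (gIdx_lt p)).mp (mem_fs.mp hp) with c | c
      · left
        have e : p = gPt 0 := by rw [← gPt_gIdx p, c]
        show g p ∈ fs 5441617
        rw [e, h0 g hg]
        exact (gPt_mem_fs _ (by norm_num)).mpr (by decide +kernel)
      · have hp1 : InOrb K (gPt (gIdx p)) := (inOrb_A hu (gIdx_lt p) c).mpr PA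
        rw [gPt_gIdx] at hp1
        have hp2 : InOrb K (g p) := (inOrb_smul hg p).mpr hp1
        rcases inOrb_cases hz hu hw hp2 with d | d | d | d
        · right
          exact mem_fs.mpr ((six_bits253 _ (gIdx_lt _)).mpr (Or.inl d))
        · right
          exact mem_fs.mpr ((six_bits253 _ (gIdx_lt _)).mpr (Or.inr d))
        · left
          exact mem_fs.mpr ((OM_bits253 _ (gIdx_lt _)).mpr (Or.inr d.1))
        · exact absurd d.2 PB
    have hsd : (g • fs 5441617 \ fs 5441617).card ≤ 2 := by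
      have h6 : (fs 6).card = 2 := by rw [card_fs']; decide +kernel
      rw [← h6]
      apply Finset.card_le_card
      intro q hq
      rw [Finset.mem_sdiff] at hq
      rcases hsub q hq.1 with d | d
      · exact absurd d hq.2
      · exact d
    have h8 : (g • fs 5441617).card = 8 := by
      rw [Finset.card_smul_finset]
      exact OM253_mem.2
    have hi := Finset.card_sdiff_add_card_inter (g • fs 5441617) (fs 5441617)
    have h5 : 5 ≤ (g • fs 5441617 ∩ fs 5441617).card := by omega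
    obtain ⟨s, hs, hs5⟩ := Finset.exists_subset_card_eq h5
    exact octad_unique (Cfsg.Agent.H9.smul_mem_octads (hK hg) OM253_mem) OM253_mem hs5
      (fun p hp => (Finset.mem_inter.mp (hs hp)).1) (fun p hp => (Finset.mem_inter.mp (hs hp)).2)
  · right
    intro g hg
    apply smul_fs_eq_of_forall
    intro p hp
    rcases (OM_bits253 _ (gIdx_lt p)).mp (mem_fs.mp hp) with c | c
    · have e : p = gPt 0 := by rw [← gPt_gIdx p, c]
      rw [e, h0 g hg]
      exact (gPt_mem_fs _ (by norm_num)).mpr (by decide +kernel)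
    · have hp1 : ¬ InOrb K (g p) := by
        intro h
        apply PA
        have h' := (inOrb_smul hg p).mp h
        rw [← gPt_gIdx p] at h'
        exact (inOrb_A hu (gIdx_lt p) c).mp h'
      rcases pt_cases253 (gIdx (g p)) (gIdx_lt _) with d | d | d | d | d
      · exact mem_fs.mpr ((OM_bits253 _ (gIdx_lt _)).mpr (Or.inl d))
      · exfalso
        apply hp1
        rw [← gPt_gIdx (g p), d]
        exact h1
      · exfalso
        apply hp1
        rw [← gPt_gIdx (g p), d]
        exact h2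
      · exact mem_fs.mpr ((OM_bits253 _ (gIdx_lt _)).mpr (Or.inr d))
      · exfalso
        apply hp1
        rw [← gPt_gIdx (g p)]
        exact (inOrb_BC hu hw (gIdx_lt _) d).mpr PB
  · left
    intro g hg
    apply smul_fs_eq_of_forall
    intro p hp
    have hp1 : InOrb K p := by
      rcases (six_bits253 _ (gIdx_lt p)).mp (mem_fs.mp hp) with c | c
      · rw [← gPt_gIdx p, c]
        exact h1
      · rw [← gPt_gIdx p, c]
        exact h2
    have hp2 : InOrb K (g p) := (inOrb_smul hg p).mpr hp1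
    rcases inOrb_cases hz hu hw hp2 with d | d | d | d
    · exact mem_fs.mpr ((six_bits253 _ (gIdx_lt _)).mpr (Or.inl d))
    · exact mem_fs.mpr ((six_bits253 _ (gIdx_lt _)).mpr (Or.inr d))
    · exact absurd d.2 PA
    · exact absurd d.2 PB

/-! ### The orders of the two stabilisers -/

theorem card_SF_61 : Nat.card (SF [6, 1]) ≤ 40320 := by
  have h := card_SF_cons [6, 1] 2
  have horb : (MulAction.orbit (SF [6, 1]) (fs 2)).ncard ≤ 2 := by
    have hsub : MulAction.orbit (SF [6, 1]) (fs 2) ⊆ ({fs 2, fs 4} : Set (Finset GolayPt)) := by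
      rintro _ ⟨⟨g, hg⟩, rfl⟩
      show g • fs (2 ^ 1) ∈ ({fs (2 ^ 1), fs (2 ^ 2)} : Set (Finset GolayPt))
      have hm : g (gPt 1) ∈ fs 6 := (SF_mem_fs hg (m := 6) (by simp)).mpr
        ((gPt_mem_fs 6 (by norm_num)).mpr (by decide +kernel))
      rw [smul_fs_pt g (a := 1) (by norm_num)]
      rcases (six_bits253 _ (gIdx_lt _)).mp (mem_fs.mp hm) with c | c
      · rw [c]
        exact Or.inl rfl
      · rw [c]
        exact Or.inr rfl
    refine le_trans (Set.ncard_le_ncard hsub (Set.toFinite _)) ?_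
    refine le_trans (Set.ncard_insert_le _ _) ?_
    rw [Set.ncard_singleton]
  have hle : SF [2, 6, 1] ≤ SF [4, 2, 1] := by
    intro g hg
    refine ⟨hg.1, ?_⟩
    intro a ha
    simp only [List.mem_cons, List.not_mem_nil, or_false] at ha
    rcases ha with rfl | rfl | rfl
    · have f1 : g (gPt 1) = gPt 1 := SF_fix_pt hg (j := 1) (by norm_num) (by simp)
      have hm : g (gPt 2) ∈ fs 6 := (SF_mem_fs hg (m := 6) (by simp)).mpr
        ((gPt_mem_fs 6 (by norm_num)).mpr (by decide +kernel))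
      have hne := gPt_fix_of_lt (i := 2) (j := 1) (by norm_num) (by norm_num) f1 (by norm_num)
      rcases (six_bits253 _ (gIdx_lt _)).mp (mem_fs.mp hm) with c | c
      · exact absurd c hne
      · have e := smul_fs_pt g (a := 2) (by norm_num)
        rw [c] at e
        exact e
    · exact hg.2 2 (by simp)
    · exact hg.2 1 (by simp)
  have h3 : Nat.card (SF [2, 6, 1]) ≤ 20160 := by
    rw [← card_SF_P3]
    exact Subgroup.card_le_of_le hle
  rw [h]
  calc (MulAction.orbit (SF [6, 1]) (fs 2)).ncard * Nat.card (SF [2, 6, 1]) ≤ 2 * 20160 :=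
        Nat.mul_le_mul horb h3
    _ = 40320 := by norm_num

theorem orbit_O0 : MulAction.orbit (SF []) (fs O0) = octads := by
  ext u
  constructor
  · rintro ⟨g, rfl⟩
    exact Cfsg.Agent.H9.smul_mem_octads (SF_le_M24 g.2) O0_mem_octads
  · intro hu
    obtain ⟨g, hg, h⟩ := octad_trans hu
    exact ⟨⟨g, by rw [SF_nil]; exact hg⟩, h⟩

theorem card_SF_O0 : Nat.card (SF [O0]) = 322560 := by
  have h := card_SF_cons [] O0
  rw [orbit_O0, octads_ncard, card_SF_nil] at h
  omega

theorem card_SF_O01 : Nat.card (SF [1, O0]) = 40320 := by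
  have h := card_SF_cons [O0] 1
  have h2 : (MulAction.orbit (SF [O0]) (fs 1)).ncard = 8 := by
    refine orbit_pt_ncard (a := 0) stabO_in_ok (by norm_num) (by decide) (by decide) ?_
    intro g hg
    exact in_targets _ (gIdx_lt _) (by
      rw [SF_testBit hg (m := O0) (List.mem_singleton.mpr rfl), gIdx_gPt (by norm_num)]
      decide +kernel)
  rw [h2, card_SF_O0] at h
  omega

theorem card_SF_OM1 : Nat.card (SF [5441617, 1]) = 40320 := by
  have h0 : gPt 0 ∈ fs 5441617 := (gPt_mem_fs _ (by norm_num)).mpr (by decide +kernel)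
  obtain ⟨g, hg, e1, e2⟩ := flag_trans OM253_mem h0
  have e1' : g⁻¹ • fs O0 = fs 5441617 := inv_smul_eq_iff.mpr e1.symm
  have e3 : g • fs 1 = fs 1 := by
    have e := smul_fs_pt g (a := 0) (by norm_num)
    rw [e2, gIdx_gPt (by norm_num)] at e
    exact e
  have e3' : g⁻¹ • fs 1 = fs 1 := inv_smul_eq_iff.mpr e3.symm
  rw [← card_SF_O01]
  refine Cfsg.Agent.S5604.card_transfer (g := g⁻¹) (fun n => ?_)
  rw [mem_SF, mem_SF]
  constructor
  · rintro ⟨hn, hf⟩
    refine ⟨mul_mem (mul_mem (inv_mem (inv_mem hg)) hn) (inv_mem hg), ?_⟩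
    intro a ha
    simp only [List.mem_cons, List.not_mem_nil, or_false] at ha
    rcases ha with rfl | rfl
    · rw [conj_fix_set, e3']
      exact hf 1 (by simp)
    · rw [conj_fix_set, e1']
      exact hf 5441617 (by simp)
  · rintro ⟨hn, hf⟩
    refine ⟨?_, ?_⟩
    · have e : n = g⁻¹ * (g⁻¹⁻¹ * n * g⁻¹) * g⁻¹⁻¹ := by group
      rw [e]
      exact mul_mem (mul_mem (inv_mem hg) hn) (inv_mem (inv_mem hg))
    · intro a ha
      simp only [List.mem_cons, List.not_mem_nil, or_false] at ha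
      rcases ha with rfl | rfl
      · have h1 := hf O0 (by simp)
        rw [conj_fix_set, e1'] at h1
        exact h1
      · have h1 := hf 1 (by simp)
        rw [conj_fix_set, e3'] at h1
        exact h1

/-- A subgroup of order `40320` of the stabiliser of `gPt 0` containing the base element of order
seven is the stabiliser of a pair or of an octad. -/
theorem sub253_std (K : Subgroup (Equiv.Perm GolayPt)) (hK : K ≤ M24)
    (h0 : ∀ g ∈ K, g (gPt 0) = gPt 0) (hc : Nat.card K = 40320) (hu : lperm u7P ∈ K) :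
    K = SF [6, 1] ∨ K = SF [5441617, 1] := by
  have hw := w253_in K hK h0 hc hu
  have hf1 : ∀ g ∈ K, g • fs 1 = fs 1 := by
    intro g hg
    have e := smul_fs_pt g (a := 0) (by norm_num)
    rw [h0 g hg, gIdx_gPt (by norm_num)] at e
    exact e
  rcases orbit_dich K hK h0 hc hu hw with h | h
  · left
    refine Subgroup.eq_of_le_of_card_ge ?_ (by rw [hc]; exact card_SF_61)
    intro g hg
    refine ⟨hK hg, ?_⟩
    intro a ha
    simp only [List.mem_cons, List.not_mem_nil, or_false] at ha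
    rcases ha with rfl | rfl
    · exact h g hg
    · exact hf1 g hg
  · right
    refine Subgroup.eq_of_le_of_card_ge ?_ (by rw [hc, card_SF_OM1])
    intro g hg
    refine ⟨hK hg, ?_⟩
    intro a ha
    simp only [List.mem_cons, List.not_mem_nil, or_false] at ha
    rcases ha with rfl | rfl
    · exact h g hg
    · exact hf1 g hg

/-! ### Conjugation to the standard position -/

theorem conj_mem_SF2 {d k : Equiv.Perm GolayPt} (hd : d ∈ M24) {m : ℕ} :
    d⁻¹ * k * d ∈ SF [m, 1] ↔
      (k ∈ M24 ∧ k (d (gPt 0)) = d (gPt 0) ∧ k • (d • fs m) = d • fs m) := by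
  rw [mem_SF]
  have e1 : d • fs 1 = {d (gPt 0)} := by
    rw [show (1 : ℕ) = 2 ^ 0 from rfl, fs_two_pow (by norm_num), Finset.smul_finset_singleton]
    rfl
  constructor
  · rintro ⟨hM, hf⟩
    refine ⟨?_, ?_, ?_⟩
    · have e : k = d * (d⁻¹ * k * d) * d⁻¹ := by group
      rw [e]
      exact mul_mem (mul_mem hd hM) (inv_mem hd)
    · have h1 := (conj_fix_set d k (fs 1)).mp (hf 1 (by simp))
      rw [e1, Finset.smul_finset_singleton, Finset.singleton_inj] at h1
      exact h1
    · exact (conj_fix_set d k (fs m)).mp (hf m (by simp))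
  · rintro ⟨hM, h1, h2⟩
    refine ⟨mul_mem (mul_mem (inv_mem hd) hM) hd, ?_⟩
    intro a ha
    simp only [List.mem_cons, List.not_mem_nil, or_false] at ha
    rcases ha with rfl | rfl
    · exact (conj_fix_set d k (fs a)).mpr h2
    · rw [conj_fix_set, e1, Finset.smul_finset_singleton, Finset.singleton_inj]
      exact h1

/-- A subgroup of order `40320` of `M24` fixing a point is the stabiliser in the point stabiliser
of a pair of points or of an octad through the point. -/
theorem sub253 (x : GolayPt) (K : Subgroup (Equiv.Perm GolayPt)) (hK : K ≤ M24)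
    (hx : ∀ g ∈ K, g x = x) (hc : Nat.card K = 40320) :
    (∃ s : Finset GolayPt, s.card = 2 ∧ x ∉ s ∧
      ∀ g, g ∈ K ↔ (g ∈ M24 ∧ g x = x ∧ g • s = s)) ∨
    (∃ o ∈ octads, x ∈ o ∧ ∀ g, g ∈ K ↔ (g ∈ M24 ∧ g x = x ∧ g • o = o)) := by
  have hfin := finite_M24
  haveI : Fact (Nat.Prime 7) := ⟨by norm_num⟩
  obtain ⟨y, hy⟩ := exists_prime_orderOf_dvd_card' (G := ↥K) 7 (by rw [hc]; norm_num)
  have hyM : (y : Equiv.Perm GolayPt) ∈ M24 := hK y.2
  have hy' : orderOf (⟨(y : Equiv.Perm GolayPt), hyM⟩ : ↥M24) = 7 := by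
    rw [Subgroup.orderOf_mk, Subgroup.orderOf_coe, hy]
  obtain ⟨g, hg⟩ := sylow_conj (G := ↥M24) (p := 7) Cfsg.Agent.S5604.fact_seven
    (S := Subgroup.zpowers (⟨(y : Equiv.Perm GolayPt), hyM⟩ : ↥M24)) (S0 := S7)
    (by rw [Nat.card_zpowers, hy']) card_S7
  have h1 : g * u7M * g⁻¹ ∈ Subgroup.zpowers (⟨(y : Equiv.Perm GolayPt), hyM⟩ : ↥M24) :=
    (hg _).mpr (by
      have e : g⁻¹ * (g * u7M * g⁻¹) * g = u7M := by group
      rw [e]
      exact u7M_mem)
  have h2 : (g : Equiv.Perm GolayPt) * lperm u7P * (g : Equiv.Perm GolayPt)⁻¹ ∈ K := by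
    obtain ⟨k, hk⟩ := Subgroup.mem_zpowers_iff.mp h1
    have e := congrArg Subtype.val hk
    rw [Subgroup.coe_zpow] at e
    have e' : (y : Equiv.Perm GolayPt) ^ k =
        (g : Equiv.Perm GolayPt) * lperm u7P * (g : Equiv.Perm GolayPt)⁻¹ := e
    rw [← e']
    exact zpow_mem y.2 k
  have hx1 : lperm u7P ((g : Equiv.Perm GolayPt)⁻¹ x) = (g : Equiv.Perm GolayPt)⁻¹ x := by
    have h3 := hx _ h2
    rw [Equiv.Perm.mul_apply, Equiv.Perm.mul_apply] at h3
    rw [Equiv.Perm.eq_inv_iff_eq]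
    exact h3
  have hlt : gIdx ((g : Equiv.Perm GolayPt)⁻¹ x) < 3 := by
    rcases upw_fix 1 (by norm_num) with h | h
    · exact absurd h (by norm_num)
    · apply h _ (gIdx_lt _)
      have h4 := congrArg gIdx hx1
      rw [gIdx_lperm u7P_valid] at h4
      exact h4
  obtain ⟨n, hn, en, -⟩ := N7_reach1 _ (List.mem_range.mpr hlt)
  rw [gPt_gIdx] at en
  have h5 : n * u7M * n⁻¹ ∈ S7 := (Subgroup.mem_normalizer_iff.mp hn u7M).mp u7M_mem
  obtain ⟨j, hj, ej⟩ := mem_S7.mp h5
  have ej' : (n : Equiv.Perm GolayPt) * lperm u7P * (n : Equiv.Perm GolayPt)⁻¹ =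
      lperm (upw j) := ej
  have hdM : (g : Equiv.Perm GolayPt) * (n : Equiv.Perm GolayPt) ∈ M24 := mul_mem g.2 n.2
  have hd0 : ((g : Equiv.Perm GolayPt) * (n : Equiv.Perm GolayPt)) (gPt 0) = x := by
    rw [Equiv.Perm.mul_apply, en, perm_apply_inv]
  have h6 : (g : Equiv.Perm GolayPt) * (n : Equiv.Perm GolayPt) * lperm u7P *
      ((g : Equiv.Perm GolayPt) * (n : Equiv.Perm GolayPt))⁻¹ ∈ K := by
    have e : (g : Equiv.Perm GolayPt) * (n : Equiv.Perm GolayPt) * lperm u7P *
        ((g : Equiv.Perm GolayPt) * (n : Equiv.Perm GolayPt))⁻¹ =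
        ((g : Equiv.Perm GolayPt) * lperm u7P * (g : Equiv.Perm GolayPt)⁻¹) ^ j := by
      rw [conj_pow, ← upw_pow j (by omega), ← ej']
      group
    rw [e]
    exact pow_mem h2 j
  generalize (g : Equiv.Perm GolayPt) * (n : Equiv.Perm GolayPt) = d at hdM hd0 h6
  have hmem : ∀ k, k ∈ K ↔ d⁻¹ * k * d ∈ K.map (MulAut.conj d⁻¹).toMonoidHom := by
    intro k
    constructor
    · intro hk
      refine ⟨k, hk, ?_⟩
      show (MulAut.conj d⁻¹) k = d⁻¹ * k * d
      rw [MulAut.conj_apply, inv_inv]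
    · rintro ⟨k', hk', e⟩
      have e2 : d⁻¹ * k' * d⁻¹⁻¹ = d⁻¹ * k * d := e
      rw [inv_inv] at e2
      have e3 : k' = k := mul_left_cancel (mul_right_cancel e2)
      rw [← e3]
      exact hk'
  have hK2 : K.map (MulAut.conj d⁻¹).toMonoidHom ≤ M24 := by
    rintro _ ⟨k, hk, rfl⟩
    show (MulAut.conj d⁻¹) k ∈ M24
    rw [MulAut.conj_apply]
    exact mul_mem (mul_mem (inv_mem hdM) (hK hk)) (inv_mem (inv_mem hdM))
  have h02 : ∀ k2 ∈ K.map (MulAut.conj d⁻¹).toMonoidHom, k2 (gPt 0) = gPt 0 := by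
    rintro _ ⟨k, hk, rfl⟩
    show (MulAut.conj d⁻¹) k (gPt 0) = gPt 0
    rw [MulAut.conj_apply, inv_inv, Equiv.Perm.mul_apply, Equiv.Perm.mul_apply, hd0, hx k hk,
      ← hd0, perm_inv_apply]
  have hc2 : Nat.card (K.map (MulAut.conj d⁻¹).toMonoidHom) = 40320 := by
    rw [Subgroup.card_map_of_injective (MulAut.conj d⁻¹).injective, hc]
  have hu2 : lperm u7P ∈ K.map (MulAut.conj d⁻¹).toMonoidHom := by
    have h7 := (hmem _).mp h6
    have e : d⁻¹ * (d * lperm u7P * d⁻¹) * d = lperm u7P := by group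
    rw [e] at h7
    exact h7
  rcases sub253_std _ hK2 h02 hc2 hu2 with h | h
  · left
    refine ⟨d • fs 6, ?_, ?_, ?_⟩
    · rw [Finset.card_smul_finset, card_fs']
      decide +kernel
    · rw [← hd0]
      intro hmem6
      rw [Finset.mem_smul_finset] at hmem6
      obtain ⟨y6, hy6, e6⟩ := hmem6
      have e7 : y6 = gPt 0 := d.injective e6
      rw [e7, gPt_mem_fs 6 (by norm_num)] at hy6
      exact absurd hy6 (by decide +kernel)
    · intro k
      rw [hmem k, h, conj_mem_SF2 hdM, hd0]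
  · right
    refine ⟨d • fs 5441617, Cfsg.Agent.H9.smul_mem_octads hdM OM253_mem, ?_, ?_⟩
    · rw [← hd0]
      exact Finset.smul_mem_smul_finset ((gPt_mem_fs _ (by norm_num)).mpr (by decide +kernel))
    · intro k
      rw [hmem k, h, conj_mem_SF2 hdM, hd0]

end Cfsg.Agent.H34
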