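import Cfsg.Agent.H34.M24Q4
import Cfsg.Prelude.Def_SporadicCombinatorics

/-!
# Fixed-point-free involutions of `M24` and their centralisers (helper34 library)

All fixed-point-free involutions of `M24` are conjugate to `lperm fpP`; the centraliser of
`lperm fpP` in `M24` has order `7680 = 24 * 20 * 16`, is transitive on the points and fixes a
sextet.
-/

set_option autoImplicit false

namespace Cfsg.Agent.H34

open Cfsg Cfsg.Agent.H9
open scoped Pointwise

/-! ### Generic tools -/

/-- The centraliser in `M24` of a permutation. -/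
def CentM (t : Equiv.Perm GolayPt) : Subgroup (Equiv.Perm GolayPt) where
  carrier := {c | c ∈ M24 ∧ c * t = t * c}
  one_mem' := ⟨one_mem _, by rw [one_mul, mul_one]⟩
  mul_mem' := by
    rintro a b ⟨ha, ha'⟩ ⟨hb, hb'⟩
    exact ⟨mul_mem ha hb, by rw [mul_assoc, hb', ← mul_assoc, ha', mul_assoc]⟩
  inv_mem' := by
    rintro a ⟨ha, ha'⟩
    refine ⟨inv_mem ha, ?_⟩
    have e : a⁻¹ * t = a⁻¹ * (t * a) * a⁻¹ := by group
    rw [e, ← ha']
    group

theorem mem_CentM {t c : Equiv.Perm GolayPt} : c ∈ CentM t ↔ c ∈ M24 ∧ c * t = t * c := Iff.rfl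

theorem conj_comm {g c t : Equiv.Perm GolayPt} (h : c * t = t * c) :
    (g * c * g⁻¹) * (g * t * g⁻¹) = (g * t * g⁻¹) * (g * c * g⁻¹) := by
  calc (g * c * g⁻¹) * (g * t * g⁻¹) = g * (c * t) * g⁻¹ := by group
    _ = g * (t * c) * g⁻¹ := by rw [h]
    _ = (g * t * g⁻¹) * (g * c * g⁻¹) := by group

theorem gIdx_lperm_mul3 {r s t : ℕ} (hr : svalid r = true) (hs : svalid s = true)
    (ht : svalid t = true) (p : GolayPt) :
    gIdx ((lperm r * lperm s * lperm t) p) = sv r (sv s (sv t (gIdx p))) := by
  rw [Equiv.Perm.mul_apply, Equiv.Perm.mul_apply, gIdx_lperm hr, gIdx_lperm hs, gIdx_lperm ht]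

theorem lperm_gPt {s : ℕ} (h : svalid s = true) {i : ℕ} (hi : i < 24) :
    lperm s (gPt i) = gPt (sv s i) := by
  rw [lperm_apply h, gIdx_gPt hi]

/-- The number of elements of a subgroup enumerated by a list with distinct keys. -/
theorem card_of_list {H : Subgroup (Equiv.Perm GolayPt)} {EL : List ℕ} {key : ℕ → ℕ}
    (hkey : ∀ s s', svalid s = true → svalid s' = true → lperm s = lperm s' → key s = key s')
    (hnd : (EL.map key).Nodup) (hv : ∀ s ∈ EL, svalid s = true)
    (hmem : ∀ s ∈ EL, lperm s ∈ H) (henum : ∀ g ∈ H, ∃ s ∈ EL, g = lperm s) :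
    Nat.card H = EL.length := by
  classical
  have hinj : ∀ s ∈ EL, ∀ s' ∈ EL, lperm s = lperm s' → s = s' := fun s hs s' hs' e =>
    List.inj_on_of_nodup_map hnd hs hs' (hkey s s' (hv s hs) (hv s' hs') e)
  have hnd' : (EL.map lperm).Nodup := List.Nodup.map_on hinj (List.Nodup.of_map _ hnd)
  have hset : (H : Set (Equiv.Perm GolayPt)) = ↑(EL.map lperm).toFinset := by
    ext g
    simp only [List.mem_toFinset, List.mem_map, SetLike.mem_coe]
    constructor
    · intro hg
      obtain ⟨s, hs, e⟩ := henum g hg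
      exact ⟨s, hs, e.symm⟩
    · rintro ⟨s, hs, rfl⟩
      exact hmem s hs
  have h1 : Nat.card H = (H : Set (Equiv.Perm GolayPt)).ncard :=
    Nat.card_coe_set_eq (H : Set (Equiv.Perm GolayPt))
  rw [h1, hset, Set.ncard_coe_finset, List.toFinset_card_of_nodup hnd', List.length_map]

/-- The product of the packed permutations `r`, `s` commutes with `t`. -/
def comm3 (r s t : ℕ) : Bool :=
  allB (fun i => Nat.beq (sv r (sv s (sv t i))) (sv t (sv r (sv s i)))) 24

theorem comm3_complete {r s t : ℕ} (hr : svalid r = true) (hs : svalid s = true)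
    (ht : svalid t = true) (h : lperm r * lperm s * lperm t = lperm t * (lperm r * lperm s)) :
    comm3 r s t = true := by
  rw [comm3, allB_iff]
  intro i hi
  have h1 := congrArg (fun g : Equiv.Perm GolayPt => gIdx (g (gPt i))) h
  have e : lperm t * (lperm r * lperm s) = lperm t * lperm r * lperm s := by group
  rw [e] at h1
  simp only [gIdx_lperm_mul3 hr hs ht, gIdx_lperm_mul3 ht hr hs, gIdx_gPt hi] at h1
  rw [h1]
  exact Nat.beq_refl _

/-- The product of the packed permutations `t`, `s` is an involution without fixed points. -/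
def fiB (t s : ℕ) : Bool :=
  allB (fun i => Nat.beq (sv t (sv s (sv t (sv s i)))) i && !(Nat.beq (sv t (sv s i)) i)) 24

theorem fiB_complete {t s : ℕ} (ht : svalid t = true) (hs : svalid s = true)
    (h2 : (lperm t * lperm s) * (lperm t * lperm s) = 1)
    (h0 : ∀ p, (lperm t * lperm s) p ≠ p) : fiB t s = true := by
  rw [fiB, allB_iff]
  intro i hi
  have h1 := congrArg (fun g : Equiv.Perm GolayPt => gIdx (g (gPt i))) h2
  simp only [Equiv.Perm.mul_apply, Equiv.Perm.one_apply, gIdx_lperm ht, gIdx_lperm hs,
    gIdx_gPt hi] at h1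
  have h3 : sv t (sv s i) ≠ i := by
    intro hc
    apply h0 (gPt i)
    apply gIdx_injective
    rw [gIdx_lperm_mul ht hs, gIdx_gPt hi, hc]
  rw [h1, Nat.beq_refl, Bool.true_and]
  cases hb : Nat.beq (sv t (sv s i)) i
  · rfl
  · exact absurd (Nat.eq_of_beq_eq_true hb) h3

/-- The packed permutation `c` conjugates the product of `t` and `s` to `t`. -/
def cj3 (c t s : ℕ) : Bool :=
  allB (fun i => Nat.beq (sv c (sv t (sv s i))) (sv t (sv c i))) 24

theorem cj3_sound {c t s : ℕ} (hc : svalid c = true) (ht : svalid t = true)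
    (hs : svalid s = true) (h : cj3 c t s = true) :
    lperm c * (lperm t * lperm s) = lperm t * lperm c := by
  apply Equiv.ext
  intro p
  apply gIdx_injective
  have e : lperm c * (lperm t * lperm s) = lperm c * lperm t * lperm s := by group
  rw [e, gIdx_lperm_mul3 hc ht hs, gIdx_lperm_mul ht hc]
  exact Nat.eq_of_beq_eq_true ((allB_iff _ _).mp h _ (gIdx_lt p))

/-! ### The base involution and conjugacy -/

/-- The packed base fixed-point-free involution. -/
def fpP : ℕ := 649430647857815575473020273649847297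

theorem fpP_ok : okM24 fpP = true := by decide +kernel

theorem fpP_valid : svalid fpP = true := okM24_svalid fpP_ok

theorem fpP_mem : lperm fpP ∈ M24 := lperm_mem_M24 fpP_ok

theorem fpP_sv : sv fpP 0 = 1 ∧ sv fpP 1 = 0 ∧ sv fpP 2 = 3 ∧ sv fpP 3 = 2 := by decide +kernel

/-- Conjugators. -/
def FPC : List ℕ := [721222209842103915789867246118211651, 278077625958229726726132400226599415, 964932099466258537660215218839658963, 977956471101926932945590627922579826, 965120894080567008933806480035293806, 965337906128633278310011149912118739, 984818244535754528103549039458486304, 185843351223901180317981520893268590, 955437939733850695345071824642941026, 321368602907113321526672288873919820, 967655235779346863430342762235861253, 969711715103646926926447718126987926, 5570734493074056352167929114211795, 966299668760612265987785793170001558, 42446777960420241401619676677854275, 971256579105531773160646199792055958, 981478821547179909400863642782910993, 30074537841047542345070379981312370, 892167881974228463263923707247277057,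 183528807480281130878902429289038915, 30593879492623042987236712060076260, 957375868467416311477735793717480653, 27961188691239782504410121016390884, 960860550439098853171473751969420817, 967074617994972572202659506887806157, 609205482375580123009200681271182471, 506580162121223521610857971445694967, 301175684575401212708890636919714914, 3394112441433944126845651530597076, 259763171090953755557678257429400174, 626373559882539531389532468462077984, 962566005998108645480842949666753868, 967527392686242066987210593358269668, 974946736690954359292371194902758605, 917049787958498616591406488837762608, 2851527264634583933149886216297035, 979448550818993553724869693857104266, 589453769062031507771202748366072311, 194366694042001758845421350394605600, 965176595867064859405950975938135462, 152416733123070429447319636324014112, 8278682087748639783451967769655825, 976614704443291193866078204469583315, 559115129993133929045582959831388192, 274508996034813008840350341201397296, 21279114174735931782973771190842466, 977573643518340103548437171363554891,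 481141987384442459414200705708429815, 51931231048644328353698865405746570, 274366560161236444836822609692246519, 628743770665611038463816661515019296, 108029976846871092946551054150145527, 967772778179157009378626635549809227, 255775937653640330038936082820968951, 963968043487500724085987495258736775, 758184491037126212070119030257848823, 252486154515365238399951787398500746, 457267497933430831145249520912404874, 976411819227135101167939085841498247, 982926571406380694970167246755314193, 29372243669018706609936992568724016, 223435355063834747569391711872894703, 29047011779659822430679076558155312, 958344276417358489189044274623291030, 591559300811095350531622201848388113, 957306922443692201014606742568621261]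

theorem FPC_ok : FPC.all okM24 = true := by decide +kernel

theorem fpf_check : Q4EL.all (fun s => !(fiB fpP s) || FPC.any (fun c => cj3 c fpP s)) = true := by
  decide +kernel

theorem gPt_ne {i j : ℕ} (hi : i < 24) (hj : j < 24) (h : i ≠ j) : gPt i ≠ gPt j := by
  intro e
  apply h
  have := congrArg gIdx e
  rwa [gIdx_gPt hi, gIdx_gPt hj] at this

/-- All fixed-point-free involutions of `M24` are conjugate. -/
theorem fpf_conj {t : Equiv.Perm GolayPt} (ht : t ∈ M24) (h2 : t * t = 1) (h0 : ∀ p, t p ≠ p) :
    ∃ g ∈ M24, g * t * g⁻¹ = lperm fpP := by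
  have htt : ∀ p, t (t p) = p := by
    intro p
    have h := congrArg (fun f : Equiv.Perm GolayPt => f p) h2
    exact h
  obtain ⟨c, hca, hcb⟩ : ∃ c : GolayPt, c ≠ gPt 0 ∧ c ≠ t (gPt 0) := by
    by_cases h : t (gPt 0) = gPt 1
    · refine ⟨gPt 2, gPt_ne (by norm_num) (by norm_num) (by norm_num), ?_⟩
      rw [h]
      exact gPt_ne (by norm_num) (by norm_num) (by norm_num)
    · exact ⟨gPt 1, gPt_ne (by norm_num) (by norm_num) (by norm_num), fun e => h e.symm⟩
  have hab : gPt 0 ≠ t (gPt 0) := (h0 _).symm
  have hcd : c ≠ t c := (h0 c).symm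
  have had : gPt 0 ≠ t c := by
    intro e
    apply hcb
    have h := congrArg t e
    rw [htt] at h
    exact h.symm
  have hbd : t (gPt 0) ≠ t c := fun e => hca (t.injective e).symm
  obtain ⟨g, hg, e0, e1, e2, e3⟩ := four_trans hab hca.symm had hcb.symm hbd hcd
  have hm : g⁻¹ * t * g ∈ M24 := mul_mem (mul_mem (inv_mem hg) ht) hg
  obtain ⟨sv0, sv1, sv2, sv3⟩ := fpP_sv
  have k0 : (g⁻¹ * t * g) (gPt 0) = lperm fpP (gPt 0) := by
    rw [Equiv.Perm.mul_apply, Equiv.Perm.mul_apply, e0, lperm_gPt fpP_valid (by norm_num), sv0,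
      Equiv.Perm.inv_eq_iff_eq, e1]
  have k1 : (g⁻¹ * t * g) (gPt 1) = lperm fpP (gPt 1) := by
    rw [Equiv.Perm.mul_apply, Equiv.Perm.mul_apply, e1, lperm_gPt fpP_valid (by norm_num), sv1,
      Equiv.Perm.inv_eq_iff_eq, e0, htt]
  have k2 : (g⁻¹ * t * g) (gPt 2) = lperm fpP (gPt 2) := by
    rw [Equiv.Perm.mul_apply, Equiv.Perm.mul_apply, e2, lperm_gPt fpP_valid (by norm_num), sv2,
      Equiv.Perm.inv_eq_iff_eq, e3]
  have k3 : (g⁻¹ * t * g) (gPt 3) = lperm fpP (gPt 3) := by
    rw [Equiv.Perm.mul_apply, Equiv.Perm.mul_apply, e3, lperm_gPt fpP_valid (by norm_num), sv3,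
      Equiv.Perm.inv_eq_iff_eq, e2, htt]
  obtain ⟨s, hs, e⟩ := Q4_coset hm fpP_mem k0 k1 k2 k3
  have hu2 : (lperm fpP * lperm s) * (lperm fpP * lperm s) = 1 := by
    rw [← e]
    have e' : g⁻¹ * t * g * (g⁻¹ * t * g) = g⁻¹ * (t * t) * g := by group
    rw [e', h2]
    group
  have hu0 : ∀ p, (lperm fpP * lperm s) p ≠ p := by
    intro p hp
    rw [← e, Equiv.Perm.mul_apply, Equiv.Perm.mul_apply, Equiv.Perm.inv_eq_iff_eq] at hp
    exact h0 _ hp
  have hfi := fiB_complete fpP_valid (Q4EL_valid hs) hu2 hu0
  have h3 := List.all_eq_true.mp fpf_check s hs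
  rw [hfi] at h3
  simp only [Bool.not_true, Bool.false_or, List.any_eq_true] at h3
  obtain ⟨c', hc', hcj⟩ := h3
  have hc'ok : okM24 c' = true := List.all_eq_true.mp FPC_ok c' hc'
  have h4 := cj3_sound (okM24_svalid hc'ok) fpP_valid (Q4EL_valid hs) hcj
  refine ⟨lperm c' * g⁻¹, mul_mem (lperm_mem_M24 hc'ok) (inv_mem hg), ?_⟩
  have e5 : lperm c' * g⁻¹ * t * (lperm c' * g⁻¹)⁻¹ = lperm c' * (g⁻¹ * t * g) * (lperm c')⁻¹ := by
    group
  rw [e5, e, h4]
  group

/-! ### The centraliser of the base involution -/

/-- The six tetrads of the sextet attached to the base involution, as masks. -/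
def SXL : List ℕ := [147, 5132, 272448, 737280, 7340544, 8421664]

/-- The sextet attached to the base involution. -/
def SX0 : Finset (Finset GolayPt) := (SXL.map fs).toFinset

/-- The packed permutation maps the sextet to itself. -/
def sxB (s : ℕ) : Bool := SXL.all (fun m => SXL.any (fun m' => Nat.beq (pmN s m) m'))

theorem sx_fix {s : ℕ} (hv : svalid s = true) (h : sxB s = true) : lperm s • SX0 = SX0 := by
  apply Finset.eq_of_subset_of_card_le
  · intro x hx
    rw [Finset.mem_smul_finset] at hx
    obtain ⟨y, hy, rfl⟩ := hx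
    simp only [SX0, List.mem_toFinset, List.mem_map] at hy
    obtain ⟨m, hm, rfl⟩ := hy
    have h1 := List.all_eq_true.mp h m hm
    rw [List.any_eq_true] at h1
    obtain ⟨m', hm', e⟩ := h1
    rw [lperm_smul_fs hv, Nat.eq_of_beq_eq_true e]
    simp only [SX0, List.mem_toFinset, List.mem_map]
    exact ⟨m', hm', rfl⟩
  · rw [Finset.card_smul_finset]

theorem SXL_lt : ∀ m ∈ SXL, m < 2 ^ 24 := by decide

theorem SXL_pc : ∀ m ∈ SXL, pcT m = 4 := by decide

theorem SXL_oct : ∀ m ∈ SXL, ∀ m' ∈ SXL, m = m' ∨ (isGolay (m ||| m') = true ∧ pcT (m ||| m') = 8) := by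
  decide +kernel

theorem SX0_mem : SX0 ∈ sextets := by
  have hnd : (SXL.map fs).Nodup := by
    refine List.Nodup.map_on ?_ (by decide)
    intro a ha b hb e
    exact fs_inj (SXL_lt a ha) (SXL_lt b hb) e
  refine ⟨?_, ?_, ?_⟩
  · rw [SX0, List.toFinset_card_of_nodup hnd, List.length_map]
    rfl
  · intro t ht
    simp only [SX0, List.mem_toFinset, List.mem_map] at ht
    obtain ⟨m, hm, rfl⟩ := ht
    rw [card_fs', SXL_pc m hm]
  · intro t ht u hu htu
    simp only [SX0, List.mem_toFinset, List.mem_map] at ht hu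
    obtain ⟨m, hm, rfl⟩ := ht
    obtain ⟨m', hm', rfl⟩ := hu
    rcases SXL_oct m hm m' hm' with h | ⟨h1, h2⟩
    · exact absurd (by rw [h]) htu
    · rw [← fs_or]
      exact fs_mem_octads h1 h2

/-- `M24` permutes the sextets. -/
theorem smul_sextets {g : Equiv.Perm GolayPt} (hg : g ∈ M24) {S : Finset (Finset GolayPt)}
    (hS : S ∈ sextets) : g • S ∈ sextets := by
  obtain ⟨h1, h2, h3⟩ := hS
  refine ⟨by rw [Finset.card_smul_finset]; exact h1, ?_, ?_⟩
  · intro t ht
    rw [Finset.mem_smul_finset] at ht
    obtain ⟨y, hy, rfl⟩ := ht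
    rw [Finset.card_smul_finset]
    exact h2 y hy
  · intro t ht u hu htu
    rw [Finset.mem_smul_finset] at ht hu
    obtain ⟨y, hy, rfl⟩ := ht
    obtain ⟨z, hz, rfl⟩ := hu
    have hyz : y ≠ z := fun e => htu (by rw [e])
    rw [← Finset.smul_finset_union]
    exact (smul_mem_octads hg).mpr (h3 y hy z hz hyz)

/-- Elements of the centraliser moving the point `gPt 0` to every point. -/
def FL1 : List ℕ := [984818244535754528103549039458486304, 968460244776493649031080491307653121, 922379344947128845794030687323901026, 892009702335705167850884741348954179, 631327557150963550219180039149828324, 936499785762287628100369958630035717, 692696545129439641063380140601717158, 644434768234556429174073618340419719, 252236650553813911209218382300233896, 14829534434069944072871027214033577, 883630054485153357911562553083007370, 610485600752913847937103547530808907, 933547876857579776461406860452532556, 179272000462561320458466296243331277, 83362896178478856849747096803891822, 763402810939169351278862895572171503, 498745934576499196341846225596340784,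 279308281593224146766422093266421265, 169241118349185622315592572284871026, 486999813345771125124066785973241299, 8535738260663519925512626592981716, 711353757007677069779030982640703797, 794430495602698726386298293132537494, 147473915658593115554014415289997815]

/-- Elements of the centraliser fixing `gPt 0` and moving `gPt 2` to the points of its orbit. -/
def FL2 : List ℕ := [984818244535754528103549039458486304, 235856034688865447679341820903492640, 397468460054836857187979471939179552, 584543233604399237981232474746165280, 839303004924082866591413503889940512, 558885929780608916711276052868670496, 983546705640818839224340366504634400, 677691903062605397800378355174419488, 237127402897987588130557083093643296, 804941284393041946803060020112208928, 505894528373623645697820928414169120, 854390302876427263404337064208743456, 132049366047093646349396541180526624, 102902077925144324028740423186400288, 710536769705577369592537515064412192, 435209261125312333438667792849521696, 769252536985152496817678428555399200, 270792642088261595057668557923210272,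 475809763759842035571939536571881504, 382380608071108503420739749507750944]

/-- The orbit of `gPt 2` under the stabiliser of `gPt 0` in the centraliser. -/
def FT2 : List ℕ := [2, 3, 5, 6, 8, 9, 10, 11, 12, 13, 14, 15, 16, 17, 18, 19, 20, 21, 22, 23]

/-- Elements of `M24` fixing `gPt 0`, `gPt 1` and moving `gPt 2` to the points off the orbit. -/
def FRB : List (ℕ × ℕ) := [(4, 484774170570147023350846166333100064), (7, 719355796207685541924723373974363168)]

theorem FL1_ok : FL1.all (fun s => okM24 s && (conjB s fpP fpP && sxB s)) = true := by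
  decide +kernel

theorem FL1_img : ∀ j, j < 24 → FL1.any (fun s => Nat.beq (sv s 0) j) = true := by decide +kernel

theorem FL2_ok : FL2.all (fun s => okM24 s && (conjB s fpP fpP && (sxB s && Nat.beq (sv s 0) 0)))
    = true := by
  decide +kernel

theorem FL2_img : ∀ j ∈ FT2, FL2.any (fun s => Nat.beq (sv s 2) j) = true := by decide +kernel

theorem FRB_ok : FRB.all (fun e => okM24 e.2 && (Nat.beq (sv e.2 0) 0 && (Nat.beq (sv e.2 1) 1 &&
    (Nat.beq (sv e.2 2) e.1 && (Nat.beq (sv e.2 3) (sv fpP e.1) &&
    Q4EL.all (fun s => !(comm3 e.2 s fpP))))))) = true := by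
  decide +kernel

theorem F_cases : ∀ j, j < 24 → j = 0 ∨ j = 1 ∨ j ∈ FT2 ∨ j ∈ FRB.map Prod.fst := by decide

theorem FQ_sx : Q4EL.all (fun s => !(conjB s fpP fpP) || sxB s) = true := by decide +kernel

/-- The elements of the centraliser fixing the four base points. -/
def FQC : List ℕ := Q4EL.filter (fun s => conjB s fpP fpP)

theorem FQC_length : FQC.length = 16 := by decide +kernel

theorem mem_FQC {s : ℕ} : s ∈ FQC ↔ s ∈ Q4EL ∧ conjB s fpP fpP = true := by
  unfold FQC
  rw [List.mem_filter]

theorem cent_apply {c : Equiv.Perm GolayPt} (hc : c ∈ CentM (lperm fpP)) (x : GolayPt) :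
    c (lperm fpP x) = lperm fpP (c x) := by
  have h := congrArg (fun f : Equiv.Perm GolayPt => f x) hc.2
  exact h

theorem cent_pt1 {c : Equiv.Perm GolayPt} (hc : c ∈ CentM (lperm fpP))
    (h0 : c (gPt 0) = gPt 0) : c (gPt 1) = gPt 1 := by
  have h := cent_apply hc (gPt 0)
  rw [h0, lperm_gPt fpP_valid (by norm_num), fpP_sv.1] at h
  exact h

/-- An element of the centraliser is in the list `FL1` up to an element fixing `gPt 0`. -/
theorem cent_step1 {c : Equiv.Perm GolayPt} (hc : c ∈ CentM (lperm fpP)) :
    ∃ u ∈ FL1, (lperm u)⁻¹ * c ∈ CentM (lperm fpP) ∧ ((lperm u)⁻¹ * c) (gPt 0) = gPt 0 := by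
  have h1 := FL1_img (gIdx (c (gPt 0))) (gIdx_lt _)
  rw [List.any_eq_true] at h1
  obtain ⟨u, hu, e⟩ := h1
  have h2 := List.all_eq_true.mp FL1_ok u hu
  simp only [Bool.and_eq_true] at h2
  obtain ⟨ok, cj, -⟩ := h2
  have hv := okM24_svalid ok
  have hu' : lperm u ∈ CentM (lperm fpP) := ⟨lperm_mem_M24 ok, conjB_sound hv fpP_valid fpP_valid cj⟩
  refine ⟨u, hu, mul_mem (inv_mem hu') hc, ?_⟩
  rw [Equiv.Perm.mul_apply, Equiv.Perm.inv_eq_iff_eq, lperm_gPt hv (by norm_num),
    Nat.eq_of_beq_eq_true e, gPt_gIdx]

/-- The orbit of `gPt 2` under the elements of the centraliser fixing `gPt 0`. -/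
theorem cent_closure {c : Equiv.Perm GolayPt} (hc : c ∈ CentM (lperm fpP))
    (h0 : c (gPt 0) = gPt 0) : gIdx (c (gPt 2)) ∈ FT2 := by
  have h1 := cent_pt1 hc h0
  rcases F_cases (gIdx (c (gPt 2))) (gIdx_lt _) with h | h | h | h
  · exfalso
    have e : c (gPt 2) = c (gPt 0) := by rw [h0, ← gPt_gIdx (c (gPt 2)), h]
    exact gPt_ne (by norm_num) (by norm_num) (by norm_num : (2 : ℕ) ≠ 0) (c.injective e)
  · exfalso
    have e : c (gPt 2) = c (gPt 1) := by rw [h1, ← gPt_gIdx (c (gPt 2)), h]
    exact gPt_ne (by norm_num) (by norm_num) (by norm_num : (2 : ℕ) ≠ 1) (c.injective e)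
  · exact h
  · exfalso
    rw [List.mem_map] at h
    obtain ⟨⟨j, r⟩, hjr, e⟩ := h
    have h2 := List.all_eq_true.mp FRB_ok (j, r) hjr
    simp only [Bool.and_eq_true] at h2
    obtain ⟨ok, r0, r1, r2, r3, hall⟩ := h2
    have hv := okM24_svalid ok
    have ej : gIdx (c (gPt 2)) = j := e.symm
    have k0 : c (gPt 0) = lperm r (gPt 0) := by
      rw [h0, lperm_gPt hv (by norm_num), Nat.eq_of_beq_eq_true r0]
    have k1 : c (gPt 1) = lperm r (gPt 1) := by
      rw [h1, lperm_gPt hv (by norm_num), Nat.eq_of_beq_eq_true r1]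
    have k2 : c (gPt 2) = lperm r (gPt 2) := by
      rw [lperm_gPt hv (by norm_num), Nat.eq_of_beq_eq_true r2, ← ej, gPt_gIdx]
    have k3 : c (gPt 3) = lperm r (gPt 3) := by
      have h3 := cent_apply hc (gPt 2)
      rw [lperm_gPt fpP_valid (by norm_num), fpP_sv.2.2.1] at h3
      rw [h3, lperm_gPt hv (by norm_num), Nat.eq_of_beq_eq_true r3, ← ej,
        lperm_apply fpP_valid]
    obtain ⟨s, hs, es⟩ := Q4_coset hc.1 (lperm_mem_M24 ok) k0 k1 k2 k3
    have h4 := List.all_eq_true.mp hall s hs
    have h5 : comm3 r s fpP = true := by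
      apply comm3_complete hv (Q4EL_valid hs) fpP_valid
      rw [← es]
      exact hc.2
    rw [h5] at h4
    exact absurd h4 (by decide)

/-- An element of the centraliser fixing `gPt 0` is in the list `FL2` up to an element fixing
also `gPt 2`. -/
theorem cent_step2 {c : Equiv.Perm GolayPt} (hc : c ∈ CentM (lperm fpP))
    (h0 : c (gPt 0) = gPt 0) :
    ∃ u ∈ FL2, (lperm u)⁻¹ * c ∈ CentM (lperm fpP) ∧ ((lperm u)⁻¹ * c) (gPt 0) = gPt 0 ∧
      ((lperm u)⁻¹ * c) (gPt 2) = gPt 2 := by
  have h1 := FL2_img _ (cent_closure hc h0)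
  rw [List.any_eq_true] at h1
  obtain ⟨u, hu, e⟩ := h1
  have h2 := List.all_eq_true.mp FL2_ok u hu
  simp only [Bool.and_eq_true] at h2
  obtain ⟨ok, cj, -, u0⟩ := h2
  have hv := okM24_svalid ok
  have hu' : lperm u ∈ CentM (lperm fpP) := ⟨lperm_mem_M24 ok, conjB_sound hv fpP_valid fpP_valid cj⟩
  refine ⟨u, hu, mul_mem (inv_mem hu') hc, ?_, ?_⟩
  · rw [Equiv.Perm.mul_apply, Equiv.Perm.inv_eq_iff_eq, lperm_gPt hv (by norm_num),
      Nat.eq_of_beq_eq_true u0, h0]
  · rw [Equiv.Perm.mul_apply, Equiv.Perm.inv_eq_iff_eq, lperm_gPt hv (by norm_num),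
      Nat.eq_of_beq_eq_true e, gPt_gIdx]

/-- The elements of the centraliser fixing `gPt 0` and `gPt 2` are listed in `FQC`. -/
theorem cent_step3 {c : Equiv.Perm GolayPt} (hc : c ∈ CentM (lperm fpP))
    (h0 : c (gPt 0) = gPt 0) (h2 : c (gPt 2) = gPt 2) : ∃ s ∈ FQC, c = lperm s := by
  have h1 := cent_pt1 hc h0
  have h3 : c (gPt 3) = gPt 3 := by
    have h := cent_apply hc (gPt 2)
    rw [h2, lperm_gPt fpP_valid (by norm_num), fpP_sv.2.2.1] at h
    exact h
  obtain ⟨s, hs, es⟩ := Q4_coset (r := 1) hc.1 (one_mem _) h0 h1 h2 h3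
  rw [one_mul] at es
  refine ⟨s, mem_FQC.mpr ⟨hs, ?_⟩, es⟩
  apply conjB_complete (Q4EL_valid hs) fpP_valid fpP_valid
  rw [← es]
  exact hc.2

theorem FQC_mem {s : ℕ} (hs : s ∈ FQC) : lperm s ∈ CentM (lperm fpP) ∧
    lperm s (gPt 0) = gPt 0 ∧ lperm s (gPt 2) = gPt 2 := by
  obtain ⟨h1, h2⟩ := mem_FQC.mp hs
  have hm := lperm_mem_SF (Q4EL_okF h1)
  exact ⟨⟨hm.1, conjB_sound (Q4EL_valid h1) fpP_valid fpP_valid h2⟩,
    SF_fix_pt hm (j := 0) (by norm_num) (by simp), SF_fix_pt hm (j := 2) (by norm_num) (by simp)⟩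

/-- Every element of the centraliser is a product of three listed elements. -/
theorem cent_decomp {c : Equiv.Perm GolayPt} (hc : c ∈ CentM (lperm fpP)) :
    ∃ u1 ∈ FL1, ∃ u2 ∈ FL2, ∃ s ∈ FQC, c = lperm u1 * lperm u2 * lperm s := by
  obtain ⟨u1, hu1, hc1, e1⟩ := cent_step1 hc
  obtain ⟨u2, hu2, hc2, e2, e2'⟩ := cent_step2 hc1 e1
  obtain ⟨s, hs, es⟩ := cent_step3 hc2 e2 e2'
  refine ⟨u1, hu1, u2, hu2, s, hs, ?_⟩
  rw [← es]
  group

/-- The centraliser fixes the sextet. -/
theorem cent_sx {c : Equiv.Perm GolayPt} (hc : c ∈ CentM (lperm fpP)) : c • SX0 = SX0 := by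
  obtain ⟨u1, hu1, u2, hu2, s, hs, rfl⟩ := cent_decomp hc
  have h1 := List.all_eq_true.mp FL1_ok u1 hu1
  have h2 := List.all_eq_true.mp FL2_ok u2 hu2
  simp only [Bool.and_eq_true] at h1 h2
  obtain ⟨hs1, hs2⟩ := mem_FQC.mp hs
  have h3 := List.all_eq_true.mp FQ_sx s hs1
  rw [hs2] at h3
  rw [mul_smul, mul_smul, sx_fix (Q4EL_valid hs1) h3, sx_fix (okM24_svalid h2.1) h2.2.2.1,
    sx_fix (okM24_svalid h1.1) h1.2.2]

/-- The centraliser is transitive on the points. -/
theorem cent_trans (p q : GolayPt) : ∃ c ∈ CentM (lperm fpP), c p = q := by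
  have key : ∀ x : GolayPt, ∃ c ∈ CentM (lperm fpP), c (gPt 0) = x := by
    intro x
    have h1 := FL1_img (gIdx x) (gIdx_lt _)
    rw [List.any_eq_true] at h1
    obtain ⟨u, hu, e⟩ := h1
    have h2 := List.all_eq_true.mp FL1_ok u hu
    simp only [Bool.and_eq_true] at h2
    obtain ⟨ok, cj, -⟩ := h2
    have hv := okM24_svalid ok
    refine ⟨lperm u, ⟨lperm_mem_M24 ok, conjB_sound hv fpP_valid fpP_valid cj⟩, ?_⟩
    rw [lperm_gPt hv (by norm_num), Nat.eq_of_beq_eq_true e, gPt_gIdx]
  obtain ⟨cp, hcp, ep⟩ := key p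
  obtain ⟨cq, hcq, eq⟩ := key q
  refine ⟨cq * cp⁻¹, mul_mem hcq (inv_mem hcp), ?_⟩
  rw [Equiv.Perm.mul_apply, ← ep, perm_inv_apply, eq]

theorem card_golayPt : Nat.card GolayPt = 24 := by
  rw [Nat.card_eq_fintype_card]
  rfl

/-- The centraliser of the base involution has order `7680`. -/
theorem card_CentM_fp : Nat.card (CentM (lperm fpP)) = 7680 := by
  have h1 := card_eq_orbit_mul_inf (CentM (lperm fpP)) (gPt 0)
  have h2 := card_eq_orbit_mul_inf
    (CentM (lperm fpP) ⊓ MulAction.stabilizer (Equiv.Perm GolayPt) (gPt 0)) (gPt 2)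
  have o1 : (MulAction.orbit (CentM (lperm fpP)) (gPt 0)).ncard = 24 := by
    have e : MulAction.orbit (CentM (lperm fpP)) (gPt 0) = Set.univ := by
      apply Set.eq_univ_of_forall
      intro x
      obtain ⟨c, hc, e⟩ := cent_trans (gPt 0) x
      exact ⟨⟨c, hc⟩, e⟩
    rw [e, Set.ncard_univ, card_golayPt]
  have o2 : (MulAction.orbit
      ↥(CentM (lperm fpP) ⊓ MulAction.stabilizer (Equiv.Perm GolayPt) (gPt 0)) (gPt 2)).ncard
      = 20 := by
    have hnd : (FT2.map gPt).Nodup := by
      refine List.Nodup.map_on ?_ (by decide)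
      intro a ha b hb e
      have hlt : ∀ j ∈ FT2, j < 24 := by decide
      have := congrArg gIdx e
      rwa [gIdx_gPt (hlt a ha), gIdx_gPt (hlt b hb)] at this
    have e : MulAction.orbit
        ↥(CentM (lperm fpP) ⊓ MulAction.stabilizer (Equiv.Perm GolayPt) (gPt 0)) (gPt 2)
        = ↑(FT2.map gPt).toFinset := by
      ext x
      simp only [Finset.mem_coe, List.mem_toFinset, List.mem_map]
      constructor
      · rintro ⟨⟨c, hc1, hc2⟩, rfl⟩
        exact ⟨gIdx (c (gPt 2)), cent_closure hc1 (MulAction.mem_stabilizer_iff.mp hc2),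
          gPt_gIdx _⟩
      · rintro ⟨j, hj, rfl⟩
        have h3 := FL2_img j hj
        rw [List.any_eq_true] at h3
        obtain ⟨u, hu, e⟩ := h3
        have h4 := List.all_eq_true.mp FL2_ok u hu
        simp only [Bool.and_eq_true] at h4
        obtain ⟨ok, cj, -, u0⟩ := h4
        have hv := okM24_svalid ok
        have hfix : lperm u (gPt 0) = gPt 0 := by
          rw [lperm_gPt hv (by norm_num), Nat.eq_of_beq_eq_true u0]
        have himg : lperm u (gPt 2) = gPt j := by
          rw [lperm_gPt hv (by norm_num), Nat.eq_of_beq_eq_true e]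
        exact ⟨⟨lperm u, ⟨⟨lperm_mem_M24 ok, conjB_sound hv fpP_valid fpP_valid cj⟩,
          MulAction.mem_stabilizer_iff.mpr hfix⟩⟩, himg⟩
    rw [e, Set.ncard_coe_finset, List.toFinset_card_of_nodup hnd]
    rfl
  have c3 : Nat.card ↥(CentM (lperm fpP) ⊓ MulAction.stabilizer (Equiv.Perm GolayPt) (gPt 0) ⊓
      MulAction.stabilizer (Equiv.Perm GolayPt) (gPt 2)) = 16 := by
    rw [← FQC_length]
    refine card_of_list (key := keyN 4 5 6) (keyN_eq (by norm_num) (by norm_num) (by norm_num))
      ?_ ?_ ?_ ?_
    · exact List.Nodup.sublist (List.Sublist.map _ List.filter_sublist) Q4EL_nodup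
    · intro s hs
      exact Q4EL_valid (mem_FQC.mp hs).1
    · intro s hs
      obtain ⟨h1, h2, h3⟩ := FQC_mem hs
      exact ⟨⟨h1, MulAction.mem_stabilizer_iff.mpr h2⟩, MulAction.mem_stabilizer_iff.mpr h3⟩
    · rintro g ⟨⟨hg1, hg2⟩, hg3⟩
      exact cent_step3 hg1 (MulAction.mem_stabilizer_iff.mp hg2) (MulAction.mem_stabilizer_iff.mp hg3)
  rw [o1, h2, o2, c3] at h1
  exact h1

end Cfsg.Agent.H34
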