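import Mathlib
import Cfsg.Agent.H96.RoDefs

/-!
# S2127 team project (helper96), piece RO-COORD
-/

set_option autoImplicit false

namespace Cfsg.Agent.H34.Ro

open Cfsg.Agent.H96.Ro

universe u v

theorem conj_comm_aux {G : Type v} [Group G] (A C X : G) (hAC : A * C = C * A) :
    C⁻¹ * (A * X * A⁻¹) * C = A * (C⁻¹ * X * C) * A⁻¹ := by
  have e1 : C⁻¹ * A = A * C⁻¹ := by
    rw [inv_mul_eq_iff_eq_mul, ← mul_assoc, ← hAC, mul_assoc, mul_inv_cancel, mul_one]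
  have e2 : A⁻¹ * C = C * A⁻¹ := by
    rw [inv_mul_eq_iff_eq_mul, ← mul_assoc, hAC, mul_assoc, mul_inv_cancel, mul_one]
  calc C⁻¹ * (A * X * A⁻¹) * C = (C⁻¹ * A) * X * (A⁻¹ * C) := by group
    _ = (A * C⁻¹) * X * (C * A⁻¹) := by rw [e1, e2]
    _ = A * (C⁻¹ * X * C) * A⁻¹ := by group

theorem coord (hs : StShape.{u, v}) (hf : StField.{u}) (ht : StTriv.{u}) : StCoord.{u, v} := by
  intro K _ _ _ m hm hK G _ D β hU hH
  obtain ⟨f, ψ, h1, h2, h3, h4, h5, h6⟩ := hs K G (3 ^ (m + 1)) D β hU hH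
  obtain ⟨σ, hσψ, hσf⟩ := hf K f ψ h3 h4 h5 h6
  have hf1 : f 1 ≠ 0 := fun h => one_ne_zero (h4 1 h)
  obtain ⟨c, hc⟩ : ∃ c : Kˣ, (c : K) = f 1 := ⟨Units.mk0 (f 1) hf1, rfl⟩
  have hh1 : D.h 1 = 1 := by
    have h := D.h_mul 1 1
    rw [mul_one] at h
    exact mul_eq_left.mp h.symm
  have hhinv : ∀ a : Kˣ, D.h a⁻¹ = (D.h a)⁻¹ := by
    intro a
    rw [eq_inv_iff_mul_eq_one, ← D.h_mul, inv_mul_cancel, hh1]
  have hhcomm : ∀ a b : Kˣ, D.h a * D.h b = D.h b * D.h a := by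
    intro a b
    rw [← D.h_mul, ← D.h_mul, mul_comm]
  -- β₁ on R
  have hβ1 : ∀ t u v : K, ∃ y z : K,
      (D.h c)⁻¹ * β (D.R t u v) * D.h c = D.R (σ t) y z := by
    intro t u v
    obtain ⟨u', v', huv⟩ := h1 t u v
    have h := D.h_conj c⁻¹ (f t) u' v'
    rw [hhinv, inv_inv] at h
    rw [huv, h]
    refine ⟨((c⁻¹ : Kˣ) : K) ^ (3 ^ (m + 1) + 1) * u',
      ((c⁻¹ : Kˣ) : K) ^ (3 ^ (m + 1) + 2) * v', ?_⟩
    congr 1
    rw [hσf t, Units.val_inv_eq_inv_val, hc]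
    field_simp
  choose y z hyz using hβ1
  set γ : K × K × K → K × K × K := fun a =>
    (a.1, y (σ.symm a.1) (σ.symm a.2.1) (σ.symm a.2.2),
      z (σ.symm a.1) (σ.symm a.2.1) (σ.symm a.2.2)) with hγ
  have hγR : ∀ a : K × K × K,
      (D.h c)⁻¹ * β (D.R (σ.symm a.1) (σ.symm a.2.1) (σ.symm a.2.2)) * D.h c =
        D.R (γ a).1 (γ a).2.1 (γ a).2.2 := by
    intro a
    have h := hyz (σ.symm a.1) (σ.symm a.2.1) (σ.symm a.2.2)
    rw [RingEquiv.apply_symm_apply] at h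
    exact h
  have hRext : ∀ a b : K × K × K, D.R a.1 a.2.1 a.2.2 = D.R b.1 b.2.1 b.2.2 → a = b := by
    intro a b h
    obtain ⟨e1, e2, e3⟩ := D.R_inj _ _ _ _ _ _ h
    exact Prod.ext e1 (Prod.ext e2 e3)
  have hRrm : ∀ a b : K × K × K, D.R a.1 a.2.1 a.2.2 * D.R b.1 b.2.1 b.2.2 =
      D.R (rm (3 ^ (m + 1)) a b).1 (rm (3 ^ (m + 1)) a b).2.1 (rm (3 ^ (m + 1)) a b).2.2 := by
    intro a b
    rw [D.R_mul]
    rfl
  have hRha : ∀ (κ : Kˣ) (a : K × K × K), D.h κ * D.R a.1 a.2.1 a.2.2 * (D.h κ)⁻¹ =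
      D.R (ha (3 ^ (m + 1)) (κ : K) a).1 (ha (3 ^ (m + 1)) (κ : K) a).2.1
        (ha (3 ^ (m + 1)) (κ : K) a).2.2 := by
    intro κ a
    rw [D.h_conj]
    rfl
  have hi : ∀ a b, γ (rm (3 ^ (m + 1)) a b) = rm (3 ^ (m + 1)) (γ a) (γ b) := by
    intro a b
    apply hRext
    rw [← hRrm, ← hγR a, ← hγR b, ← hγR (rm (3 ^ (m + 1)) a b)]
    have e : D.R (σ.symm (rm (3 ^ (m + 1)) a b).1) (σ.symm (rm (3 ^ (m + 1)) a b).2.1)
        (σ.symm (rm (3 ^ (m + 1)) a b).2.2) =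
        D.R (σ.symm a.1) (σ.symm a.2.1) (σ.symm a.2.2) *
          D.R (σ.symm b.1) (σ.symm b.2.1) (σ.symm b.2.2) := by
      rw [D.R_mul]
      simp only [rm, map_add, map_sub, map_mul, map_pow]
    rw [e, map_mul]
    group
  have hii : ∀ κ : K, κ ≠ 0 → ∀ a, γ (ha (3 ^ (m + 1)) κ a) = ha (3 ^ (m + 1)) κ (γ a) := by
    intro κ hκ a
    have hκ' : σ.symm κ ≠ 0 := by
      intro h0
      apply hκ
      have := congrArg σ h0
      simpa using this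
    obtain ⟨κ', hκ'e⟩ : ∃ κ' : Kˣ, (κ' : K) = σ.symm κ := ⟨Units.mk0 _ hκ', rfl⟩
    have hψκ : ((ψ κ' : Kˣ) : K) = κ := by
      rw [hσψ, hκ'e, RingEquiv.apply_symm_apply]
    apply hRext
    rw [← hψκ, ← hRha (ψ κ') (γ a), ← hγR a, ← hγR (ha (3 ^ (m + 1)) (↑(ψ κ')) a)]
    have e : D.R (σ.symm (ha (3 ^ (m + 1)) (↑(ψ κ')) a).1)
        (σ.symm (ha (3 ^ (m + 1)) (↑(ψ κ')) a).2.1)
        (σ.symm (ha (3 ^ (m + 1)) (↑(ψ κ')) a).2.2) =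
        D.h κ' * D.R (σ.symm a.1) (σ.symm a.2.1) (σ.symm a.2.2) * (D.h κ')⁻¹ := by
      rw [D.h_conj, hψκ, hκ'e]
      simp only [ha, map_mul, map_pow]
    rw [e, map_mul, map_mul, map_inv, h2 κ']
    exact conj_comm_aux _ _ _ (hhcomm _ _)
  have hiii : ∀ t : K, (γ (t, 0, 0)).1 = t := fun t => rfl
  have hid := ht K m hm hK γ hi hii hiii
  refine ⟨σ, c, ?_, ?_⟩
  · intro t u v
    have h := hγR (σ t, σ u, σ v)
    rw [hid] at h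
    simp only [RingEquiv.symm_apply_apply] at h
    rw [← h]
    group
  · intro κ
    exact ⟨ψ κ, hσψ κ, h2 κ⟩

example (hs : StShape.{u, v}) (hf : StField.{u}) (ht : StTriv.{u}) : StCoord.{u, v} :=
  coord hs hf ht

end Cfsg.Agent.H34.Ro
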