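import Mathlib
import Cfsg.Agent.H96.RoDefs

/-!
# S2127 team project (helper96), piece RO-SHAPE
-/

set_option autoImplicit false

namespace Cfsg.Agent.H34.Ro

open Cfsg.Agent.H96.Ro

universe u v

theorem R_zero_eq_one {K : Type u} [Field K] {G : Type v} [Group G] {n : ℕ} (D : Datum K G n) :
    D.R 0 0 0 = 1 := by
  have h := D.R_mul 0 0 0 0 0 0
  have h2 : D.R 0 0 0 * D.R 0 0 0 = D.R 0 0 0 := by
    rw [h]
    congr 1 <;> ring
  exact mul_eq_left.mp h2

theorem shape (hc : StCube.{u, v}) : StShape.{u, v} := by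
  intro K _ _ _ G _ n D β hU hH
  have hcube := (hc K n).2 G D
  have h1 : D.R 0 0 0 = 1 := R_zero_eq_one D
  -- elements of order dividing 3 have first coordinate 0
  have hord : ∀ t u v : K, D.R t u v ^ 3 = 1 → t = 0 := by
    intro t u v h3
    rw [hcube, ← h1] at h3
    have := (D.R_inj _ _ _ _ _ _ h3).2.2
    have h4 : t ^ (n + 2) = 0 := by simpa using this
    exact pow_eq_zero_iff (by omega) |>.mp h4
  have hcube0 : ∀ u v : K, D.R 0 u v ^ 3 = 1 := by
    intro u v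
    rw [hcube, ← h1]
    congr 1
    simp
  -- β of R 0 u v has first coordinate 0
  have hβ0 : ∀ u v : K, ∃ u' v' : K, β (D.R 0 u v) = D.R 0 u' v' := by
    intro u v
    obtain ⟨t', u', v', h⟩ := hU 0 u v
    have h3 : D.R t' u' v' ^ 3 = 1 := by
      rw [← h, ← map_pow, hcube0, map_one]
    have ht' := hord t' u' v' h3
    subst ht'
    exact ⟨u', v', h⟩
  choose f g1 g2 hf using fun t : K => hU t 0 0
  choose ψ hψ using hH
  have key : ∀ t u v : K, ∃ u' v' : K, β (D.R t u v) = D.R (f t) u' v' := by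
    intro t u v
    have hdec : D.R t u v = D.R 0 u (v + t * u) * D.R t 0 0 := by
      rw [D.R_mul]
      congr 1 <;> ring
    obtain ⟨a, b, hab⟩ := hβ0 u (v + t * u)
    rw [hdec, map_mul, hab, hf t, D.R_mul]
    exact ⟨_, _, by congr 1; ring⟩
  refine ⟨f, ψ, key, hψ, ?_, ?_, ?_, ?_⟩
  · intro s t
    have hmul := D.R_mul s 0 0 t 0 0
    obtain ⟨a, b, hab⟩ := key (s + t) (0 + 0 - t ^ n * s)
      (0 + 0 - t * 0 + t ^ n * s * t - t ^ n * s ^ 2)
    have h2 : β (D.R s 0 0 * D.R t 0 0) = D.R (f s) (g1 s) (g2 s) * D.R (f t) (g1 t) (g2 t) := by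
      rw [map_mul, hf s, hf t]
    rw [hmul, hab, D.R_mul] at h2
    exact (D.R_inj _ _ _ _ _ _ h2).1
  · intro t ht
    have h3 : D.R (f t) (g1 t) (g2 t) ^ 3 = 1 := by
      rw [ht, hcube0]
    rw [← hf t, ← map_pow] at h3
    have h4 : D.R t 0 0 ^ 3 = 1 := by
      have := congrArg β.symm h3
      simpa using this
    exact hord t 0 0 h4
  · intro a b
    apply D.h_inj
    rw [← hψ (a * b), D.h_mul, map_mul, hψ a, hψ b, D.h_mul]
  · intro κ t
    have hconj := D.h_conj κ t 0 0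
    simp only [mul_zero] at hconj
    obtain ⟨a, b, hab⟩ := key ((κ : K) * t) 0 0
    have h2 : β (D.h κ * D.R t 0 0 * (D.h κ)⁻¹) =
        D.h (ψ κ) * D.R (f t) (g1 t) (g2 t) * (D.h (ψ κ))⁻¹ := by
      rw [map_mul, map_mul, map_inv, hψ κ, hf t]
    rw [hconj, hab, D.h_conj] at h2
    exact (D.R_inj _ _ _ _ _ _ h2).1

example (hc : StCube.{u, v}) : StShape.{u, v} := shape hc

end Cfsg.Agent.H34.Ro
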