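import Cfsg.Prelude.Def_SporadicCombinatorics
import Cfsg.Agent.H34.Bits

/-!
# The ternary code of length 12 (helper34 library)

An explicit parametrisation of `Cfsg.ternaryGolayCode` by six coordinates.
-/

set_option autoImplicit false

namespace Cfsg.Agent.H34

open Cfsg

/-- Numbering of the twelve array positions: `(i, r) ↦ 3 i + r`. -/
def aE : ArrayPt ≃ Fin 12 where
  toFun p := ⟨3 * p.1.val + p.2.val, by
    have h1 := p.1.isLt
    have h2 := ZMod.val_lt p.2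
    omega⟩
  invFun i := (⟨i.val / 3, by have := i.isLt; omega⟩, ((i.val % 3 : ℕ) : ZMod 3))
  left_inv := by decide
  right_inv := by decide

theorem arrayPt_cases : ∀ p : ArrayPt, p = (0,0) ∨ p = (0,1) ∨ p = (0,2) ∨ p = (1,0) ∨ p = (1,1) ∨
    p = (1,2) ∨ p = (2,0) ∨ p = (2,1) ∨ p = (2,2) ∨ p = (3,0) ∨ p = (3,1) ∨ p = (3,2) := by decide

theorem sum_zmod3 {M : Type*} [AddCommMonoid M] (f : ZMod 3 → M) :
    ∑ r : ZMod 3, f r = f 0 + f 1 + f 2 :=
  Fin.sum_univ_three f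

/-- Parameters of a code word: its entries at the positions (0,0), (0,1), (0,2), (1,0), (1,1), (2,0). -/
abbrev TP : Type := ZMod 3 × ZMod 3 × ZMod 3 × ZMod 3 × ZMod 3 × ZMod 3

/-- The code word with given parameters. -/
def tenc (a : TP) : ArrayPt → ZMod 3 := fun p =>
  match a with
  | (a0, a1, a2, a3, a4, a5) =>
    (![a0, a1, a2, a3, a4, a0 + a1 + a2 + 2 * a3 + 2 * a4, a5, 2 * a1 + a2 + 2 * a3 + a4 + a5, a0 + 2 * a1 + a3 + 2 * a4 + a5, a0 + 2 * a1 + 2 * a2 + 2 * a3 + 2 * a5, a0 + a2 + a3 + a4 + 2 * a5, 2 * a0 + 2 * a1 + a2 + 2 * a4 + 2 * a5] : Fin 12 → ZMod 3) (aE p)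

/-- The parameters of a word. -/
def tproj (x : ArrayPt → ZMod 3) : TP := (x (0,0), x (0,1), x (0,2), x (1,0), x (1,1), x (2,0))

theorem tproj_tenc (a : TP) : tproj (tenc a) = a := by
  obtain ⟨a0, a1, a2, a3, a4, a5⟩ := a
  rfl

theorem tetra_mem (a b : ZMod 3) :
    a • (![0, 1, 1, 1] : Fin 4 → ZMod 3) + b • ![1, 0, 1, 2] ∈ tetracode :=
  Submodule.add_mem _ (Submodule.smul_mem _ _ (Submodule.subset_span (by simp)))
    (Submodule.smul_mem _ _ (Submodule.subset_span (by simp)))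

theorem mem_tetra_iff (t : Fin 4 → ZMod 3) :
    t ∈ tetracode ↔ ∃ a b : ZMod 3, a • (![0, 1, 1, 1] : Fin 4 → ZMod 3) + b • ![1, 0, 1, 2] = t := by
  unfold tetracode
  rw [Submodule.mem_span_pair]

/-- A decidable form of the defining condition. -/
def TernCond (x : ArrayPt → ZMod 3) : Prop :=
  ∃ s : ZMod 3, (∀ i : Fin 4, ∑ r : ZMod 3, x (i, r) = -s) ∧
    ∀ a b : ZMod 3, ∑ i : Fin 4, x (i, (a • ![0, 1, 1, 1] + b • ![1, 0, 1, 2] : Fin 4 → ZMod 3) i) = s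

instance (x : ArrayPt → ZMod 3) : Decidable (TernCond x) := by
  unfold TernCond
  infer_instance

theorem mem_ternary_iff_cond (x : ArrayPt → ZMod 3) : x ∈ ternaryGolayCode ↔ TernCond x := by
  show IsTernaryGolayWord x ↔ TernCond x
  unfold IsTernaryGolayWord TernCond
  constructor
  · rintro ⟨s, h1, h2⟩
    exact ⟨s, h1, fun a b => h2 _ (tetra_mem a b)⟩
  · rintro ⟨s, h1, h2⟩
    refine ⟨s, h1, fun t ht => ?_⟩
    obtain ⟨a, b, rfl⟩ := (mem_tetra_iff t).mp ht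
    exact h2 a b

theorem tenc_cond : ∀ a : TP, TernCond (tenc a) := by decide +kernel

theorem tenc_mem (a : TP) : tenc a ∈ ternaryGolayCode :=
  (mem_ternary_iff_cond _).mpr (tenc_cond a)

theorem eq_tenc_of_mem {x : ArrayPt → ZMod 3} (hx : x ∈ ternaryGolayCode) : x = tenc (tproj x) := by
  obtain ⟨s, h1, h2⟩ := (mem_ternary_iff_cond x).mp hx
  have h3 : (3 : ZMod 3) = 0 := by decide
  have hc0 : x (0, 0) + x (0, 1) + x (0, 2) = -s := by
    rw [← h1 0, sum_zmod3]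
  have hc1 : x (1, 0) + x (1, 1) + x (1, 2) = -s := by
    rw [← h1 1, sum_zmod3]
  have hc2 : x (2, 0) + x (2, 1) + x (2, 2) = -s := by
    rw [← h1 2, sum_zmod3]
  have hc3 : x (3, 0) + x (3, 1) + x (3, 2) = -s := by
    rw [← h1 3, sum_zmod3]
  have ht0 : x (0, 0) + x (1, 0) + x (2, 0) + x (3, 0) = s := by
    have h := h2 0 0
    rw [Fin.sum_univ_four] at h
    exact h
  have ht1 : x (0, 1) + x (1, 0) + x (2, 1) + x (3, 2) = s := by
    have h := h2 0 1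
    rw [Fin.sum_univ_four] at h
    exact h
  have ht2 : x (0, 2) + x (1, 0) + x (2, 2) + x (3, 1) = s := by
    have h := h2 0 2
    rw [Fin.sum_univ_four] at h
    exact h
  have ht3 : x (0, 0) + x (1, 1) + x (2, 1) + x (3, 1) = s := by
    have h := h2 1 0
    rw [Fin.sum_univ_four] at h
    exact h
  have ht4 : x (0, 1) + x (1, 1) + x (2, 2) + x (3, 0) = s := by
    have h := h2 1 1
    rw [Fin.sum_univ_four] at h
    exact h
  have ht5 : x (0, 2) + x (1, 1) + x (2, 0) + x (3, 2) = s := by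
    have h := h2 1 2
    rw [Fin.sum_univ_four] at h
    exact h
  have ht6 : x (0, 0) + x (1, 2) + x (2, 2) + x (3, 2) = s := by
    have h := h2 2 0
    rw [Fin.sum_univ_four] at h
    exact h
  have ht7 : x (0, 1) + x (1, 2) + x (2, 0) + x (3, 1) = s := by
    have h := h2 2 1
    rw [Fin.sum_univ_four] at h
    exact h
  have ht8 : x (0, 2) + x (1, 2) + x (2, 1) + x (3, 0) = s := by
    have h := h2 2 2
    rw [Fin.sum_univ_four] at h
    exact h
  funext p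
  rcases arrayPt_cases p with rfl | rfl | rfl | rfl | rfl | rfl | rfl | rfl | rfl | rfl | rfl | rfl
  · show x (0, 0) = x (0, 0)
    rfl
  · show x (0, 1) = x (0, 1)
    rfl
  · show x (0, 2) = x (0, 2)
    rfl
  · show x (1, 0) = x (1, 0)
    rfl
  · show x (1, 1) = x (1, 1)
    rfl
  · show x (1, 2) = x (0, 0) + x (0, 1) + x (0, 2) + 2 * x (1, 0) + 2 * x (1, 1)
    linear_combination (2) * hc0 + (1) * hc1 + ((-1) * x (0, 0) + (-1) * x (0, 1) + (-1) * x (0, 2) + (-1) * x (1, 0) + (-1) * x (1, 1) + (-1) * s) * h3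
  · show x (2, 0) = x (2, 0)
    rfl
  · show x (2, 1) = 2 * x (0, 1) + x (0, 2) + 2 * x (1, 0) + x (1, 1) + x (2, 0)
    linear_combination (2) * hc0 + (1) * hc3 + (2) * ht0 + (2) * ht1 + (2) * ht3 + ((-2) * x (0, 0) + (-2) * x (0, 1) + (-1) * x (0, 2) + (-2) * x (1, 0) + (-1) * x (1, 1) + (-1) * x (2, 0) + (-1) * x (2, 1) + (-1) * x (3, 0) + (-1) * x (3, 1) + (-1) * x (3, 2) + (1) * s) * h3
  · show x (2, 2) = x (0, 0) + 2 * x (0, 1) + x (1, 0) + 2 * x (1, 1) + x (2, 0)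
    linear_combination (1) * hc2 + (2) * hc3 + (1) * ht0 + (1) * ht1 + (1) * ht3 + ((-1) * x (0, 0) + (-1) * x (0, 1) + (-1) * x (1, 0) + (-1) * x (1, 1) + (-1) * x (2, 0) + (-1) * x (2, 1) + (-1) * x (3, 0) + (-1) * x (3, 1) + (-1) * x (3, 2)) * h3
  · show x (3, 0) = x (0, 0) + 2 * x (0, 1) + 2 * x (0, 2) + 2 * x (1, 0) + 2 * x (2, 0)
    linear_combination (1) * hc0 + (1) * ht0 + ((-1) * x (0, 0) + (-1) * x (0, 1) + (-1) * x (0, 2) + (-1) * x (1, 0) + (-1) * x (2, 0)) * h3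
  · show x (3, 1) = x (0, 0) + x (0, 2) + x (1, 0) + x (1, 1) + 2 * x (2, 0)
    linear_combination (2) * hc0 + (2) * hc3 + (1) * ht0 + (1) * ht1 + (2) * ht3 + ((-2) * x (0, 0) + (-1) * x (0, 1) + (-1) * x (0, 2) + (-1) * x (1, 0) + (-1) * x (1, 1) + (-1) * x (2, 0) + (-1) * x (2, 1) + (-1) * x (3, 0) + (-1) * x (3, 1) + (-1) * x (3, 2)) * h3
  · show x (3, 2) = 2 * x (0, 0) + 2 * x (0, 1) + x (0, 2) + 2 * x (1, 1) + 2 * x (2, 0)
    linear_combination (2) * hc0 + (2) * hc3 + (1) * ht0 + (2) * ht1 + (1) * ht3 + ((-2) * x (0, 0) + (-2) * x (0, 1) + (-1) * x (0, 2) + (-1) * x (1, 0) + (-1) * x (1, 1) + (-1) * x (2, 0) + (-1) * x (2, 1) + (-1) * x (3, 0) + (-1) * x (3, 1) + (-1) * x (3, 2)) * h3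

theorem mem_ternary_iff (x : ArrayPt → ZMod 3) : x ∈ ternaryGolayCode ↔ ∃ a : TP, x = tenc a :=
  ⟨fun h => ⟨tproj x, eq_tenc_of_mem h⟩, fun ⟨a, h⟩ => h ▸ tenc_mem a⟩

theorem tenc_injective : Function.Injective tenc := fun a b h => by
  rw [← tproj_tenc a, ← tproj_tenc b, h]

/-- The code is parametrised by `TP`. -/
def tencEquiv : TP ≃ ↥ternaryGolayCode where
  toFun a := ⟨tenc a, tenc_mem a⟩
  invFun x := tproj x.1
  left_inv a := tproj_tenc a
  right_inv x := Subtype.ext (eq_tenc_of_mem x.2).symm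

/-- The basis words. -/
def tgen (k : Fin 6) : ArrayPt → ZMod 3 :=
  tenc ((![(1,0,0,0,0,0), (0,1,0,0,0,0), (0,0,1,0,0,0), (0,0,0,1,0,0), (0,0,0,0,1,0), (0,0,0,0,0,1)] :
    Fin 6 → TP) k)

theorem tenc_lin : ∀ (b : TP) (p : ArrayPt), tenc b p = b.1 * tgen 0 p + b.2.1 * tgen 1 p +
    b.2.2.1 * tgen 2 p + b.2.2.2.1 * tgen 3 p + b.2.2.2.2.1 * tgen 4 p + b.2.2.2.2.2 * tgen 5 p := by
  decide +kernel

/-- The weight of the word with parameters `a`. -/
def twt (a : TP) : ℕ := (ternarySupport (tenc a)).card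

end Cfsg.Agent.H34
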