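import Cfsg.Agent.H34.Ternary

/-!
# The hexads of the ternary code of length 12 (helper34 library)
-/

set_option autoImplicit false

namespace Cfsg.Agent.H34

open Cfsg

/-- The 132 hexads (supports of the weight-6 words), as masks. -/
def hexMasks : List ℕ := [63, 222, 237, 243, 347, 366, 373, 413, 427, 438, 455, 504, 591, 630, 633, 667, 679, 700, 725, 746, 791, 813, 826, 860, 867, 910, 945, 969, 978, 996, 1117, 1127, 1146, 1175, 1198, 1209, 1227, 1268, 1295, 1331, 1340, 1366, 1385, 1434, 1445, 1484, 1489, 1506, 1566, 1579, 1589, 1619, 1644, 1677, 1714, 1734, 1752, 1761, 1817, 1830, 1861, 1866, 1904, 1923, 1940, 1960, 2135, 2155, 2172, 2191, 2229, 2234, 2265, 2278, 2334, 2343, 2361, 2381, 2418, 2451, 2476, 2506, 2516, 2529, 2589, 2606, 2611, 2650, 2661, 2710, 2729, 2755, 2764, 2800, 2827,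 2868, 2886, 2897, 2920, 2949, 2968, 2978, 3099, 3117, 3126, 3150, 3185, 3228, 3235, 3269, 3282, 3304, 3349, 3370, 3395, 3416, 3428, 3462, 3465, 3504, 3591, 3640, 3657, 3668, 3682, 3722, 3729, 3748, 3852, 3858, 3873, 4032]

/-- Parameters of one weight-6 word for each hexad. -/
def hexWit : List TP := [(1, 1, 1, 2, 2, 0), (0, 1, 2, 1, 2, 2), (1, 0, 2, 1, 0, 1), (1, 2, 0, 0, 1, 2), (1, 2, 0, 1, 2, 1), (0, 1, 2, 2, 0, 1), (1, 0, 2, 0, 2, 2), (1, 0, 2, 2, 1, 0), (1, 2, 0, 2, 0, 0), (0, 1, 2, 0, 1, 0), (1, 1, 1, 0, 0, 2), (0, 0, 0, 1, 1, 2), (1, 2, 2, 2, 0, 2), (0, 1, 1, 0, 1, 2), (1, 0, 0, 2, 1, 1), (1, 1, 0, 1, 1, 0), (1, 1, 2, 0, 0, 0), (0, 0, 1, 1, 1, 0), (1, 0, 1, 0, 2, 1), (0, 1, 0, 2, 0, 2), (1, 2, 1, 0, 1, 0), (1, 0, 1, 1, 0, 0), (0, 1, 0, 1, 2, 0), (0, 0, 1, 2, 2, 2), (1, 1, 0, 0, 0, 1),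 (0, 1, 1, 2, 0, 0), (1, 0, 0, 0, 2, 0), (1, 0, 0, 1, 0, 2), (0, 1, 0, 0, 1, 1), (0, 0, 1, 0, 0, 1), (1, 0, 1, 1, 1, 2), (1, 2, 1, 0, 0, 1), (0, 1, 0, 1, 1, 1), (1, 2, 2, 0, 2, 0), (0, 1, 1, 1, 0, 0), (1, 0, 0, 1, 2, 0), (1, 1, 0, 2, 0, 1), (0, 0, 1, 0, 2, 2), (1, 1, 2, 1, 0, 0), (1, 1, 0, 0, 1, 0), (0, 0, 1, 2, 1, 0), (0, 1, 1, 0, 2, 1), (1, 0, 0, 2, 0, 2), (0, 1, 0, 2, 2, 0), (1, 0, 1, 0, 0, 0), (0, 0, 1, 1, 0, 1), (1, 0, 0, 0, 1, 1), (0, 1, 0, 0, 0, 2), (0, 1, 2, 2, 1, 0), (1, 2, 0, 1, 0, 0), (1, 0, 2, 0, 1, 0), (1, 1, 0, 0, 2, 2), (0, 0, 1, 2, 0, 1), (1, 0, 1, 2, 0, 0), (0, 1, 0, 0, 2, 0), (0, 1, 2, 0, 0, 1), (0, 0, 0, 1, 2, 1), (1, 0, 0, 0, 0, 2), (1, 0, 0, 2, 2, 0), (0, 1, 1, 0, 0, 0), (1, 0, 2, 0, 0, 1), (0, 1, 0, 1, 0, 2), (0, 0, 0, 0, 1, 2), (1, 2, 0, 0, 0, 0), (0, 0, 1, 0, 1, 0), (0,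 0, 0, 1, 0, 0), (1, 1, 2, 0, 1, 1), (1, 1, 0, 1, 0, 2), (0, 0, 1, 1, 2, 1), (1, 2, 1, 1, 0, 0), (1, 0, 1, 0, 1, 0), (0, 1, 0, 2, 1, 0), (1, 0, 0, 2, 2, 2), (0, 1, 1, 0, 0, 1), (0, 1, 1, 1, 1, 0), (1, 2, 2, 0, 0, 0), (1, 0, 0, 1, 1, 0), (1, 0, 1, 2, 0, 1), (0, 1, 0, 0, 2, 2), (1, 1, 0, 0, 2, 0), (0, 0, 1, 2, 0, 0), (0, 1, 0, 1, 0, 1), (0, 0, 1, 0, 1, 2), (1, 0, 0, 0, 0, 1), (1, 0, 2, 1, 2, 0), (0, 1, 2, 1, 0, 0), (1, 2, 0, 0, 2, 0), (0, 1, 0, 2, 2, 1), (1, 0, 1, 0, 0, 2), (0, 1, 1, 0, 2, 0), (1, 0, 0, 2, 0, 0), (1, 2, 0, 0, 0, 1), (0, 0, 1, 1, 0, 2), (0, 0, 0, 0, 1, 1), (1, 1, 0, 2, 0, 0), (0, 0, 1, 0, 2, 0), (0, 1, 2, 0, 0, 2), (1, 0, 0, 0, 1, 2), (0, 0, 0, 1, 0, 1), (1, 0, 2, 0, 0, 0), (0, 0, 0, 1, 2, 0), (0, 1, 0, 0, 0, 0), (1, 2, 0, 2, 1, 0), (1, 0, 2, 2, 0, 0), (0, 1, 2, 0, 2, 0), (0, 1,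 1, 2, 0, 2), (1, 0, 0, 0, 2, 1), (0, 0, 1, 2, 2, 0), (1, 1, 0, 0, 0, 0), (1, 0, 2, 0, 0, 2), (0, 1, 0, 0, 1, 2), (0, 0, 0, 1, 0, 2), (1, 0, 1, 0, 2, 0), (0, 1, 0, 2, 0, 0), (1, 2, 0, 0, 0, 2), (0, 0, 0, 1, 2, 2), (0, 0, 1, 0, 0, 2), (0, 1, 2, 0, 0, 0), (1, 0, 0, 1, 0, 0), (0, 0, 0, 0, 1, 0), (1, 1, 1, 0, 0, 0), (0, 0, 0, 1, 1, 0), (1, 0, 0, 1, 0, 1), (0, 0, 1, 0, 1, 1), (0, 1, 0, 0, 0, 1), (0, 1, 0, 1, 0, 0), (1, 0, 0, 0, 1, 0), (0, 0, 1, 0, 0, 0), (0, 0, 1, 1, 0, 0), (0, 1, 0, 0, 1, 0), (1, 0, 0, 0, 0, 0), (0, 0, 0, 0, 0, 1)]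

/-- The mask of the support of the word with parameters `a`. -/
def tmask (a : TP) : ℕ := toMask aE (ternarySupport (tenc a))

theorem hexMasks_eq : hexMasks = hexWit.map tmask := by decide +kernel

theorem hexWit_wt : ∀ a ∈ hexWit, twt a = 6 := by decide +kernel

theorem tmask_mem : ∀ a : TP, twt a = 6 → tmask a ∈ hexMasks := by decide +kernel

theorem hexMasks_lt : ∀ m ∈ hexMasks, m < 2 ^ 12 := by decide +kernel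

theorem hexMasks_nodup : hexMasks.Nodup := by decide +kernel

theorem hexMasks_length : hexMasks.length = 132 := by decide +kernel

theorem hexMasks_popc : ∀ m ∈ hexMasks, popc 12 m = 6 := by decide +kernel

/-- The hexads of the ternary code. -/
def ternHexads : Set (Finset ArrayPt) :=
  {h : Finset ArrayPt | ∃ x ∈ ternaryGolayCode, ternarySupport x = h ∧ h.card = 6}

theorem mem_ternHexads_iff (h : Finset ArrayPt) :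
    h ∈ ternHexads ↔ ∃ m ∈ hexMasks, h = ofMask aE m := by
  constructor
  · rintro ⟨x, hx, rfl, hc⟩
    obtain ⟨a, rfl⟩ := (mem_ternary_iff x).mp hx
    exact ⟨tmask a, tmask_mem a hc, (ofMask_toMask aE _).symm⟩
  · rintro ⟨m, hm, rfl⟩
    rw [hexMasks_eq, List.mem_map] at hm
    obtain ⟨a, ha, rfl⟩ := hm
    refine ⟨tenc a, tenc_mem a, ?_, ?_⟩
    · exact (ofMask_toMask aE _).symm
    · rw [tmask, ofMask_toMask]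
      exact hexWit_wt a ha

/-- Every 5-set of positions lies in exactly one hexad (mask form). -/
theorem hex_steiner : ∀ ms : ℕ, ms < 4096 → popc 12 ms = 5 →
    ∃ m ∈ hexMasks, ms &&& m = ms ∧ ∀ m' ∈ hexMasks, ms &&& m' = ms → m' = m :=
  forall_lt_of_all (by decide +kernel)

end Cfsg.Agent.H34
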