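import Cfsg.Agent.H34.ThDefs

/-!
# S1632 team project, piece TH-FIN: summability and inversion for a unimodular lattice
-/

set_option autoImplicit false

namespace Cfsg.Agent.H34.Th

open Real Matrix

noncomputable section

/-- multiplication by a matrix of determinant 1 as a permutation of the integer vectors. -/
def mulVecEquiv (B : Matrix (Fin 24) (Fin 24) ℤ) (hdet : B.det = 1) :
    (Fin 24 → ℤ) ≃ (Fin 24 → ℤ) where
  toFun x := B *ᵥ x
  invFun y := B⁻¹ *ᵥ y
  left_inv x := by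
    have hu : IsUnit B.det := by rw [hdet]; exact isUnit_one
    simp [Matrix.mulVec_mulVec, Matrix.nonsing_inv_mul _ hu]
  right_inv y := by
    have hu : IsUnit B.det := by rw [hdet]; exact isUnit_one
    simp [Matrix.mulVec_mulVec, Matrix.mul_nonsing_inv _ hu]

theorem fin (hD : StDecomp) (hG : StGoodAll) (hR : StRealPD) : StFin := by
  intro B hsymm hpos hdet
  set BR : Matrix (Fin 24) (Fin 24) ℝ := B.map (Int.cast : ℤ → ℝ) with hBR
  have hBRsymm : BR.IsSymm := by
    ext i j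
    simp only [hBR, Matrix.transpose_apply, Matrix.map_apply]
    rw [← hsymm.apply i j]
  have hBRpos := hR 24 B hsymm hpos hdet
  obtain ⟨q, q', c, ⟨hSP, hSD, hPF⟩, hq, hq'⟩ := hD Good hG.1 hG.2 24 BR hBRsymm hBRpos
  have hmul : ∀ x : Fin 24 → ℤ, cst (B *ᵥ x) = BR *ᵥ cst x := by
    intro x
    funext i
    simp [cst, hBR, Matrix.mulVec, dotProduct]
  have hcast : ∀ x : Fin 24 → ℤ, q (cst x) = ((Qf B x : ℤ) : ℝ) := by
    intro x
    rw [hq, ← hmul]
    simp [Qf, cst, dotProduct]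
  have hsum : StSum (Qf B) := by
    intro t ht
    refine (hSP t ht).congr (fun x => ?_)
    rw [hcast]
  have key : ∀ t : ℝ, 0 < t → ∑' x, Real.exp (-π * t * (Qf B x : ℝ)) =
      c * (1 / Real.sqrt t) ^ 24 * ∑' x, Real.exp (-π * (Qf B x : ℝ) / t) := by
    intro t ht
    have h1 := hPF t ht 0
    have hL : ∑' x : Fin 24 → ℤ, Complex.exp (((-π * t * q (cst x) : ℝ) : ℂ) +
        2 * π * Complex.I * ((∑ j : Fin 24, (x j : ℝ) * (0 : Fin 24 → ℝ) j : ℝ) : ℂ)) =
        ((∑' x, Real.exp (-π * t * (Qf B x : ℝ)) : ℝ) : ℂ) := by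
      rw [Complex.ofReal_tsum]
      refine tsum_congr (fun x => ?_)
      rw [hcast]
      simp
    have hRr : ∑' y : Fin 24 → ℤ, Real.exp (-π * q' (cst y - 0) / t) =
        ∑' x, Real.exp (-π * (Qf B x : ℝ) / t) := by
      rw [← (mulVecEquiv B hdet).tsum_eq]
      refine tsum_congr (fun x => ?_)
      show Real.exp (-π * q' (cst (B *ᵥ x) - 0) / t) = _
      rw [sub_zero, hmul, hq', hcast]
    rw [hL, hRr] at h1
    exact_mod_cast h1
  have hpos1 : 0 < ∑' x, Real.exp (-π * 1 * (Qf B x : ℝ)) :=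
    (hsum 1 one_pos).tsum_pos (fun _ => (Real.exp_pos _).le) 0 (Real.exp_pos _)
  have hc : c = 1 := by
    have h1 := key 1 one_pos
    have h2 : ∑' x, Real.exp (-π * (Qf B x : ℝ) / 1) = ∑' x, Real.exp (-π * 1 * (Qf B x : ℝ)) :=
      tsum_congr (fun x => by congr 1; ring)
    have e : (1 / Real.sqrt 1) ^ 24 = (1 : ℝ) := by simp
    rw [h2, e] at h1
    generalize (∑' x, Real.exp (-π * 1 * (Qf B x : ℝ))) = S at h1 hpos1
    have h3 : (1 - c) * S = 0 := by linarith
    rcases mul_eq_zero.mp h3 with h4 | h4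
    · linarith
    · exact absurd h4 hpos1.ne'
  refine ⟨hsum, fun t ht => ?_⟩
  have h1 := key t ht
  rw [hc] at h1
  have hst : Real.sqrt t ^ 24 = t ^ 12 := by
    have : Real.sqrt t ^ 24 = (Real.sqrt t ^ 2) ^ 12 := by ring
    rw [this, Real.sq_sqrt ht.le]
  have htp : 0 < t ^ 12 := by positivity
  rw [h1, one_div, inv_pow, hst]
  field_simp

example (hD : StDecomp) (hG : StGoodAll) (hR : StRealPD) : StFin := fin hD hG hR

end

end Cfsg.Agent.H34.Th
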