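import Cfsg.Agent.H34.ThStepS
import Cfsg.Agent.H34.ThFin
import Cfsg.Agent.H60.Th1D
import Cfsg.Agent.H62.ThRealPD
import Cfsg.Agent.H24.ThDecomp
import Cfsg.Agent.H16.ThQSer
import Cfsg.Agent.H71.ThHolo
import Cfsg.Agent.H71.ThSInv
import Cfsg.Agent.H3.ThCoeff
import Cfsg.Agent.H3.ThMF

/-!
# S1632 team project: assembly

Pieces: TH-1D (helper60), TH-REALPD (helper62; also helper70), TH-DECOMP (helper24),
TH-QSER (helper16; also TH-FIN), TH-HOLO, TH-SINV (helper71), TH-COEFF, TH-MF (helper3),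
TH-STEPSP, TH-STEPSD, TH-STEPPF, TH-FIN (helper34).
-/

set_option autoImplicit false
open Matrix

namespace Cfsg.Agent.H34.Th

theorem goodAll (h1 : StStepSP) (h2 : StStepSD) (h3 : StStepPF) : StGoodAll := by
  refine ⟨⟨?_, ?_, ?_⟩, ?_⟩
  · intro t ht
    exact (hasSum_fintype _).summable
  · intro t ht
    refine ⟨1, fun p => ⟨(hasSum_fintype _).summable, ?_⟩⟩
    rw [tsum_fintype]
    simp
  · intro t ht p
    rw [tsum_fintype, tsum_fintype]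
    simp
  · intro n q q' c hG a ha l
    obtain ⟨hSP, hSD, hPF⟩ := hG
    have hSP' := h1 n q hSP a ha l
    have hSD' := h2 n q' hSD a ha l
    exact ⟨hSP', hSD', h3 n q q' c hSP hSD hPF a ha l hSP' hSD'⟩

theorem main_of (hFin : StFin) (hHolo : StHolo) (hSInv : StSInv) (hQSer : StQSer) (hMF : StMF)
    (hCoeff : StCoeff)
    (B : Matrix (Fin 24) (Fin 24) ℤ) (hsymm : B.IsSymm)
    (hpos : ∀ x : Fin 24 → ℤ, x ≠ 0 → 0 < x ⬝ᵥ (B *ᵥ x))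
    (heven : ∀ x : Fin 24 → ℤ, (2 : ℤ) ∣ x ⬝ᵥ (B *ᵥ x)) (hdet : B.det = 1)
    (h2 : ∀ x : Fin 24 → ℤ, x ⬝ᵥ (B *ᵥ x) ≠ 2) :
    {x : Fin 24 → ℤ | x ⬝ᵥ (B *ᵥ x) = 4}.ncard = 196560 ∧
      {x : Fin 24 → ℤ | x ⬝ᵥ (B *ᵥ x) = 6}.ncard = 16773120 ∧
      {x : Fin 24 → ℤ | x ⬝ᵥ (B *ᵥ x) = 8}.ncard = 398034000 := by
  obtain ⟨hS, hR⟩ := hFin B hsymm hpos hdet
  have hnn : ∀ x, 0 ≤ Qf B x := by
    intro x
    by_cases hx : x = 0
    · subst hx; simp [Qf]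
    · exact (hpos x hx).le
  have hev : ∀ x, (2 : ℤ) ∣ Qf B x := heven
  have hH := hHolo _ (Qf B) hnn hS
  have hSI := hSInv _ (Qf B) hnn hS hR hH
  obtain ⟨hfin, hQ⟩ := hQSer _ (Qf B) hnn hev hS
  obtain ⟨f, hf⟩ := hMF _ (Qf B) hH hSI hQ
  have h0 : rep (Qf B) 0 = 1 := by
    have : {x : Fin 24 → ℤ | Qf B x = 2 * ((0 : ℕ) : ℤ)} = {0} := by
      ext x
      constructor
      · intro hx
        by_contra hne
        have h3 := hpos x hne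
        have h4 : Qf B x = 2 * ((0 : ℕ) : ℤ) := hx
        simp only [Qf] at h4
        omega
      · intro hx
        have h4 : x = 0 := hx
        subst h4
        show Qf B 0 = 2 * ((0 : ℕ) : ℤ)
        simp [Qf]
    unfold rep
    rw [this]
    exact Set.ncard_singleton 0
  have h1 : rep (Qf B) 1 = 0 := by
    have : {x : Fin 24 → ℤ | Qf B x = 2 * ((1 : ℕ) : ℤ)} = ∅ := by
      ext x
      constructor
      · intro hx
        have h4 : Qf B x = 2 * ((1 : ℕ) : ℤ) := hx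
        exact absurd (by simpa [Qf] using h4) (h2 x)
      · intro hx
        exact absurd hx (Set.notMem_empty x)
    unfold rep
    rw [this]
    exact Set.ncard_empty _
  obtain ⟨c2, c3, c4⟩ := hCoeff f (by rw [hf 0, h0]; simp) (by rw [hf 1, h1]; simp)
  rw [hf 2] at c2
  rw [hf 3] at c3
  rw [hf 4] at c4
  have e2 : rep (Qf B) 2 = 196560 := by exact_mod_cast c2
  have e3 : rep (Qf B) 3 = 16773120 := by exact_mod_cast c3
  have e4 : rep (Qf B) 4 = 398034000 := by exact_mod_cast c4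
  refine ⟨?_, ?_, ?_⟩
  · rw [← e2]; rfl
  · rw [← e3]; rfl
  · rw [← e4]; rfl

/-- an even unimodular lattice of rank 24 without roots: the numbers of vectors of norms
4, 6 and 8. -/
theorem main (B : Matrix (Fin 24) (Fin 24) ℤ) (hsymm : B.IsSymm)
    (hpos : ∀ x : Fin 24 → ℤ, x ≠ 0 → 0 < x ⬝ᵥ (B *ᵥ x))
    (heven : ∀ x : Fin 24 → ℤ, (2 : ℤ) ∣ x ⬝ᵥ (B *ᵥ x)) (hdet : B.det = 1)
    (h2 : ∀ x : Fin 24 → ℤ, x ⬝ᵥ (B *ᵥ x) ≠ 2) :
    {x : Fin 24 → ℤ | x ⬝ᵥ (B *ᵥ x) = 4}.ncard = 196560 ∧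
      {x : Fin 24 → ℤ | x ⬝ᵥ (B *ᵥ x) = 6}.ncard = 16773120 ∧
      {x : Fin 24 → ℤ | x ⬝ᵥ (B *ᵥ x) = 8}.ncard = 398034000 := by
  have h1F : St1F := Cfsg.Agent.H60.Th.oneF
  have h1UB : St1UB := Cfsg.Agent.H60.Th.oneUB h1F
  have hG : StGoodAll := goodAll (stepSP h1UB) (stepSD h1UB) (stepPF h1F)
  have hFin : StFin := fin Cfsg.Agent.H24.Th.decomp hG Cfsg.Agent.H62.Th.realPD
  exact main_of hFin Cfsg.Agent.H71.Th.holo Cfsg.Agent.H71.Th.sInv Cfsg.Agent.H16.Th.qSer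
    Cfsg.Agent.H3.Th.mf Cfsg.Agent.H3.Th.coeff B hsymm hpos heven hdet h2

end Cfsg.Agent.H34.Th
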