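import Cfsg.Agent.H34.ThDefs

/-!
# S1632 team project, piece TH-STEPPF: the induction step of the Poisson formula
-/

set_option autoImplicit false

namespace Cfsg.Agent.H34.Th

open Real Matrix

noncomputable section

/-- split off the first coordinate (second component). -/
def splitE (n : ℕ) : (Fin (n + 1) → ℤ) ≃ (Fin n → ℤ) × ℤ where
  toFun x := (fun j => x j.succ, x 0)
  invFun w := Fin.cons w.2 w.1
  left_inv x := by
    funext i
    refine Fin.cases ?_ (fun j => ?_) i <;> simp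
  right_inv w := by
    ext <;> simp

theorem norm_cexp_re_add (r θ : ℝ) :
    ‖Complex.exp ((r : ℂ) + 2 * π * Complex.I * (θ : ℂ))‖ = Real.exp r := by
  rw [Complex.norm_exp]
  congr 1
  simp

theorem qS_cst {n : ℕ} (a : ℝ) (l : Fin n → ℝ) (q : (Fin n → ℝ) → ℝ) (x : Fin (n + 1) → ℤ) :
    qS a l q (cst x) =
      a * ((x 0 : ℝ) + ∑ j : Fin n, l j * ((x j.succ : ℤ) : ℝ)) ^ 2 +
        q (cst (fun j => x j.succ)) := rfl

theorem qD_cst {n : ℕ} (a : ℝ) (l : Fin n → ℝ) (q' : (Fin n → ℝ) → ℝ) (y : Fin (n + 1) → ℤ)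
    (p : Fin (n + 1) → ℝ) :
    qD a l q' (cst y - p) =
      ((y 0 : ℝ) - p 0) ^ 2 / a +
        q' (cst (fun j => y j.succ) - fun j => p j.succ + ((y 0 : ℝ) - p 0) * l j) := by
  have : (fun j : Fin n => (cst y - p) j.succ - (cst y - p) 0 * l j) =
      cst (fun j => y j.succ) - fun j => p j.succ + ((y 0 : ℝ) - p 0) * l j := by
    funext j
    simp only [cst, Pi.sub_apply]
    ring
  simp only [qD]
  rw [this]
  rfl

theorem stepPF (h : St1F) : StStepPF := by
  intro n q q' c hSP hSD hPF a ha l hSP' hSD' t ht p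
  have hta : 0 < t * a := mul_pos ht ha
  -- the primal family on the product
  set A : (Fin n → ℤ) → ℤ → ℂ := fun x' k =>
    Complex.exp (((-π * (t * a) * ((k : ℝ) + (∑ j : Fin n, l j * (x' j : ℝ))) ^ 2 : ℝ) : ℂ) +
      2 * π * Complex.I * (((k : ℝ) * p 0 : ℝ) : ℂ)) with hA
  set C : (Fin n → ℤ) → ℂ := fun x' =>
    Complex.exp (((-π * t * q (cst x') : ℝ) : ℂ) +
      2 * π * Complex.I * ((∑ j : Fin n, (x' j : ℝ) * p j.succ : ℝ) : ℂ)) with hC
  set D : (Fin n → ℤ) → ℤ → ℂ := fun x' m =>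
    Complex.exp (((-π * ((m : ℝ) - p 0) ^ 2 / (t * a) : ℝ) : ℂ) +
      2 * π * Complex.I * ((((m : ℝ) - p 0) * (∑ j : Fin n, l j * (x' j : ℝ)) : ℝ) : ℂ)) with hD
  set F : (Fin n → ℤ) × ℤ → ℂ := fun w => A w.1 w.2 * C w.1 with hF
  set T : (Fin (n + 1) → ℤ) → ℂ := fun x =>
    Complex.exp (((-π * t * qS a l q (cst x) : ℝ) : ℂ) +
      2 * π * Complex.I * ((∑ j : Fin (n + 1), (x j : ℝ) * p j : ℝ) : ℂ)) with hT
  have hTF : ∀ x, T x = F (splitE n x) := by
    intro x
    simp only [hT, hF, hA, hC, splitE, Equiv.coe_fn_mk]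
    rw [← Complex.exp_add, qS_cst, Fin.sum_univ_succ]
    congr 1
    push_cast
    ring
  have hTsum : Summable T := by
    apply Summable.of_norm
    have := hSP' t ht
    refine this.congr (fun x => ?_)
    simp only [hT]
    rw [norm_cexp_re_add]
  have hFsum : Summable F := by
    have : Summable (fun x => F (splitE n x)) := hTsum.congr (fun x => hTF x)
    exact (splitE n).summable_iff.mp this
  -- step 1: reindex
  have e1 : ∑' x, T x = ∑' w, F w := by
    rw [← (splitE n).tsum_eq F]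
    exact tsum_congr hTF
  -- step 2: iterated sum, inner over the first coordinate
  have e2 : ∑' w, F w = ∑' x', ∑' k, F (x', k) := hFsum.tsum_prod
  -- step 3: one-dimensional Poisson
  have e3 : ∀ x' : Fin n → ℤ, ∑' k, F (x', k) =
      ((1 / Real.sqrt (t * a) : ℝ) : ℂ) * ∑' m : ℤ, D x' m * C x' := by
    intro x'
    simp only [hF]
    rw [tsum_mul_right, tsum_mul_right, ← mul_assoc]
    congr 1
    exact (h (t * a) hta (∑ j : Fin n, l j * (x' j : ℝ)) (p 0)).2
  -- the double family D * C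
  set H : (Fin n → ℤ) × ℤ → ℂ := fun w => D w.1 w.2 * C w.1 with hH
  have hg : Summable (fun m : ℤ => Real.exp (-π * ((m : ℝ) - p 0) ^ 2 / (t * a))) := by
    have := (h (1 / (t * a)) (by positivity) (-p 0) 0).1
    refine this.congr (fun m => ?_)
    congr 1
    field_simp
    ring
  have hHsum : Summable H := by
    apply Summable.of_norm
    have := Summable.mul_of_nonneg (hSP t ht) hg (fun _ => (Real.exp_pos _).le)
      (fun _ => (Real.exp_pos _).le)
    refine this.congr (fun w => ?_)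
    simp only [hH, hD, hC]
    rw [norm_mul, norm_cexp_re_add, norm_cexp_re_add, mul_comm]
  have e4 : ∑' x', ∑' m, H (x', m) = ∑' m, ∑' x', H (x', m) := by
    have hu : Summable (Function.uncurry (fun (x' : Fin n → ℤ) (m : ℤ) => H (x', m))) := by
      have : Function.uncurry (fun (x' : Fin n → ℤ) (m : ℤ) => H (x', m)) = H := by
        funext ⟨_, _⟩; rfl
      rw [this]; exact hHsum
    exact (hu.tsum_comm).symm
  -- step 4: the inner n-dimensional sum by the induction hypothesis
  have e5 : ∀ m : ℤ, ∑' x', H (x', m) =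
      ((Real.exp (-π * ((m : ℝ) - p 0) ^ 2 / (t * a)) *
        (c * (1 / Real.sqrt t) ^ n *
          ∑' y' : Fin n → ℤ, Real.exp (-π * q' (cst y' -
            fun j => p j.succ + ((m : ℝ) - p 0) * l j) / t)) : ℝ) : ℂ) := by
    intro m
    have hterm : ∀ x' : Fin n → ℤ, H (x', m) =
        ((Real.exp (-π * ((m : ℝ) - p 0) ^ 2 / (t * a)) : ℝ) : ℂ) *
          Complex.exp (((-π * t * q (cst x') : ℝ) : ℂ) +
            2 * π * Complex.I * ((∑ j : Fin n, (x' j : ℝ) *
              (p j.succ + ((m : ℝ) - p 0) * l j) : ℝ) : ℂ)) := by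
      intro x'
      simp only [hH, hD, hC]
      rw [Complex.ofReal_exp, ← Complex.exp_add, ← Complex.exp_add]
      congr 1
      have hs : (∑ j : Fin n, (x' j : ℝ) * (p j.succ + ((m : ℝ) - p 0) * l j)) =
          ((m : ℝ) - p 0) * (∑ j : Fin n, l j * (x' j : ℝ)) +
            ∑ j : Fin n, (x' j : ℝ) * p j.succ := by
        rw [Finset.mul_sum, ← Finset.sum_add_distrib]
        refine Finset.sum_congr rfl (fun j _ => ?_)
        ring
      rw [hs]
      push_cast
      ring
    rw [tsum_congr hterm, tsum_mul_left,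
      hPF t ht (fun j => p j.succ + ((m : ℝ) - p 0) * l j)]
    push_cast
    ring
  -- the dual family
  set K : (Fin n → ℤ) × ℤ → ℝ := fun w =>
    Real.exp (-π * ((w.2 : ℝ) - p 0) ^ 2 / (t * a)) *
      Real.exp (-π * q' (cst w.1 - fun j => p j.succ + ((w.2 : ℝ) - p 0) * l j) / t) with hK
  set R : (Fin (n + 1) → ℤ) → ℝ := fun y =>
    Real.exp (-π * qD a l q' (cst y - p) / t) with hR
  have hRK : ∀ y, R y = K (splitE n y) := by
    intro y
    simp only [hR, hK, splitE, Equiv.coe_fn_mk]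
    rw [← Real.exp_add, qD_cst]
    congr 1
    field_simp
    ring
  obtain ⟨M, hM⟩ := hSD' t ht
  have hRsum : Summable R := (hM p).1
  have hKsum : Summable K := by
    have : Summable (fun y => K (splitE n y)) := hRsum.congr (fun y => hRK y)
    exact (splitE n).summable_iff.mp this
  have e6 : ∑' y, R y = ∑' m, ∑' y', K (y', m) := by
    have h1 : ∑' y, R y = ∑' w, K w := by
      rw [← (splitE n).tsum_eq K]
      exact tsum_congr hRK
    have hu : Summable (Function.uncurry (fun (y' : Fin n → ℤ) (m : ℤ) => K (y', m))) := by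
      have : Function.uncurry (fun (y' : Fin n → ℤ) (m : ℤ) => K (y', m)) = K := by
        funext ⟨_, _⟩; rfl
      rw [this]; exact hKsum
    rw [h1, hKsum.tsum_prod]
    exact (hu.tsum_comm).symm
  -- assemble
  have hsq : Real.sqrt (t * a) = Real.sqrt t * Real.sqrt a := Real.sqrt_mul ht.le a
  have hst : 0 < Real.sqrt t := Real.sqrt_pos.mpr ht
  have hsa : 0 < Real.sqrt a := Real.sqrt_pos.mpr ha
  change ∑' x, T x = ((c / Real.sqrt a * (1 / Real.sqrt t) ^ (n + 1) * ∑' y, R y : ℝ) : ℂ)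
  rw [e1, e2, tsum_congr e3, tsum_mul_left]
  have e7 : ∑' x' : Fin n → ℤ, ∑' m : ℤ, D x' m * C x' = ∑' x', ∑' m, H (x', m) := rfl
  rw [e7, e4, tsum_congr e5, ← Complex.ofReal_tsum, ← Complex.ofReal_mul, e6]
  congr 1
  have e8 : ∀ m : ℤ, Real.exp (-π * ((m : ℝ) - p 0) ^ 2 / (t * a)) *
        (c * (1 / Real.sqrt t) ^ n *
          ∑' y' : Fin n → ℤ, Real.exp (-π * q' (cst y' -
            fun j => p j.succ + ((m : ℝ) - p 0) * l j) / t)) =
      c * (1 / Real.sqrt t) ^ n * ∑' y' : Fin n → ℤ, K (y', m) := by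
    intro m
    simp only [hK]
    rw [tsum_mul_left]
    ring
  rw [tsum_congr e8, tsum_mul_left, hsq, pow_succ]
  field_simp

example (h : St1F) : StStepPF := stepPF h

end

end Cfsg.Agent.H34.Th
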