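import Cfsg.Agent.H34.ThStepPF

/-!
# S1632 team project, pieces TH-STEPSP and TH-STEPSD: the summability steps
-/

set_option autoImplicit false

namespace Cfsg.Agent.H34.Th

open Real Matrix

noncomputable section

theorem stepSP (h : St1UB) : StStepSP := by
  intro n q hSP a ha l t ht
  have hta : 0 < t * a := mul_pos ht ha
  obtain ⟨M, hM⟩ := h (t * a) hta
  set K : (Fin n → ℤ) × ℤ → ℝ := fun w =>
    Real.exp (-π * (t * a) * ((w.2 : ℝ) + ∑ j : Fin n, l j * (w.1 j : ℝ)) ^ 2) *
      Real.exp (-π * t * q (cst w.1)) with hK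
  have hRK : ∀ x : Fin (n + 1) → ℤ,
      Real.exp (-π * t * qS a l q (cst x)) = K (splitE n x) := by
    intro x
    simp only [hK, splitE, Equiv.coe_fn_mk]
    rw [← Real.exp_add, qS_cst]
    congr 1
    ring
  have hKsum : Summable K := by
    rw [summable_prod_of_nonneg (fun w => mul_nonneg (Real.exp_pos _).le (Real.exp_pos _).le)]
    refine ⟨fun x' => ?_, ?_⟩
    · show Summable (fun k : ℤ =>
        Real.exp (-π * (t * a) * ((k : ℝ) + ∑ j : Fin n, l j * (x' j : ℝ)) ^ 2) *
          Real.exp (-π * t * q (cst x')))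
      exact (hM (∑ j : Fin n, l j * (x' j : ℝ))).1.mul_right _
    · refine Summable.of_nonneg_of_le (fun x' => tsum_nonneg (fun k =>
        mul_nonneg (Real.exp_pos _).le (Real.exp_pos _).le)) (fun x' => ?_)
        ((hSP t ht).mul_left M)
      show ∑' k : ℤ,
          Real.exp (-π * (t * a) * ((k : ℝ) + ∑ j : Fin n, l j * (x' j : ℝ)) ^ 2) *
            Real.exp (-π * t * q (cst x')) ≤ M * Real.exp (-π * t * q (cst x'))
      rw [tsum_mul_right]
      exact mul_le_mul_of_nonneg_right (hM (∑ j : Fin n, l j * (x' j : ℝ))).2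
        (Real.exp_pos _).le
  have : Summable (fun x => K (splitE n x)) := (splitE n).summable_iff.mpr hKsum
  exact this.congr (fun x => (hRK x).symm)

theorem stepSD (h : St1UB) : StStepSD := by
  intro n q' hSD a ha l t ht
  have hta : 0 < t * a := mul_pos ht ha
  obtain ⟨Mn, hMn⟩ := hSD t ht
  obtain ⟨M1, hM1⟩ := h (1 / (t * a)) (by positivity)
  have hMn0 : 0 ≤ Mn := le_trans (tsum_nonneg (fun _ => (Real.exp_pos _).le)) (hMn 0).2
  refine ⟨M1 * Mn, fun p => ?_⟩
  set g : ℤ → ℝ := fun m => Real.exp (-π * ((m : ℝ) - p 0) ^ 2 / (t * a)) with hg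
  have hgsum : Summable g := by
    refine (hM1 (-p 0)).1.congr (fun m => ?_)
    simp only [hg]
    congr 1
    field_simp
    ring
  have hgle : ∑' m, g m ≤ M1 := by
    have : ∑' m, g m = ∑' k : ℤ, Real.exp (-π * (1 / (t * a)) * ((k : ℝ) + -p 0) ^ 2) := by
      refine tsum_congr (fun m => ?_)
      simp only [hg]
      congr 1
      field_simp
      ring
    rw [this]
    exact (hM1 (-p 0)).2
  set K : ℤ × (Fin n → ℤ) → ℝ := fun w =>
    g w.1 * Real.exp (-π * q' (cst w.2 - fun j => p j.succ + ((w.1 : ℝ) - p 0) * l j) / t)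
    with hK
  set E : (Fin (n + 1) → ℤ) ≃ ℤ × (Fin n → ℤ) := (splitE n).trans (Equiv.prodComm _ _) with hE
  have hRK : ∀ y : Fin (n + 1) → ℤ,
      Real.exp (-π * qD a l q' (cst y - p) / t) = K (E y) := by
    intro y
    simp only [hK, hg, hE, splitE, Equiv.trans_apply, Equiv.coe_fn_mk, Equiv.prodComm_apply,
      Prod.swap_prod_mk]
    rw [← Real.exp_add, qD_cst]
    congr 1
    field_simp
    ring
  have hK0 : 0 ≤ K := fun w => mul_nonneg (Real.exp_pos _).le (Real.exp_pos _).le
  have hinner : ∀ m : ℤ, ∑' y' : Fin n → ℤ, K (m, y') ≤ g m * Mn := by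
    intro m
    show ∑' y' : Fin n → ℤ, g m *
        Real.exp (-π * q' (cst y' - fun j => p j.succ + ((m : ℝ) - p 0) * l j) / t) ≤ g m * Mn
    rw [tsum_mul_left]
    exact mul_le_mul_of_nonneg_left (hMn _).2 (Real.exp_pos _).le
  have hKsum : Summable K := by
    rw [summable_prod_of_nonneg hK0]
    refine ⟨fun m => ?_, ?_⟩
    · show Summable (fun y' : Fin n → ℤ => g m *
        Real.exp (-π * q' (cst y' - fun j => p j.succ + ((m : ℝ) - p 0) * l j) / t))
      exact (hMn _).1.mul_left _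
    · exact Summable.of_nonneg_of_le (fun m => tsum_nonneg (fun y' => hK0 _)) hinner
        (hgsum.mul_right Mn)
  have hsum : Summable (fun y => K (E y)) := E.summable_iff.mpr hKsum
  refine ⟨hsum.congr (fun y => (hRK y).symm), ?_⟩
  rw [tsum_congr hRK, E.tsum_eq K, hKsum.tsum_prod]
  calc ∑' m, ∑' y', K (m, y') ≤ ∑' m, g m * Mn :=
        (hKsum.prod).tsum_le_tsum hinner (hgsum.mul_right Mn)
    _ = (∑' m, g m) * Mn := tsum_mul_right
    _ ≤ M1 * Mn := mul_le_mul_of_nonneg_right hgle hMn0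

example (h : St1UB) : StStepSP := stepSP h
example (h : St1UB) : StStepSD := stepSD h

end

end Cfsg.Agent.H34.Th
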