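import Mathlib

/-!
# Number-theoretic lemmas for the unitary-type subgroups of `PSL_n(q)` (helper34 library)

Seven small lemmas (piece `S5982-NT` of helper99's project): orders of `-q₀` and `q₀ ^ 2`
modulo a prime `r`, valuations of `q₀ ^ 2 - 1`, and squares in a field of order `q₀ ^ 2`.
-/

set_option autoImplicit false

open scoped MatrixGroups

namespace Cfsg.Agent.H34.Uni

variable {F : Type*} [Field F] [Fintype F]

set_option linter.unusedVariables false in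
theorem order_sq_mul_two (q₀ r : ℕ) (hr : r.Prime)
    (he : Even (orderOf (-(q₀ : ZMod r)))) :
    orderOf (((q₀ ^ 2 : ℕ) : ZMod r)) * 2 = orderOf (-(q₀ : ZMod r)) := by
  have e1 : ((q₀ ^ 2 : ℕ) : ZMod r) = (-(q₀ : ZMod r)) ^ 2 := by
    push_cast
    ring
  have h2 : 2 ∣ orderOf (-(q₀ : ZMod r)) := even_iff_two_dvd.mp he
  rw [e1, orderOf_pow' _ (by norm_num : (2 : ℕ) ≠ 0), Nat.gcd_eq_right h2]
  exact Nat.div_mul_cancel h2

theorem dvd_sub_one_of_order_two (q₀ r : ℕ) (hr : r.Prime) (hq₀ : 0 < q₀)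
    (he : orderOf (-(q₀ : ZMod r)) = 2) : r ∣ q₀ - 1 := by
  haveI : Fact r.Prime := ⟨hr⟩
  have h1 : (-(q₀ : ZMod r)) ^ 2 = 1 := by
    rw [← he]
    exact pow_orderOf_eq_one _
  have h2 : -(q₀ : ZMod r) ≠ 1 := by
    intro h
    rw [h, orderOf_one] at he
    exact absurd he (by norm_num)
  have h3 : -(q₀ : ZMod r) = -1 := by
    rcases sq_eq_one_iff.mp h1 with h | h
    · exact absurd h h2
    · exact h
  have h4 : (q₀ : ZMod r) = 1 := neg_injective h3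
  rw [← ZMod.natCast_eq_zero_iff, Nat.cast_sub hq₀, h4]
  simp

theorem not_dvd_add_one (q₀ r : ℕ) (hr : r.Prime) (hr2 : r ≠ 2) (hq₀ : 0 < q₀)
    (h : r ∣ q₀ - 1) : ¬ r ∣ q₀ + 1 := by
  intro h1
  have h2 : r ∣ (q₀ + 1) - (q₀ - 1) := Nat.dvd_sub h1 h
  have e : (q₀ + 1) - (q₀ - 1) = 2 := by omega
  rw [e] at h2
  exact hr2 ((Nat.prime_dvd_prime_iff_eq hr Nat.prime_two).mp h2)

theorem val_sq_sub_one_of_dvd_sub_one (q₀ r : ℕ) (hr : r.Prime) (hr2 : r ≠ 2) (hq₀ : 1 < q₀)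
    (h : r ∣ q₀ - 1) : padicValNat r (q₀ ^ 2 - 1) = padicValNat r (q₀ - 1) := by
  haveI : Fact r.Prime := ⟨hr⟩
  have e : q₀ ^ 2 - 1 = (q₀ - 1) * (q₀ + 1) := by
    obtain ⟨m, rfl⟩ : ∃ m, q₀ = m + 1 := ⟨q₀ - 1, by omega⟩
    have e1 : (m + 1) ^ 2 = m * (m + 1 + 1) + 1 := by ring
    rw [e1]
    simp
  rw [e, padicValNat.mul (by omega) (by omega),
    padicValNat.eq_zero_of_not_dvd (not_dvd_add_one q₀ r hr hr2 (by omega) h), add_zero]

theorem four_dvd_sq_sub_one (q₀ : ℕ) (h : Odd q₀) : 4 ∣ q₀ ^ 2 - 1 := by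
  obtain ⟨k, rfl⟩ := h
  refine ⟨k * (k + 1), ?_⟩
  have e1 : (2 * k + 1) ^ 2 = 4 * (k * (k + 1)) + 1 := by ring
  rw [e1]
  simp

set_option linter.unusedVariables false in
theorem order_sq_eq_one_of_dvd (q₀ r : ℕ) (hr : r.Prime) (hq₀ : 0 < q₀) (h : r ∣ q₀ - 1) :
    orderOf (((q₀ ^ 2 : ℕ) : ZMod r)) = 1 := by
  have h1 : ((q₀ - 1 : ℕ) : ZMod r) = 0 := (ZMod.natCast_eq_zero_iff _ _).mpr h
  rw [Nat.cast_sub hq₀, sub_eq_zero] at h1
  have h2 : ((q₀ ^ 2 : ℕ) : ZMod r) = 1 := by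
    push_cast
    rw [h1]
    simp
  rw [h2, orderOf_one]

theorem exists_sq_of_norm (q₀ : ℕ) (hF : Fintype.card F = q₀ ^ 2) (hodd : Odd q₀) (c z : F)
    (hc : c ^ q₀ = c) (hz : z ^ (q₀ + 1) = c ^ 2) : ∃ y : F, y ^ 2 = z := by
  by_cases hz0 : z = 0
  · exact ⟨0, by rw [hz0]; simp⟩
  have hc0 : c ≠ 0 := by
    intro h0
    rw [h0] at hz
    have : z ^ (q₀ + 1) = 0 := by rw [hz]; simp
    exact hz0 (pow_eq_zero_iff (by omega) |>.mp this)
  obtain ⟨k, hk⟩ := hodd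
  have hchar : ringChar F ≠ 2 := by
    intro h2
    have h3 := FiniteField.even_card_iff_char_two.mp h2
    rw [hF, hk] at h3
    have e1 : (2 * k + 1) ^ 2 = 2 * (2 * k * k + 2 * k) + 1 := by ring
    rw [e1] at h3
    omega
  have hcard : Fintype.card F / 2 = (q₀ + 1) * k := by
    rw [hF, hk]
    have e1 : (2 * k + 1) ^ 2 = 2 * ((2 * k + 1 + 1) * k) + 1 := by ring
    rw [e1]
    omega
  have hck : c ^ (2 * k) = 1 := by
    have h1 : c ^ (2 * k) * c = 1 * c := by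
      rw [one_mul, ← pow_succ, ← hk, hc]
    exact mul_right_cancel₀ hc0 h1
  have hsq : IsSquare z := by
    rw [FiniteField.isSquare_iff hchar hz0, hcard, pow_mul, hz, ← pow_mul, hck]
  obtain ⟨y, hy⟩ := hsq
  exact ⟨y, by rw [hy, pow_two]⟩

end Cfsg.Agent.H34.Uni
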