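import Mathlib

/-!
# Tools for the witness pieces of `S5982` (helper34 library, helper99's team project)

Ranks of `diagonal d - μ`, and roots of unity fixed by `ν ↦ (ν⁻¹) ^ q₀`. Adapted from the
`S5965` files of helper18 (`H18/SubWit`) and helper77 (`H77/SubWBase`).
-/

set_option autoImplicit false

namespace Cfsg.Agent.H34.Uni

variable {F : Type*} [Field F]

theorem rank_diag_sub_sum {K : Type*} [Field K] [DecidableEq K] {n : ℕ} (d : Fin n → K) (μ : K) :
    (Matrix.diagonal d - μ • (1 : Matrix (Fin n) (Fin n) K)).rank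
      = ∑ i, (if d i ≠ μ then 1 else 0) := by
  rw [Matrix.smul_one_eq_diagonal, Matrix.diagonal_sub, Matrix.rank_diagonal, Fintype.card_subtype,
    Finset.card_filter]
  refine Finset.sum_congr rfl (fun i _ => ?_)
  by_cases h : d i = μ
  · rw [if_neg (by rw [h, sub_self]; exact not_not.mpr rfl), if_neg (not_not.mpr h)]
  · rw [if_pos (sub_ne_zero.mpr h), if_pos h]

/-- The rank of `diagonal d - ν • 1` is the number of diagonal entries different from `ν`. -/
theorem rank_diag_sub_card [DecidableEq F] {n : ℕ} (d : Fin n → F) (ν : F) :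
    (Matrix.diagonal d - ν • (1 : Matrix (Fin n) (Fin n) F)).rank
      = Fintype.card {i : Fin n // d i ≠ ν} := by
  have e : Matrix.diagonal d - ν • (1 : Matrix (Fin n) (Fin n) F)
      = Matrix.diagonal (fun i => d i - ν) := by
    ext i j
    by_cases hij : i = j
    · subst hij
      simp
    · simp [Matrix.diagonal_apply_ne _ hij, Matrix.one_apply_ne hij]
  rw [e, Matrix.rank_diagonal]
  exact Fintype.card_congr (Equiv.subtypeEquivRight (fun i => by rw [Ne, sub_eq_zero]))

/-- The number of `i : Fin n` with `i < r`. -/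
theorem card_fin_lt_eq (n r : ℕ) (h : r ≤ n) : Fintype.card {i : Fin n // (i : ℕ) < r} = r := by
  have e : {i : Fin n // (i : ℕ) < r} ≃ Fin r :=
    { toFun := fun i => ⟨(i.1 : ℕ), i.2⟩
      invFun := fun j => ⟨⟨(j : ℕ), lt_of_lt_of_le j.2 h⟩, j.2⟩
      left_inv := fun i => rfl
      right_inv := fun j => rfl }
  rw [Fintype.card_congr e, Fintype.card_fin]

/-- A nontrivial `r`-th root of unity killed by the exponent `q` forces `r ∣ q`. -/
theorem dvd_of_root (r q : ℕ) (hr : r.Prime) (θ : F) (h1 : θ ≠ 1) (hθ : θ ^ r = 1)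
    (hq : θ ^ q = 1) : r ∣ q := by
  have h4 : orderOf θ ∣ r := orderOf_dvd_of_pow_eq_one hθ
  have h5 : orderOf θ ∣ q := orderOf_dvd_of_pow_eq_one hq
  rcases (Nat.dvd_prime hr).mp h4 with h6 | h6
  · exact absurd (orderOf_eq_one_iff.mp h6) h1
  · rwa [h6] at h5

/-- If `ν ↦ τ * (ν⁻¹) ^ q₀` fixes `a ≠ 0` then `τ = a ^ (q₀ + 1)`. -/
theorem tau_eq_of_fix {q₀ : ℕ} {τ a : F} (ha : a ≠ 0) (h : τ * (a⁻¹) ^ q₀ = a) :
    τ = a ^ (q₀ + 1) := by
  rw [inv_pow] at h
  rw [pow_succ']
  exact (mul_inv_eq_iff_eq_mul₀ (pow_ne_zero _ ha)).mp h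

end Cfsg.Agent.H34.Uni
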