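import Mathlib
import Cfsg.Agent.H34.UniWit

/-!
`S5982-WB` (helper99's team project): a witness `diag (ζ (r times), 1, …, 1)` for the unitary
symmetry `ν ↦ τ * (ν⁻¹) ^ q₀`. Adapted from helper77's `H77/SubWB`.
-/

set_option autoImplicit false

open scoped MatrixGroups

namespace Cfsg.Agent.H34.Uni

variable {F : Type*} [Field F] [Fintype F]

theorem exists_witness_UB (q₀ n r : ℕ) (hr : r.Prime) (hNR : ¬ r ∣ q₀ + 1) (hrn : r < n)
    (hn2 : n ≠ 2 * r) (ζ : F) (hζ : ζ ^ r = 1) (hζ1 : ζ ≠ 1) :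
    ∃ M : Matrix (Fin n) (Fin n) F, M.det = 1 ∧ M ^ r = 1 ∧
      (∀ z : F, M ≠ z • (1 : Matrix (Fin n) (Fin n) F)) ∧
      ¬ ∃ τ : F, τ ≠ 0 ∧ ∀ ν : F, (M - ν • (1 : Matrix (Fin n) (Fin n) F)).rank
        = (M - (τ * (ν⁻¹) ^ q₀) • (1 : Matrix (Fin n) (Fin n) F)).rank := by
  classical
  let d : Fin n → F := fun i => if (i : ℕ) < r then ζ else 1
  have hrpos : 0 < r := hr.pos
  have hζ0 : ζ ≠ 0 := by
    rintro rfl
    rw [zero_pow hr.ne_zero] at hζ
    exact zero_ne_one hζ
  have hc1 : Fintype.card {i : Fin n // d i ≠ 1} = r := by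
    rw [← card_fin_lt_eq n r hrn.le]
    apply Fintype.card_congr
    apply Equiv.subtypeEquivRight
    intro i
    show (if (i : ℕ) < r then ζ else 1) ≠ 1 ↔ (i : ℕ) < r
    by_cases hi : (i : ℕ) < r
    · simp [hi, hζ1]
    · simp [hi]
  have hcζ : Fintype.card {i : Fin n // d i ≠ ζ} = n - r := by
    have h1 : Fintype.card {i : Fin n // ¬ (i : ℕ) < r} = n - r := by
      rw [Fintype.card_subtype_compl, card_fin_lt_eq n r hrn.le, Fintype.card_fin]
    rw [← h1]
    apply Fintype.card_congr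
    apply Equiv.subtypeEquivRight
    intro i
    show (if (i : ℕ) < r then ζ else 1) ≠ ζ ↔ ¬ (i : ℕ) < r
    by_cases hi : (i : ℕ) < r
    · simp [hi]
    · simp [hi, Ne.symm hζ1]
  have hcother : ∀ ν : F, ν ≠ 1 → ν ≠ ζ → Fintype.card {i : Fin n // d i ≠ ν} = n := by
    intro ν h1 h2
    have hall : ∀ i : Fin n, d i ≠ ν := by
      intro i
      show (if (i : ℕ) < r then ζ else 1) ≠ ν
      by_cases hi : (i : ℕ) < r
      · rw [if_pos hi]
        exact Ne.symm h2
      · rw [if_neg hi]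
        exact Ne.symm h1
    rw [Fintype.card_congr (Equiv.subtypeUnivEquiv hall), Fintype.card_fin]
  refine ⟨Matrix.diagonal d, ?_, ?_, ?_, ?_⟩
  · rw [Matrix.det_diagonal]
    show ∏ i : Fin n, (if (i : ℕ) < r then ζ else 1) = 1
    rw [Fin.prod_univ_eq_prod_range (fun x => if x < r then ζ else 1) n]
    obtain ⟨k, rfl⟩ : ∃ k, n = r + k := ⟨n - r, by omega⟩
    rw [Finset.prod_range_add]
    have e1 : ∏ x ∈ Finset.range r, (if x < r then ζ else 1) = ζ ^ r := by
      rw [Finset.prod_congr rfl (fun x hx => if_pos (Finset.mem_range.mp hx)),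
        Finset.prod_const, Finset.card_range]
    have e2 : ∏ x ∈ Finset.range k, (if r + x < r then ζ else 1) = 1 := by
      apply Finset.prod_eq_one
      intro x _
      rw [if_neg (by omega)]
    rw [e1, e2, hζ, mul_one]
  · rw [Matrix.diagonal_pow]
    have hdr : d ^ r = fun _ => (1 : F) := by
      funext i
      show (if (i : ℕ) < r then ζ else 1) ^ r = 1
      by_cases hi : (i : ℕ) < r
      · rw [if_pos hi, hζ]
      · rw [if_neg hi, one_pow]
    rw [hdr]
    exact Matrix.diagonal_one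
  · intro z hz
    have h0 := congrFun (congrFun hz ⟨0, by omega⟩) ⟨0, by omega⟩
    have hr' := congrFun (congrFun hz ⟨r, hrn⟩) ⟨r, hrn⟩
    simp only [Matrix.diagonal_apply_eq, Matrix.smul_apply, Matrix.one_apply_eq, smul_eq_mul,
      mul_one] at h0 hr'
    have h0' : d ⟨0, by omega⟩ = ζ := if_pos hrpos
    have hr'' : d ⟨r, hrn⟩ = 1 := if_neg (lt_irrefl r)
    rw [h0'] at h0
    rw [hr''] at hr'
    exact hζ1 (h0.trans hr'.symm)
  · rintro ⟨τ, hτ, hrank⟩
    have hcount : ∀ ν : F, Fintype.card {i : Fin n // d i ≠ ν}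
        = Fintype.card {i : Fin n // d i ≠ τ * (ν⁻¹) ^ q₀} := by
      intro ν
      rw [← rank_diag_sub_card, ← rank_diag_sub_card]
      exact hrank ν
    have h1 := hcount 1
    rw [inv_one, one_pow, mul_one, hc1] at h1
    have hτ1 : τ = 1 := by
      by_contra hne
      by_cases hτζ : τ = ζ
      · rw [hτζ, hcζ] at h1
        omega
      · rw [hcother τ hne hτζ] at h1
        omega
    have h2 := hcount ζ
    rw [hτ1, one_mul, hcζ] at h2
    have hfix : (ζ⁻¹) ^ q₀ = ζ := by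
      by_contra hne
      by_cases h3 : (ζ⁻¹) ^ q₀ = 1
      · rw [h3, hc1] at h2
        omega
      · rw [hcother _ h3 hne] at h2
        omega
    have h4 : (1 : F) = ζ ^ (q₀ + 1) := tau_eq_of_fix hζ0 (by rw [one_mul]; exact hfix)
    exact hNR (dvd_of_root r (q₀ + 1) hr ζ hζ1 hζ h4.symm)

end Cfsg.Agent.H34.Uni
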