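import Mathlib
import Cfsg.Agent.H34.UniWit

/-!
`S5982-WC` (helper99's team project): a witness `diag (ζ, ζ, ζ⁻², 1, …, 1)` for the unitary
symmetry `ν ↦ τ * (ν⁻¹) ^ q₀`. Adapted from helper18's `H18/SubWC`.
-/

set_option autoImplicit false

open scoped MatrixGroups

namespace Cfsg.Agent.H34.Uni

variable {F : Type*} [Field F] [Fintype F]

theorem exists_witness_UC (q₀ n r : ℕ) (hr : r.Prime) (hr2 : r ≠ 2) (hr3 : r ≠ 3)
    (hNR : ¬ r ∣ q₀ + 1) (hn : 6 ≤ n) (ζ : F) (hζ : ζ ^ r = 1) (hζ1 : ζ ≠ 1) :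
    ∃ M : Matrix (Fin n) (Fin n) F, M.det = 1 ∧ M ^ r = 1 ∧
      (∀ z : F, M ≠ z • (1 : Matrix (Fin n) (Fin n) F)) ∧
      ¬ ∃ τ : F, τ ≠ 0 ∧ ∀ ν : F, (M - ν • (1 : Matrix (Fin n) (Fin n) F)).rank
        = (M - (τ * (ν⁻¹) ^ q₀) • (1 : Matrix (Fin n) (Fin n) F)).rank := by
  classical
  obtain ⟨k, rfl⟩ : ∃ k, n = k + 3 := ⟨n - 3, by omega⟩
  have hk : 3 ≤ k := by omega
  have hζ0 : ζ ≠ 0 := by
    rintro rfl
    rw [zero_pow hr.ne_zero] at hζ
    exact zero_ne_one hζ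
  have hζ2 : ζ ^ 2 ≠ 1 := by
    intro h
    have h3 := pow_gcd_eq_one.mpr ⟨h, hζ⟩
    have hcop : Nat.gcd 2 r = 1 :=
      (Nat.coprime_primes Nat.prime_two hr).mpr (Ne.symm hr2)
    rw [hcop, pow_one] at h3
    exact hζ1 h3
  have hζ3 : ζ ^ 3 ≠ 1 := by
    intro h
    have h3 := pow_gcd_eq_one.mpr ⟨h, hζ⟩
    have hcop : Nat.gcd 3 r = 1 :=
      (Nat.coprime_primes Nat.prime_three hr).mpr (Ne.symm hr3)
    rw [hcop, pow_one] at h3
    exact hζ1 h3
  obtain ⟨w, hw⟩ : ∃ w, w = (ζ ^ 2)⁻¹ := ⟨_, rfl⟩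
  have hζ20 : ζ ^ 2 ≠ 0 := pow_ne_zero _ hζ0
  have hw1 : w ≠ 1 := by
    intro h
    apply hζ2
    rw [hw, inv_eq_one] at h
    exact h
  have hwζ : w ≠ ζ := by
    intro h
    apply hζ3
    have h2 : ζ ^ 2 * w = 1 := by rw [hw, mul_inv_cancel₀ hζ20]
    rw [h] at h2
    rw [pow_succ]
    exact h2
  obtain ⟨d, hd⟩ : ∃ d : Fin (k + 3) → F,
      d = Fin.cons ζ (Fin.cons ζ (Fin.cons w (fun _ : Fin k => (1 : F)))) := ⟨_, rfl⟩
  have hd0 : d 0 = ζ := by rw [hd]; rfl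
  have hd1 : d (Fin.succ 0) = ζ := by rw [hd]; rfl
  have hd2 : d (Fin.succ (Fin.succ 0)) = w := by rw [hd]; rfl
  have hds : ∀ i : Fin k, d i.succ.succ.succ = 1 := by intro i; rw [hd]; rfl
  have hR : ∀ μ : F, (Matrix.diagonal d - μ • (1 : Matrix (Fin (k + 3)) (Fin (k + 3)) F)).rank
      = (if ζ ≠ μ then 1 else 0) + ((if ζ ≠ μ then 1 else 0) + ((if w ≠ μ then 1 else 0)
        + k * (if (1 : F) ≠ μ then 1 else 0))) := by
    intro μ
    rw [rank_diag_sub_sum, Fin.sum_univ_succ, Fin.sum_univ_succ, Fin.sum_univ_succ, hd0, hd1, hd2]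
    simp only [hds, Finset.sum_const, Finset.card_univ, Fintype.card_fin, smul_eq_mul]
  refine ⟨Matrix.diagonal d, ?_, ?_, ?_, ?_⟩
  · rw [Matrix.det_diagonal, Fin.prod_univ_succ, Fin.prod_univ_succ, Fin.prod_univ_succ, hd0, hd1,
      hd2]
    simp only [hds, Finset.prod_const, one_pow, mul_one]
    rw [hw, ← mul_assoc, ← sq, mul_inv_cancel₀ hζ20]
  · rw [Matrix.diagonal_pow, ← Matrix.diagonal_one]
    congr 1
    funext i
    rw [Pi.pow_apply]
    show d i ^ r = 1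
    refine Fin.cases ?_ (fun i1 => ?_) i
    · rw [hd0, hζ]
    · refine Fin.cases ?_ (fun i2 => ?_) i1
      · rw [hd1, hζ]
      · refine Fin.cases ?_ (fun i3 => ?_) i2
        · rw [hd2, hw, inv_pow, ← pow_mul, mul_comm, pow_mul, hζ, one_pow, inv_one]
        · rw [hds, one_pow]
  · intro z h
    have e0 := congrFun (congrFun h 0) 0
    have e1 := congrFun (congrFun h (Fin.succ (Fin.succ (Fin.succ ⟨0, by omega⟩))))
      (Fin.succ (Fin.succ (Fin.succ ⟨0, by omega⟩)))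
    simp only [Matrix.diagonal_apply_eq, Matrix.smul_apply, Matrix.one_apply_eq, smul_eq_mul,
      mul_one] at e0 e1
    rw [hd0] at e0
    rw [hds] at e1
    exact hζ1 (e0.trans e1.symm)
  · rintro ⟨τ, hτ0, hτ⟩
    have hR1 : (Matrix.diagonal d - (1 : F) • (1 : Matrix (Fin (k + 3)) (Fin (k + 3)) F)).rank
        = 3 := by
      rw [hR, if_pos hζ1, if_pos hw1, if_neg (not_not.mpr rfl)]
      omega
    have hRζ : (Matrix.diagonal d - ζ • (1 : Matrix (Fin (k + 3)) (Fin (k + 3)) F)).rank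
        = 1 + k := by
      rw [hR, if_neg (not_not.mpr rfl), if_pos hwζ, if_pos (Ne.symm hζ1)]
      omega
    have hτ1 : τ = 1 := by
      by_contra hne
      have h2 := hτ 1
      rw [inv_one, one_pow, mul_one, hR1, hR, if_pos (Ne.symm hne)] at h2
      have hor : ζ ≠ τ ∨ w ≠ τ := by
        by_contra hc
        push Not at hc
        exact hwζ (hc.2.trans hc.1.symm)
      rcases hor with ha | hb
      · rw [if_pos ha] at h2
        split_ifs at h2 <;> omega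
      · rw [if_pos hb] at h2
        split_ifs at h2 <;> omega
    subst hτ1
    have hq : (ζ⁻¹) ^ q₀ = ζ := by
      by_contra hne
      have h3 := hτ ζ
      rw [one_mul, hRζ, hR, if_pos (Ne.symm hne)] at h3
      split_ifs at h3 <;> omega
    have h4 : (1 : F) = ζ ^ (q₀ + 1) := tau_eq_of_fix hζ0 (by rw [one_mul]; exact hq)
    exact hNR (dvd_of_root r (q₀ + 1) hr ζ hζ1 hζ h4.symm)

end Cfsg.Agent.H34.Uni
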